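import Cfsg.Agent.H61.PermTwo.CompBlock
import Mathlib.Tactic.LinearCombination
import Mathlib.Tactic.IntervalCases

/-!
The transitive component lemma (slice F of S4197).
-/

namespace Cfsg.Agent.H61.PermTwo

open Equiv

namespace Comp

section Step

variable {X : Type} [Fintype X] {p k : ℕ} [hp : Fact p.Prime] {S : Finset X}
  {P K N : Subgroup (Perm X)} {x : Perm X}

theorem outer_fx (hB : Blk p (p ^ k) S P K) {y : Perm X} (hy : y ∈ P) (hyK : y ∉ K) :
    fx S S y = 0 := by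
  classical
  unfold fx
  rw [Finset.card_eq_zero, Finset.filter_eq_empty_iff]
  intro a ha h
  exact hyK (hB.stab y hy a (Finset.mem_inter.1 ha).1 h)

theorem outer_cyc (hs : ∀ g ∈ P, ∀ z, z ∉ S → g z = z)
    (ht : ∀ a ∈ S, ∀ b ∈ S, ∃ g ∈ P, g a = b)
    (hB : Blk p (p ^ k) S P K) {y : Perm X} (hy : y ∈ P) (hyK : y ∉ K) :
    cyc S y ≤ p ^ k := by
  classical
  rcases S.eq_empty_or_nonempty with rfl | ⟨a₀, ha₀⟩
  · simp [cyc]
  rw [cyc_def, ← hB.card_orb a₀ ha₀]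
  refine (Finset.card_le_card ?_).trans
    (Finset.card_image_le (f := fun b => Quotient.mk (Perm.SameCycle.setoid y) b))
  intro q hq
  obtain ⟨b, hb, rfl⟩ := Finset.mem_image.1 hq
  obtain ⟨g, hg, rfl⟩ := ht a₀ ha₀ b hb
  have hginv : y⁻¹ ∉ K := fun h => hyK (by simpa using K.inv_mem h)
  obtain ⟨i, hi⟩ := hB.gen y hy hyK g⁻¹ (P.inv_mem hg)
  have hm : y ^ (-i) * g ∈ K := by
    have := K.inv_mem hi
    simpa [zpow_neg] using this
  refine Finset.mem_image.2 ⟨(y ^ (-i) * g) a₀, mem_orb.2 ⟨?_, _, hm, rfl⟩, ?_⟩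
  · exact (supp_inv hs _ (hB.le hm) a₀).2 ha₀
  · refine Quotient.sound ⟨i, ?_⟩
    rw [← Perm.mul_apply, ← mul_assoc, ← zpow_add, add_neg_cancel, zpow_zero, one_mul]

theorem outer_val (hs : ∀ g ∈ P, ∀ z, z ∉ S → g z = z)
    (ht : ∀ a ∈ S, ∀ b ∈ S, ∃ g ∈ P, g a = b)
    (hB : Blk p (p ^ k) S P K) {H : ℕ → ℕ → ℝ}
    (hmon : ∀ c c', c ≤ c' → H 0 c ≤ H 0 c') {y : Perm X} (hy : y ∈ P) (hyK : y ∉ K) :
    H (fx S S y) (oc S S y) ≤ H 0 (p ^ k) := by
  rw [outer_fx hB hy hyK]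
  refine hmon _ _ ?_
  unfold oc
  rw [outer_fx hB hy hyK, Nat.sub_zero]
  exact outer_cyc hs ht hB hy hyK

/-- A centraliser in `K` of an element outside `K` is small. -/
theorem cent_outer_le (hP : IsPGroup p P) (hs : ∀ g ∈ P, ∀ z, z ∉ S → g z = z)
    (ht : ∀ a ∈ S, ∀ b ∈ S, ∃ g ∈ P, g a = b) (hne : S.Nonempty)
    (hB : Blk p (p ^ k) S P K) {y : Perm X} (hy : y ∈ P) (hyK : y ∉ K)
    (L : Subgroup (Perm X)) (hL : L ≤ K) :
    cent L y ≤ p ^ ((p ^ k - 1) / (p - 1)) := by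
  classical
  obtain ⟨a₀, ha₀⟩ := hne
  have hsK : ∀ g ∈ K, ∀ z, z ∉ S → g z = z := fun g hg => hs g (hB.le hg)
  let O := orb S K a₀
  have hinv : ∀ g ∈ K, ∀ z, g z ∈ O ↔ z ∈ O := orb_inv hsK a₀
  let r : K →* Perm {z // z ∈ O} :=
    { toFun := fun g => Perm.subtypePerm (g : Perm X) (p := fun z => z ∈ O) (hinv g g.2)
      map_one' := Equiv.ext fun _ => rfl
      map_mul' := fun _ _ => Equiv.ext fun _ => rfl }
  have hKP : IsPGroup p K := hP.to_le hB.le
  haveI : Nonempty {z // z ∈ O} :=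
    ⟨⟨a₀, mem_orb.2 ⟨ha₀, 1, K.one_mem, rfl⟩⟩⟩
  obtain ⟨a, ha, hab⟩ := Cfsg.Agent.H91.PermClasses.exists_card_eq_pow r.range
    (IsPGroup.of_surjective hKP r.rangeRestrict r.rangeRestrict_surjective)
  rw [Fintype.card_coe, hB.card_orb a₀ ha₀] at hab
  have hinj : Function.Injective (fun m : {m : L // (m : Perm X) * y = y * (m : Perm X)} =>
      r.rangeRestrict ⟨(m.1 : Perm X), hL m.1.2⟩) := by
    intro m m' h
    apply Subtype.ext
    apply Subtype.ext
    refine Equiv.ext fun z => ?_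
    by_cases hz : z ∈ S
    · obtain ⟨g, hg, rfl⟩ := ht a₀ ha₀ z hz
      obtain ⟨i, hi⟩ := hB.gen y hy hyK g⁻¹ (P.inv_mem hg)
      have hm : y ^ (-i) * g ∈ K := by
        have := K.inv_mem hi
        simpa [zpow_neg] using this
      have hw : (y ^ (-i) * g) a₀ ∈ O :=
        mem_orb.2 ⟨(supp_inv hsK _ hm a₀).2 ha₀, _, hm, rfl⟩
      have e := congrArg Subtype.val (Equiv.congr_fun (congrArg Subtype.val h) ⟨_, hw⟩)
      have c1 : Commute (m.1 : Perm X) y := m.2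
      have c2 : Commute (m'.1 : Perm X) y := m'.2
      have hg' : g a₀ = (y ^ i) ((y ^ (-i) * g) a₀) := by
        rw [← Perm.mul_apply, ← mul_assoc, ← zpow_add, add_neg_cancel, zpow_zero, one_mul]
      have k1 : ∀ (u : Perm X), Commute u y → ∀ w, u ((y ^ i) w) = (y ^ i) (u w) := fun u hu w => by
        rw [← Perm.mul_apply, (hu.zpow_right i).eq, Perm.mul_apply]
      rw [hg', k1 _ c1, k1 _ c2]
      exact congrArg _ e
    · rw [hsK _ (hL m.1.2) z hz, hsK _ (hL m'.1.2) z hz]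
  calc cent L y ≤ Nat.card r.range := Nat.card_le_card_of_injective _ hinj
    _ ≤ _ := by
      rw [ha]
      refine Nat.pow_le_pow_right hp.out.pos ?_
      rw [Nat.le_div_iff_mul_le (Nat.sub_pos_of_lt hp.out.one_lt), mul_comm]
      exact hab

theorem relIndex_le (hB : Blk p (p ^ k) S P K) (L : Subgroup (Perm X)) (hL : L ≤ P) :
    Nat.card L ≤ p * Nat.card ↥(L ⊓ K) := by
  have h := Subgroup.relIndex_mul_relIndex ⊥ (L ⊓ K) L bot_le inf_le_left
  rw [Subgroup.relIndex_bot_left, Subgroup.relIndex_bot_left] at h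
  have h2 : (L ⊓ K).relIndex L ≤ p := by
    rw [Subgroup.inf_relIndex_left, ← hB.relIndex]
    exact Subgroup.relIndex_le_of_le_right hL (by rw [hB.relIndex]; exact hp.out.ne_zero)
  calc Nat.card L = Nat.card ↥(L ⊓ K) * (L ⊓ K).relIndex L := h.symm
    _ ≤ _ := by rw [mul_comm p]; exact Nat.mul_le_mul_left _ h2

theorem cent_le_inf (hB : Blk p (p ^ k) S P K) (hN : N ≤ P) (y : Perm X) :
    cent N y ≤ p * cent (N ⊓ K) y := by
  rw [cent_eq, cent_eq, inf_right_comm]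
  exact relIndex_le hB _ (inf_le_left.trans hN)

theorem card_inf_mul (hB : Blk p (p ^ k) S P K) (hN : N ≤ P) (hNK : ¬ N ≤ K) :
    Nat.card N = p * Nat.card ↥(N ⊓ K) := by
  have h := Subgroup.relIndex_mul_relIndex ⊥ (N ⊓ K) N bot_le inf_le_left
  rw [Subgroup.relIndex_bot_left, Subgroup.relIndex_bot_left] at h
  have hnorm : (K.subgroupOf P).Normal :=
    ⟨fun m hm g => hB.normal g g.2 m hm⟩
  have h2 : K.relIndex N ∣ p := by
    have := Subgroup.relIndex_dvd_index_of_normal (H := K.subgroupOf P) (N.subgroupOf P)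
    rw [Subgroup.relIndex_subgroupOf hN] at this
    exact this.trans (dvd_of_eq hB.relIndex)
  have h3 : K.relIndex N = p := by
    refine ((Nat.dvd_prime hp.out).1 h2).resolve_left fun h1 => hNK ?_
    exact Subgroup.relIndex_eq_one.1 h1
  rw [← h, Subgroup.inf_relIndex_left, h3, mul_comm]

/-- Inner part of the orbit sum. -/
noncomputable def inner (K N : Subgroup (Perm X)) (x : Perm X) (f : Perm X → ℝ) : ℝ :=
  haveI : Fintype ↥(N ⊓ K) := Fintype.ofFinite _
  (∑ n : ↥(N ⊓ K), f (x * (n : Perm X)) * (cent N (x * (n : Perm X)) : ℝ)) / (Nat.card N : ℝ)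

theorem inner_def (K N : Subgroup (Perm X)) [Fintype ↥(N ⊓ K)] (x : Perm X) (f : Perm X → ℝ) :
    inner K N x f =
      (∑ n : ↥(N ⊓ K), f (x * (n : Perm X)) * (cent N (x * (n : Perm X)) : ℝ)) /
        (Nat.card N : ℝ) := by
  unfold inner
  refine congrArg (· / _) ?_
  convert rfl

theorem inner_le (hB : Blk p (p ^ k) S P K) (hN : N ≤ P) (hNK : ¬ N ≤ K) (f : Perm X → ℝ)
    (hf : ∀ u, 0 ≤ f u) : inner K N x f ≤ os (N ⊓ K) x f := by
  haveI : Fintype ↥(N ⊓ K) := Fintype.ofFinite _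
  have hp0 : (0 : ℝ) < p := by exact_mod_cast hp.out.pos
  rw [inner_def, os_def, card_inf_mul hB hN hNK, Nat.cast_mul,
    div_le_div_iff₀ (mul_pos hp0 (by exact_mod_cast Nat.card_pos)) (by exact_mod_cast Nat.card_pos),
    Finset.sum_mul, Finset.sum_mul]
  refine Finset.sum_le_sum fun n _ => ?_
  have h : (cent N (x * n) : ℝ) ≤ (p : ℝ) * (cent (N ⊓ K) (x * n) : ℝ) := by
    exact_mod_cast cent_le_inf hB hN _
  calc f (x * n) * (cent N (x * n) : ℝ) * (Nat.card ↥(N ⊓ K) : ℝ)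
      ≤ f (x * n) * ((p : ℝ) * (cent (N ⊓ K) (x * n) : ℝ)) * (Nat.card ↥(N ⊓ K) : ℝ) :=
        mul_le_mul_of_nonneg_right (mul_le_mul_of_nonneg_left h (hf _)) (Nat.cast_nonneg _)
    _ = _ := by ring

/-- The three cases: all outer, all inner, or mixed. -/
theorem cases_bound (hsit : Sit p S P N x) (ht : ∀ a ∈ S, ∀ b ∈ S, ∃ g ∈ P, g a = b)
    (hne : S.Nonempty) (hB : Blk p (p ^ k) S P K) {H : ℕ → ℕ → ℝ} (hnn : ∀ f c, 0 ≤ H f c)
    (hmon : ∀ c c', c ≤ c' → H 0 c ≤ H 0 c') :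
    (N ≤ K ∧ x ∈ K) ∨
    os N x (fun u => H (fx S S u) (oc S S u)) ≤
      ((p ^ ((p ^ k - 1) / (p - 1)) : ℕ) : ℝ) * H 0 (p ^ k) ∨
    (¬ N ≤ K ∧ ∃ x' ∈ K, Sit p S K (N ⊓ K) x' ∧ (∀ n ∈ N, x' * n * x'⁻¹ ∈ N) ∧
      os N x (fun u => H (fx S S u) (oc S S u)) ≤
        inner K N x' (fun u => H (fx S S u) (oc S S u)) +
          (((p - 1) * p ^ ((p ^ k - 1) / (p - 1)) : ℕ) : ℝ) * H 0 (p ^ k)) := by
  classical
  set e := (p ^ k - 1) / (p - 1) with he
  let f : Perm X → ℝ := fun u => H (fx S S u) (oc S S u)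
  haveI : Fintype N := Fintype.ofFinite N
  have hN0 : (0 : ℝ) < Nat.card N := by exact_mod_cast Nat.card_pos
  have hs := hsit.supp
  by_cases hNK : N ≤ K
  · by_cases hxK : x ∈ K
    · exact Or.inl ⟨hNK, hxK⟩
    refine Or.inr (Or.inl ?_)
    rw [os_def, div_le_iff₀ hN0]
    calc ∑ n : N, f (x * n) * (cent N (x * n) : ℝ)
        ≤ ∑ _n : N, H 0 (p ^ k) * ((p ^ e : ℕ) : ℝ) := by
          refine Finset.sum_le_sum fun n _ => ?_
          have hy : x * (n : Perm X) ∈ P := P.mul_mem hsit.mem (hsit.le n.2)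
          have hyK : x * (n : Perm X) ∉ K := fun h =>
            hxK (by simpa using K.mul_mem h (K.inv_mem (hNK n.2)))
          refine mul_le_mul (outer_val hs ht hB hmon hy hyK) ?_ (Nat.cast_nonneg _) (hnn _ _)
          exact_mod_cast cent_outer_le hsit.pgroup hs ht hne hB hy hyK N hNK
      _ = _ := by
          rw [Finset.sum_const, Finset.card_univ, ← Nat.card_eq_fintype_card, nsmul_eq_mul]
          ring
  refine Or.inr (Or.inr ⟨hNK, ?_⟩)
  obtain ⟨n₁, hn₁, hn₁K⟩ := SetLike.not_le_iff_exists.1 hNK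
  obtain ⟨i, hi⟩ := hB.gen n₁ (hsit.le hn₁) hn₁K x hsit.mem
  let x' := x * n₁ ^ i
  have hn₀ : n₁ ^ i ∈ N := N.zpow_mem hn₁ i
  have hx'P : x' ∈ P := hB.le hi
  have hnorm : ∀ n ∈ N, x' * n * x'⁻¹ ∈ N := fun n hn => by
    rw [show x' * n * x'⁻¹ = x * (n₁ ^ i * n * (n₁ ^ i)⁻¹) * x⁻¹ by simp only [x']; group]
    exact hsit.normal _ (N.mul_mem (N.mul_mem hn₀ hn) (N.inv_mem hn₀))
  refine ⟨x', hi, ⟨hsit.pgroup.to_le hB.le, fun g hg => hs g (hB.le hg), inf_le_right, hi,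
    fun n hn => ⟨hnorm n hn.1, hB.normal x' hx'P n hn.2⟩⟩, hnorm, ?_⟩
  rw [show os N x f = os N x' f from (os_coset N x f hn₀).symm]
  haveI : Fintype ↥(N ⊓ K) := Fintype.ofFinite _
  rw [os_def, inner_def, ← Finset.sum_filter_add_sum_filter_not Finset.univ
    (fun n : N => (n : Perm X) ∈ K), add_div]
  have hin : ∑ n ∈ Finset.univ.filter (fun n : N => (n : Perm X) ∈ K),
      f (x' * n) * (cent N (x' * n) : ℝ) =
      ∑ n : ↥(N ⊓ K), f (x' * n) * (cent N (x' * n) : ℝ) := by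
    refine Finset.sum_bij' (fun n hn => ⟨n.1, n.2, (Finset.mem_filter.1 hn).2⟩)
      (fun n _ => ⟨n.1, n.2.1⟩) ?_ ?_ ?_ ?_ ?_
    · intro n _; exact Finset.mem_univ _
    · intro n _; exact Finset.mem_filter.2 ⟨Finset.mem_univ _, n.2.2⟩
    · intro n _; rfl
    · intro n _; rfl
    · intro n _; rfl
  refine add_le_add (le_of_eq (by rw [hin])) ?_
  rw [div_le_iff₀ hN0]
  have hcard : ((Finset.univ.filter fun n : N => ¬ (n : Perm X) ∈ K).card : ℝ) * (p : ℝ) =
      ((p - 1 : ℕ) : ℝ) * (Nat.card N : ℝ) := by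
    have h1 := Finset.card_filter_add_card_filter_not
      (s := (Finset.univ : Finset N)) (fun n : N => (n : Perm X) ∈ K)
    have h2 : (Finset.univ.filter fun n : N => (n : Perm X) ∈ K).card = Nat.card ↥(N ⊓ K) := by
      rw [← Fintype.card_subtype, ← Nat.card_eq_fintype_card]
      exact Nat.card_congr
        ⟨fun n => ⟨n.1.1, n.1.2, n.2⟩, fun n => ⟨⟨n.1, n.2.1⟩, n.2.2⟩, fun _ => rfl, fun _ => rfl⟩
    rw [Finset.card_univ, ← Nat.card_eq_fintype_card, card_inf_mul hB hsit.le hNK, h2] at h1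
    obtain ⟨q, hq⟩ : ∃ q, p = q + 1 := ⟨p - 1, by have := hp.out.pos; omega⟩
    rw [card_inf_mul hB hsit.le hNK]
    have h3 : (Finset.univ.filter fun n : N => ¬ (n : Perm X) ∈ K).card * p =
        (p - 1) * (p * Nat.card ↥(N ⊓ K)) := by
      subst hq
      simp only [Nat.add_sub_cancel] at *
      nlinarith
    exact_mod_cast h3
  calc ∑ n ∈ Finset.univ.filter (fun n : N => ¬ (n : Perm X) ∈ K),
        f (x' * n) * (cent N (x' * n) : ℝ)
      ≤ ∑ _n ∈ Finset.univ.filter (fun n : N => ¬ (n : Perm X) ∈ K),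
        H 0 (p ^ k) * ((p : ℝ) * ((p ^ e : ℕ) : ℝ)) := by
        refine Finset.sum_le_sum fun n hn => ?_
        have hnK := (Finset.mem_filter.1 hn).2
        have hy : x' * (n : Perm X) ∈ P := P.mul_mem hx'P (hsit.le n.2)
        have hyK : x' * (n : Perm X) ∉ K := fun h =>
          hnK (by
      have h' := K.mul_mem (K.inv_mem (show x' ∈ K from hi)) h
      rwa [inv_mul_cancel_left] at h')
        refine mul_le_mul (outer_val hs ht hB hmon hy hyK) ?_ (Nat.cast_nonneg _) (hnn _ _)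
        have := (cent_le_inf hB hsit.le (x' * n)).trans (Nat.mul_le_mul_left p
          (cent_outer_le hsit.pgroup hs ht hne hB hy hyK (N ⊓ K) inf_le_right))
        exact_mod_cast this
    _ = _ := by
        rw [Finset.sum_const, nsmul_eq_mul, Nat.cast_mul]
        linear_combination (H 0 (p ^ k) * ((p ^ e : ℕ) : ℝ)) * hcard

end Step

theorem outer_nonneg (p k : ℕ) {H : ℕ → ℕ → ℝ} (h : ∀ f c, 0 ≤ H f c) :
    0 ≤ (((p - 1) * p ^ ((p ^ k - 1) / (p - 1)) : ℕ) : ℝ) * H 0 (p ^ k) :=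
  mul_nonneg (Nat.cast_nonneg _) (h _ _)

theorem nest_mono {C : (ℕ → ℕ → ℝ) → ℝ}
    (hC : ∀ H H' : ℕ → ℕ → ℝ, (∀ f c, H f c ≤ H' f c) → C H ≤ C H') :
    ∀ (m : ℕ) (H H' : ℕ → ℕ → ℝ), (∀ f c, H f c ≤ H' f c) → nest C m H ≤ nest C m H' := by
  intro m
  induction m with
  | zero => intro H H' h; exact h 0 0
  | succ m ih => intro H H' h; exact hC _ _ fun f c => ih _ _ fun f' c' => h _ _

theorem nest_nonneg {C : (ℕ → ℕ → ℝ) → ℝ}
    (hC : ∀ H : ℕ → ℕ → ℝ, (∀ f c, 0 ≤ H f c) → 0 ≤ C H) :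
    ∀ (m : ℕ) (H : ℕ → ℕ → ℝ), (∀ f c, 0 ≤ H f c) → 0 ≤ nest C m H := by
  intro m
  induction m with
  | zero => intro H h; exact h 0 0
  | succ m ih => intro H h; exact hC _ fun f c => ih _ fun f' c' => h _ _

theorem comp_mono (p : ℕ) : ∀ (k : ℕ) (H H' : ℕ → ℕ → ℝ), (∀ f c, H f c ≤ H' f c) →
    comp p k H ≤ comp p k H' := by
  intro k
  induction k with
  | zero => intro H H' h; exact h 1 0
  | succ k ih =>
    intro H H' h
    exact add_le_add (nest_mono ih p H H' h) (mul_le_mul_of_nonneg_left (h _ _) (Nat.cast_nonneg _))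

theorem comp_nonneg (p : ℕ) : ∀ (k : ℕ) (H : ℕ → ℕ → ℝ), (∀ f c, 0 ≤ H f c) → 0 ≤ comp p k H := by
  intro k
  induction k with
  | zero => intro H h; exact h 1 0
  | succ k ih =>
    intro H h
    exact add_nonneg (nest_nonneg ih p H h) (outer_nonneg p k h)

theorem mono_shift {H : ℕ → ℕ → ℝ} (h : Mono H) (f c : ℕ) :
    Mono fun f' c' => H (f + f') (c + c') :=
  ⟨fun _ _ => h.1 _ _, fun _ _ _ hc => h.2 _ _ _ (Nat.add_le_add_left hc _)⟩

theorem mono_nest (p k m : ℕ) {H : ℕ → ℕ → ℝ} (h : Mono H) :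
    Mono fun f c => nest (comp p k) m fun f' c' => H (f + f') (c + c') :=
  ⟨fun _ _ => nest_nonneg (comp_nonneg p k) m _ fun _ _ => h.1 _ _,
    fun _ _ _ hc => nest_mono (comp_mono p k) m _ _ fun _ _ =>
      h.2 _ _ _ (Nat.add_le_add_right hc _)⟩

theorem zero_case {p : ℕ} {X : Type} [Fintype X] {S : Finset X} {P N : Subgroup (Perm X)}
    {x : Perm X} (hs : Sit p S P N x) (hcard : S.card = 1) (H : ℕ → ℕ → ℝ) :
    os N x (fun u => H (fx S S u) (oc S S u)) = H 1 0 := by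
  classical
  obtain ⟨a, rfl⟩ := Finset.card_eq_one.1 hcard
  have h1 : ∀ g ∈ P, g = 1 := fun g hg => Equiv.ext fun y => by
    by_cases hy : y = a
    · subst hy
      exact Finset.mem_singleton.1 ((supp_inv hs.supp g hg y).2 (Finset.mem_singleton_self y))
    · exact hs.supp g hg y (by simpa using hy)
  have hN : N = ⊥ := (Subgroup.eq_bot_iff_forall _).2 fun g hg => h1 g (hs.le hg)
  rw [hN, os_bot, h1 x hs.mem]
  have e1 : fx {a} {a} (1 : Perm X) = 1 := by simp [fx]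
  have e2 : oc {a} {a} (1 : Perm X) = 0 := by
    rw [oc, e1, cyc_def, Finset.image_singleton, Finset.card_singleton]
  rw [e1, e2]

/-- Recursion step: inner nest plus outer classes. -/
theorem comp_step {p k : ℕ} [hp : Fact p.Prime] {C : (ℕ → ℕ → ℝ) → ℝ}
    {Adm : (ℕ → ℕ → ℝ) → Prop} (hC : CompOK p k C Adm)
    (hnn : ∀ H, Adm H → ∀ f c, 0 ≤ H f c)
    (hmon : ∀ H, Adm H → ∀ c c', c ≤ c' → H 0 c ≤ H 0 c')
    (hshift : ∀ H, Adm H → ∀ f c, Adm fun f' c' => H (f + f') (c + c'))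
    (hcl : ∀ H, Adm H → ∀ m, Adm fun f c => nest C m fun f' c' => H (f + f') (c + c'))
    (hnest : ∀ H, Adm H → 0 ≤ nest C p H) :
    CompOK p (k + 1) (fun H => nest C p H +
      (((p - 1) * p ^ ((p ^ k - 1) / (p - 1)) : ℕ) : ℝ) * H 0 (p ^ k)) Adm := by
  intro X _ S P N x hs ht hcard H hH
  have hne : S.Nonempty := Finset.card_pos.1 (by rw [hcard]; exact pow_pos hp.out.pos _)
  obtain ⟨K, hB⟩ := exists_blk hs.pgroup hs.supp ht hcard
  have hcard' : S.card = p * p ^ k := by rw [hcard, pow_succ, mul_comm]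
  have hbound : ∀ (N' : Subgroup (Perm X)) (x' : Perm X), Sit p S K N' x' →
      os N' x' (fun u => H (fx S S u) (oc S S u)) ≤ nest C p H := fun N' x' hs' =>
    nest_bound hC hnn hshift hcl p S K N' x' hs' hB.card_orb hcard' H hH
  have hout := outer_nonneg p k (hnn H hH)
  rcases cases_bound hs ht hne hB (hnn H hH) (hmon H hH) with ⟨hNK, hxK⟩ | h1 | ⟨hNK, x', -, hs', -, h3⟩
  · have := hbound N x ⟨hs.pgroup.to_le hB.le, fun g hg => hs.supp g (hB.le hg), hNK, hxK, hs.normal⟩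
    linarith
  · have h0 := hnn H hH 0 (p ^ k)
    have h2 : ((p ^ ((p ^ k - 1) / (p - 1)) : ℕ) : ℝ) * H 0 (p ^ k) ≤
        (((p - 1) * p ^ ((p ^ k - 1) / (p - 1)) : ℕ) : ℝ) * H 0 (p ^ k) := by
      refine mul_le_mul_of_nonneg_right ?_ h0
      exact_mod_cast Nat.le_mul_of_pos_left _ (Nat.sub_pos_of_lt hp.out.one_lt)
    have := hnest H hH
    show _ ≤ nest C p H + _
    linarith
  · have h4 := (inner_le hB hs.le hNK _ (fun u => hnn H hH _ _)).trans (hbound _ x' hs')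
    show _ ≤ nest C p H + _
    linarith

end Comp

theorem compOK_comp (p k : ℕ) [Fact p.Prime] : CompOK p k (comp p k) Mono := by
  induction k with
  | zero =>
    intro X _ S P N x hs _ hcard H _
    exact (Comp.zero_case hs (by simpa using hcard) H).le
  | succ k ih =>
    exact Comp.comp_step ih (fun H h => h.1) (fun H h => h.2 0)
      (fun H h f c => Comp.mono_shift h f c) (fun H h m => Comp.mono_nest p k m h)
      (fun H h => Comp.nest_nonneg (Comp.comp_nonneg p k) p H h.1)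

namespace Comp

/-- Product weights. -/
def Prd (A B : ℝ) (H : ℕ → ℕ → ℝ) : Prop :=
  ∃ c₀, 0 ≤ c₀ ∧ ∀ f c, H f c = c₀ * (A ^ f * B ^ c)

theorem prd_shift {A B : ℝ} (hA : 0 ≤ A) (hB : 0 ≤ B) {H : ℕ → ℕ → ℝ} (h : Prd A B H) (f c : ℕ) :
    Prd A B fun f' c' => H (f + f') (c + c') := by
  obtain ⟨c₀, h0, h1⟩ := h
  exact ⟨c₀ * (A ^ f * B ^ c), mul_nonneg h0 (mul_nonneg (pow_nonneg hA _) (pow_nonneg hB _)),
    fun f' c' => by show H (f + f') (c + c') = _; rw [h1, pow_add, pow_add]; ring⟩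

theorem nest_prd (r : ℝ) : ∀ (m : ℕ) (H : ℕ → ℕ → ℝ),
    nest (fun H => r * H 0 0) m H = r ^ m * H 0 0 := by
  intro m
  induction m with
  | zero => intro H; simp [nest]
  | succ m ih =>
    intro H
    show r * nest (fun H => r * H 0 0) m (fun f' c' => H (0 + f') (0 + c')) = _
    rw [ih, pow_succ]
    simp only [Nat.add_zero]
    ring

theorem rImp_nonneg (p : ℕ) {A B : ℝ} (hA : 0 ≤ A) (hB : 0 ≤ B) : ∀ k, 0 ≤ rImp p A B k := by
  intro k
  induction k with
  | zero => exact hA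
  | succ k ih =>
    refine add_nonneg (pow_nonneg ih _) (mul_nonneg ?_ (pow_nonneg hB _))
    split_ifs
    all_goals first
      | exact le_refl (0 : ℝ)
      | exact Nat.cast_nonneg _

theorem prd_nest {A B : ℝ} (hA : 0 ≤ A) (hB : 0 ≤ B) (p k m : ℕ) {H : ℕ → ℕ → ℝ}
    (h : Prd A B H) :
    Prd A B fun f c => nest (fun H => rImp p A B k * H 0 0) m
      fun f' c' => H (f + f') (c + c') := by
  obtain ⟨c₀, h0, h1⟩ := h
  refine ⟨rImp p A B k ^ m * c₀, mul_nonneg (pow_nonneg (rImp_nonneg p hA hB k) _) h0,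
    fun f c => ?_⟩
  show nest _ m _ = _
  rw [nest_prd, h1, Nat.add_zero, Nat.add_zero]
  ring

set_option maxHeartbeats 1000000 in
/-- Degree `9`: no excess for product weights. -/
theorem nine_step {A B : ℝ} (hB : 1 ≤ B) (hA : B ≤ A ^ 3) (hA4 : A ^ 3 ≤ 4 * B) (hA1 : 1 ≤ A)
    [Fact (Nat.Prime 3)]
    (hC : CompOK 3 1 (fun H => rImp 3 A B 1 * H 0 0) (Prd A B)) :
    CompOK 3 2 (fun H => rImp 3 A B 1 ^ 3 * H 0 0) (Prd A B) := by
  classical
  have hA0 : 0 ≤ A := by linarith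
  have hB0 : 0 ≤ B := by linarith
  intro X _ S P N x hs ht hcard H hH
  obtain ⟨c₀, h0, h1⟩ := hH
  have hH : Prd A B H := ⟨c₀, h0, h1⟩
  have hnn : ∀ f c, 0 ≤ H f c := fun f c => by
    rw [h1]; exact mul_nonneg h0 (mul_nonneg (pow_nonneg hA0 _) (pow_nonneg hB0 _))
  have hmon : ∀ c c', c ≤ c' → H 0 c ≤ H 0 c' := fun c c' hc => by
    rw [h1, h1]
    exact mul_le_mul_of_nonneg_left
      (mul_le_mul_of_nonneg_left (pow_le_pow_right₀ hB hc) (pow_nonneg hA0 _)) h0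
  have hne : S.Nonempty := Finset.card_pos.1 (by rw [hcard]; norm_num)
  obtain ⟨K, hBlk⟩ := exists_blk (k := 1) hs.pgroup hs.supp ht hcard
  have hKP : IsPGroup 3 K := hs.pgroup.to_le hBlk.le
  have hsK : ∀ g ∈ K, ∀ z, z ∉ S → g z = z := fun g hg => hs.supp g (hBlk.le hg)
  have hbound : ∀ (N' : Subgroup (Perm X)) (x' : Perm X), Sit 3 S K N' x' →
      os N' x' (fun u => H (fx S S u) (oc S S u)) ≤ rImp 3 A B 1 ^ 3 * H 0 0 := by
    intro N' x' hs'
    have := nest_bound (Adm := Prd A B) hC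
      (fun H' ⟨c, hc0, hc1⟩ f c' => by
        rw [hc1]; exact mul_nonneg hc0 (mul_nonneg (pow_nonneg hA0 _) (pow_nonneg hB0 _)))
      (fun H' hH' f c => prd_shift hA0 hB0 hH' f c) (fun H' hH' m => prd_nest hA0 hB0 3 1 m hH')
      3 S K N' x' hs' hBlk.card_orb (by rw [hcard]; norm_num) H hH
    rwa [nest_prd] at this
  have hr : rImp 3 A B 1 = A ^ 3 + 2 * B := by
    simp [rImp]
  have hH00 : H 0 0 = c₀ := by rw [h1]; simp
  show os N x _ ≤ rImp 3 A B 1 ^ 3 * H 0 0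
  rcases cases_bound hs ht hne hBlk hnn hmon with ⟨hNK, hxK⟩ | hout | ⟨hNK, x', hx'K, hs', hnorm, h3⟩
  · exact hbound N x ⟨hKP, hsK, hNK, hxK, hs.normal⟩
  · refine hout.trans ?_
    rw [hr, hH00, h1]
    have hb : (3 * B) ^ 3 ≤ (A ^ 3 + 2 * B) ^ 3 :=
      pow_le_pow_left₀ (by linarith) (by linarith) 3
    norm_num
    calc 3 * (c₀ * B ^ 3) ≤ (3 * B) ^ 3 * c₀ := by
          nlinarith [mul_nonneg h0 (pow_nonneg hB0 3)]
      _ ≤ _ := mul_le_mul_of_nonneg_right hb h0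
  -- mixed case
  let f : Perm X → ℝ := fun u => H (fx S S u) (oc S S u)
  refine h3.trans ?_
  -- `K` is abelian
  have hab : ∀ u ∈ K, ∀ v ∈ K, u * v = v * u := by
    intro u hu v hv
    refine Equiv.ext fun a => ?_
    by_cases ha : a ∈ S
    · let O := orb S K a
      have hinv : ∀ g ∈ K, ∀ z, g z ∈ O ↔ z ∈ O := orb_inv hsK a
      let r : K →* Perm {z // z ∈ O} :=
        { toFun := fun g => Perm.subtypePerm (g : Perm X) (p := fun z => z ∈ O) (hinv g g.2)
          map_one' := Equiv.ext fun _ => rfl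
          map_mul' := fun _ _ => Equiv.ext fun _ => rfl }
      have haO : a ∈ O := mem_orb.2 ⟨ha, 1, K.one_mem, rfl⟩
      haveI : Nonempty {z // z ∈ O} := ⟨⟨a, haO⟩⟩
      obtain ⟨j, hj, hj2⟩ := Cfsg.Agent.H91.PermClasses.exists_card_eq_pow r.range
        (IsPGroup.of_surjective hKP r.rangeRestrict r.rangeRestrict_surjective)
      rw [Fintype.card_coe, hBlk.card_orb a ha] at hj2
      have hj1 : j ≤ 1 := by omega
      haveI : IsCyclic r.range := by
        interval_cases j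
        · haveI : Subsingleton r.range := (Nat.card_eq_one_iff_unique.1 (by simpa using hj)).1
          exact isCyclic_of_subsingleton
        · exact isCyclic_of_prime_card (p := 3) (by simpa using hj)
      letI : CommGroup r.range := IsCyclic.commGroup
      have hcomm := mul_comm (r.rangeRestrict ⟨u, hu⟩) (r.rangeRestrict ⟨v, hv⟩)
      exact congrArg Subtype.val (Equiv.congr_fun (congrArg Subtype.val hcomm) ⟨a, haO⟩)
    · rw [Perm.mul_apply, Perm.mul_apply, hsK u hu a ha, hsK v hv a ha, hsK u hu a ha]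
  obtain ⟨σ, hσN, hσK⟩ := SetLike.not_le_iff_exists.1 hNK
  have hσP := hs.le hσN
  haveI : Fintype K := Fintype.ofFinite K
  haveI : Fintype ↥(N ⊓ K) := Fintype.ofFinite _
  -- full sum
  have hfull : ∑ m : K, f m ≤ rImp 3 A B 1 ^ 3 * H 0 0 := by
    have h := hbound K 1 ⟨hKP, hsK, le_rfl, K.one_mem, fun n hn => by simpa using hn⟩
    rw [os_def, div_le_iff₀ (by exact_mod_cast Nat.card_pos)] at h
    have e : ∀ m : K, f ((1 : Perm X) * m) * (cent K ((1 : Perm X) * m) : ℝ) =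
        f m * (Nat.card K : ℝ) := fun m => by
      rw [one_mul, cent_eq_card K _ fun u hu => hab u hu m m.2]
    rw [Finset.sum_congr rfl (fun m _ => e m), ← Finset.sum_mul] at h
    exact le_of_mul_le_mul_right h (by exact_mod_cast Nat.card_pos)
  -- bound of a single value
  have hmax : ∀ u ∈ K, f u ≤ c₀ * (A ^ 3) ^ 3 := by
    intro u hu
    have hodd : Odd (orderOf u) := by
      obtain ⟨j, hj⟩ := hKP ⟨u, hu⟩
      have hd : orderOf u ∣ 3 ^ j := orderOf_dvd_of_pow_eq_one (congrArg Subtype.val hj)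
      exact Odd.of_dvd_nat ((by decide : Odd 3).pow) hd
    have h9 := three_mul_le S u (supp_inv hsK u hu) hodd
    rw [hcard] at h9
    simp only [f, h1]
    refine mul_le_mul_of_nonneg_left ?_ h0
    calc A ^ fx S S u * B ^ oc S S u ≤ A ^ fx S S u * (A ^ 3) ^ oc S S u :=
          mul_le_mul_of_nonneg_left (pow_le_pow_left₀ hB0 hA _) (pow_nonneg hA0 _)
      _ = A ^ (fx S S u + 3 * oc S S u) := by rw [pow_add, pow_mul]
      _ ≤ A ^ 9 := pow_le_pow_right₀ hA1 (by simpa using h9)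
      _ = _ := by rw [← pow_mul]
  -- elements commuting with the outer generator
  let Z := Finset.univ.filter fun n : ↥(N ⊓ K) => (x' * (n : Perm X)) * σ = σ * (x' * (n : Perm X))
  have hZ : Z.card ≤ 3 := by
    have h := cent_outer_le hs.pgroup hs.supp ht hne hBlk hσP hσK K le_rfl
    norm_num at h
    refine le_trans ?_ h
    unfold cent
    rw [← Nat.card_eq_finsetCard]
    refine Nat.card_le_card_of_injective
      (fun n => ⟨⟨x' * (n.1 : Perm X), K.mul_mem hx'K n.1.2.2⟩, (Finset.mem_filter.1 n.2).2⟩) ?_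
    intro n n' h
    exact Subtype.ext (Subtype.ext (mul_left_cancel (congrArg (fun z => (z.1 : Perm X)) h)))
  have hcN := card_inf_mul hBlk hs.le hNK
  have hcent : ∀ n : ↥(N ⊓ K), (cent N (x' * n) : ℝ) ≤
      (Nat.card ↥(N ⊓ K) : ℝ) * (1 + if n ∈ Z then 2 else 0) := by
    intro n
    split_ifs with hn
    · have := cent_le_card N (x' * (n : Perm X))
      rw [hcN] at this
      have h' : (cent N (x' * n) : ℝ) ≤ ((3 * Nat.card ↥(N ⊓ K) : ℕ) : ℝ) := by exact_mod_cast this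
      push_cast at h'
      linarith
    · rw [add_zero, mul_one]
      have hsub : ∀ m ∈ N, m * (x' * n) = (x' * n) * m → m ∈ K := by
        intro m hm hmy
        by_contra hmK
        refine hn (Finset.mem_filter.2 ⟨Finset.mem_univ _, ?_⟩)
        have hyK : x' * (n : Perm X) ∈ K := K.mul_mem hx'K n.2.2
        obtain ⟨i, hi⟩ := hBlk.gen m (hs.le hm) hmK σ hσP
        have c1 : Commute (x' * (n : Perm X)) (σ * m ^ i) := hab _ hyK _ hi
        have c2 : Commute (x' * (n : Perm X)) (m ^ (-i)) :=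
          (Commute.zpow_right (show Commute (x' * (n : Perm X)) m from hmy.symm) _)
        have := c1.mul_right c2
        rwa [mul_assoc, ← zpow_add, add_neg_cancel, zpow_zero, mul_one] at this
      exact_mod_cast Nat.card_le_card_of_injective
        (fun m : {m : N // (m : Perm X) * (x' * n) = (x' * n) * (m : Perm X)} =>
          (⟨m.1, m.1.2, hsub _ m.1.2 m.2⟩ : ↥(N ⊓ K)))
        (fun m m' h => Subtype.ext (Subtype.ext (congrArg (fun z : ↥(N ⊓ K) => (z : Perm X)) h)))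
  have hinner : inner K N x' f ≤ (∑ n : ↥(N ⊓ K), f (x' * n)) / 3 + 2 * (c₀ * (A ^ 3) ^ 3) := by
    rw [inner_def, hcN, Nat.cast_mul, div_le_iff₀ (mul_pos (by norm_num) (by exact_mod_cast Nat.card_pos))]
    calc ∑ n : ↥(N ⊓ K), f (x' * n) * (cent N (x' * n) : ℝ)
        ≤ ∑ n : ↥(N ⊓ K), f (x' * n) * ((Nat.card ↥(N ⊓ K) : ℝ) * (1 + if n ∈ Z then 2 else 0)) :=
          Finset.sum_le_sum fun n _ => mul_le_mul_of_nonneg_left (hcent n) (hnn _ _)
      _ = (Nat.card ↥(N ⊓ K) : ℝ) * (∑ n : ↥(N ⊓ K), f (x' * n) + ∑ n ∈ Z, 2 * f (x' * n)) := by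
          rw [← Finset.univ_inter Z, ← Finset.sum_ite_mem, ← Finset.sum_add_distrib, Finset.mul_sum]
          refine Finset.sum_congr rfl fun n _ => ?_
          simp only [Finset.univ_inter]
          split_ifs <;> ring
      _ ≤ (Nat.card ↥(N ⊓ K) : ℝ) *
          (∑ n : ↥(N ⊓ K), f (x' * n) + (3 : ℝ) * (2 * (c₀ * (A ^ 3) ^ 3))) := by
          refine mul_le_mul_of_nonneg_left (add_le_add le_rfl ?_) (Nat.cast_nonneg _)
          refine (Finset.sum_le_card_nsmul Z _ (2 * (c₀ * (A ^ 3) ^ 3)) fun n _ => ?_).trans ?_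
          · exact mul_le_mul_of_nonneg_left (hmax _ (K.mul_mem hx'K n.2.2)) (by norm_num)
          · rw [nsmul_eq_mul]
            refine mul_le_mul_of_nonneg_right (by exact_mod_cast hZ) ?_
            positivity
      _ = _ := by push_cast; ring
  have hsub : ∑ n : ↥(N ⊓ K), f (x' * n) ≤ ∑ m : K, f m := by
    rw [← Finset.sum_image (f := fun m : K => f m)
      (g := fun n : ↥(N ⊓ K) => (⟨x' * n, K.mul_mem hx'K n.2.2⟩ : K))
      (fun a _ b _ h => Subtype.ext (mul_left_cancel (congrArg Subtype.val h)))]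
    exact Finset.sum_le_sum_of_subset_of_nonneg (Finset.subset_univ _) fun _ _ _ => hnn _ _
  rw [hr, hH00] at hfull ⊢
  rw [h1]
  norm_num
  have hpoly : 2 * (A ^ 3) ^ 3 + 6 * B ^ 3 ≤ 2 / 3 * (A ^ 3 + 2 * B) ^ 3 := by
    set t := A ^ 3
    nlinarith [mul_nonneg (mul_nonneg (sub_nonneg.2 hA) (sub_nonneg.2 hA4)) (add_nonneg (le_trans hB0 hA) hB0),
      mul_nonneg (mul_nonneg hB0 hB0) (sub_nonneg.2 hA), mul_nonneg (mul_nonneg hB0 hB0) hB0]
  have := mul_le_mul_of_nonneg_left hpoly h0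
  linarith

theorem compOK_prd {p : ℕ} [hp : Fact p.Prime] {A B : ℝ} (hp3 : 3 ≤ p) (hB : 1 ≤ B) (hA : B ≤ A ^ 3)
    (hA4 : A ^ 3 ≤ 4 * B) (hA1 : 1 ≤ A) :
    ∀ k, CompOK p k (fun H => rImp p A B k * H 0 0) (Prd A B) := by
  have hA0 : 0 ≤ A := by linarith
  have hB0 : 0 ≤ B := by linarith
  intro k
  induction k with
  | zero =>
    intro X _ S P N x hs _ hcard H hH
    obtain ⟨c₀, h0, h1⟩ := hH
    refine (zero_case hs (by simpa using hcard) H).le.trans (le_of_eq ?_)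
    show H 1 0 = A * H 0 0
    rw [h1, h1]
    ring
  | succ k ih =>
    by_cases h : p = 3 ∧ k = 1
    · obtain ⟨rfl, rfl⟩ := h
      intro X _ S P N x hs ht hcard H hH
      have := nine_step hB hA hA4 hA1 ih X S P N x hs ht hcard H hH
      refine this.trans (le_of_eq ?_)
      simp [rImp]
    · intro X _ S P N x hs ht hcard H hH
      have hnn : ∀ H, Prd A B H → ∀ f c, 0 ≤ H f c := fun H' ⟨c, hc0, hc1⟩ f c' => by
        rw [hc1]; exact mul_nonneg hc0 (mul_nonneg (pow_nonneg hA0 _) (pow_nonneg hB0 _))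
      have := comp_step ih hnn
        (fun H' ⟨c, hc0, hc1⟩ a b hab => by
          rw [hc1, hc1]
          exact mul_le_mul_of_nonneg_left
            (mul_le_mul_of_nonneg_left (pow_le_pow_right₀ hB hab) (pow_nonneg hA0 _)) hc0)
        (fun H' hH' f c => prd_shift hA0 hB0 hH' f c) (fun H' hH' m => prd_nest hA0 hB0 p k m hH')
        (fun H' hH' => by
          rw [nest_prd]
          exact mul_nonneg (pow_nonneg (rImp_nonneg p hA0 hB0 k) _) (hnn H' hH' 0 0))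
        X S P N x hs ht hcard H hH
      refine this.trans (le_of_eq ?_)
      obtain ⟨c₀, -, h1⟩ := hH
      show nest _ p H + _ = rImp p A B (k + 1) * H 0 0
      rw [nest_prd, rImp, if_neg h, h1, h1]
      push_cast
      ring

end Comp

theorem comp_prod_le {p : ℕ} [Fact p.Prime] (hp : 3 ≤ p) {A B : ℝ} (hB : 1 ≤ B) (hA : B ≤ A ^ 3)
    (hA4 : A ^ 3 ≤ 4 * B) (hA1 : 1 ≤ A) {k : ℕ} {X : Type} [Fintype X] (S : Finset X)
    (P N : Subgroup (Perm X)) (x : Perm X) (hs : Sit p S P N x)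
    (ht : ∀ a ∈ S, ∀ b ∈ S, ∃ g ∈ P, g a = b) (hcard : S.card = p ^ k) :
    os N x (fun u => A ^ fx S S u * B ^ oc S S u) ≤ rImp p A B k := by
  have := Comp.compOK_prd hp hB hA hA4 hA1 k X S P N x hs ht hcard (fun f c => A ^ f * B ^ c)
    ⟨1, zero_le_one, fun f c => (one_mul _).symm⟩
  simpa using this

end Cfsg.Agent.H61.PermTwo
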