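import Cfsg.Agent.H61.PermTwo.Defs
import Cfsg.Agent.H21.LinClasses.KBound
import Mathlib.GroupTheory.Perm.Support
import Mathlib.Data.Nat.Multiplicity
import Mathlib.GroupTheory.Nilpotent
import Mathlib.GroupTheory.IndexNormal
import Mathlib.Order.Atoms.Finite
import Mathlib.Tactic.Linarith
import Mathlib.Tactic.NormNum

/-!
The class number of a `2`-group of permutations of degree `n` is at most `kTwo n`.
-/

set_option autoImplicit false

namespace Cfsg.Agent.H61.PermTwo

open Equiv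

/-! ### The bound function -/

theorem kTwo_mono {a b : ℕ} (h : a ≤ b) : kTwo a ≤ kTwo b := by
  induction h with
  | refl => exact le_rfl
  | step _ ih =>
    refine ih.trans ?_
    rename_i m _
    unfold kTwo
    rcases (show m % 4 = 0 ∨ m % 4 = 1 ∨ m % 4 = 2 ∨ m % 4 = 3 by omega) with h | h | h | h
    · rw [h, show (m + 1) / 4 = m / 4 by omega, show (m + 1) % 4 = 1 by omega]; simp
    · rw [h, show (m + 1) / 4 = m / 4 by omega, show (m + 1) % 4 = 2 by omega]; simp
    · rw [h, show (m + 1) / 4 = m / 4 by omega, show (m + 1) % 4 = 3 by omega]; simp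
    · rw [h, show (m + 1) / 4 = m / 4 + 1 by omega, show (m + 1) % 4 = 0 by omega, pow_succ]
      simp

theorem kTwo_mul_le (a b : ℕ) : kTwo a * kTwo b ≤ kTwo (a + b) := by
  unfold kTwo
  have key : ∀ r s : Fin 4, [1, 1, 2, 2].getD r.1 1 * [1, 1, 2, 2].getD s.1 1 ≤
      5 ^ ((r.1 + s.1) / 4) * [1, 1, 2, 2].getD ((r.1 + s.1) % 4) 1 := by decide
  have h := key ⟨a % 4, Nat.mod_lt _ (by norm_num)⟩ ⟨b % 4, Nat.mod_lt _ (by norm_num)⟩
  dsimp only at h
  rw [show (a + b) / 4 = a / 4 + b / 4 + (a % 4 + b % 4) / 4 by omega,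
    show (a + b) % 4 = (a % 4 + b % 4) % 4 by omega, pow_add, pow_add, mul_assoc (5 ^ (a / 4) * 5 ^ (b / 4)),
    mul_mul_mul_comm]
  exact Nat.mul_le_mul le_rfl h

theorem kTwo_le_pow {β : ℝ} (h0 : 0 ≤ β) (h5 : 5 ≤ β ^ 4) (n : ℕ) : (kTwo n : ℝ) ≤ β ^ n := by
  have h1 : (1 : ℝ) ≤ β := by
    by_contra hlt
    push Not at hlt
    nlinarith [pow_le_one₀ (n := 4) h0 hlt.le]
  have h2 : (2 : ℝ) ≤ β ^ 2 := by nlinarith [sq_nonneg (β ^ 2)]
  have htail : (([1, 1, 2, 2].getD (n % 4) 1 : ℕ) : ℝ) ≤ β ^ (n % 4) := by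
    rcases (show n % 4 = 0 ∨ n % 4 = 1 ∨ n % 4 = 2 ∨ n % 4 = 3 by omega) with h | h | h | h <;>
      rw [h]
    · simp
    · simpa using h1
    · simpa using h2
    · calc ((([1, 1, 2, 2].getD 3 1 : ℕ)) : ℝ) = 2 := by norm_num
        _ ≤ β ^ 2 := h2
        _ ≤ β ^ 3 := pow_le_pow_right₀ h1 (by norm_num)
  calc (kTwo n : ℝ) = 5 ^ (n / 4) * ([1, 1, 2, 2].getD (n % 4) 1 : ℕ) := by simp [kTwo]
    _ ≤ (β ^ 4) ^ (n / 4) * β ^ (n % 4) :=
      mul_le_mul (pow_le_pow_left₀ (by norm_num) h5 _) htail (Nat.cast_nonneg _) (by positivity)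
    _ = β ^ n := by rw [← pow_mul, ← pow_add, Nat.div_add_mod]

/-! ### Commuting pairs -/

/-- Elements of a coset commuting with a given element of the subgroup. -/
theorem coset_pairs_le {G : Type} [Group G] [Finite G] (N : Subgroup G) (x : G) :
    Nat.card {p : N × N // Commute (x * (p.1 : G)) (p.2 : G)} ≤
      Nat.card (ConjClasses N) * Nat.card N := by
  classical
  have hc : Nat.card (ConjClasses N) * Nat.card N = Nat.card {p : N × N // Commute p.1 p.2} :=
    (card_comm_eq_card_conjClasses_mul_card N).symm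
  rw [hc]
  have hex : ∀ m : N, ∃ z0 : N, (∃ z : N, Commute (x * (z : G)) (m : G)) →
      Commute (x * (z0 : G)) (m : G) := fun m => by
    by_cases h : ∃ z : N, Commute (x * (z : G)) (m : G)
    · exact ⟨h.choose, fun _ => h.choose_spec⟩
    · exact ⟨1, fun h' => absurd h' h⟩
  choose z0 hz0 using hex
  refine Nat.card_le_card_of_injective (fun p => ⟨((z0 p.1.2)⁻¹ * p.1.1, p.1.2), ?_⟩) ?_
  · have h0 := hz0 p.1.2 ⟨p.1.1, p.2⟩
    have := h0.inv_left.mul_left p.2
    rw [mul_inv_rev, mul_assoc, inv_mul_cancel_left] at this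
    exact Subtype.ext this.eq
  · rintro ⟨⟨a, m⟩, ha⟩ ⟨⟨a', m'⟩, ha'⟩ h
    have h1 := congrArg (fun q => q.1.1) h
    have h2 := congrArg (fun q => q.1.2) h
    dsimp only at h1 h2
    subst h2
    simpa using mul_left_cancel h1

/-- The orbit sum of the constant one, as a number of pairs. -/
theorem os_one_eq {G : Type} [Group G] [Finite G] (N : Subgroup G) (x : G) :
    os N x (fun _ => 1) =
      (Nat.card {p : N × N // Commute (x * (p.1 : G)) (p.2 : G)} : ℝ) / (Nat.card N : ℝ) := by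
  classical
  let _ : Fintype N := Fintype.ofFinite N
  unfold os
  congr 1
  rw [Nat.card_congr (show {p : N × N // Commute (x * (p.1 : G)) (p.2 : G)} ≃
      Σ n : N, {m : N // (m : G) * (x * (n : G)) = (x * (n : G)) * (m : G)} from
    { toFun := fun p => ⟨p.1.1, p.1.2, p.2.eq.symm⟩
      invFun := fun s => ⟨(s.1, s.2.1), s.2.2.symm⟩
      left_inv := fun _ => rfl
      right_inv := fun _ => rfl }), Nat.card_sigma, Nat.cast_sum]
  refine Finset.sum_congr (by ext; simp) fun n _ => ?_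
  simp [cent]

set_option linter.unusedVariables false in
theorem os_one_le {G : Type} [Group G] [Finite G] (N : Subgroup G) (x : G)
    (hx : ∀ n ∈ N, x * n * x⁻¹ ∈ N) : os N x (fun _ => 1) ≤ (Nat.card (ConjClasses N) : ℝ) := by
  rw [os_one_eq, div_le_iff₀ (by exact_mod_cast Nat.card_pos)]
  exact_mod_cast coset_pairs_le N x

/-- Class number of a group with a subgroup of index two. -/
theorem two_mul_classes_eq {G : Type} [Group G] [Finite G] (K : Subgroup G) (hK : K.index = 2)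
    {y : G} (hy : y ∉ K) :
    2 * Nat.card K * Nat.card (ConjClasses G) = Nat.card (ConjClasses K) * Nat.card K +
      3 * Nat.card {p : K × K // Commute (y * (p.1 : G)) (p.2 : G)} := by
  classical
  have hG : 2 * Nat.card K = Nat.card G := by rw [← K.card_mul_index, hK, mul_comm]
  rw [hG, mul_comm, ← card_comm_eq_card_conjClasses_mul_card,
    ← card_comm_eq_card_conjClasses_mul_card]
  have hy' : ∀ k : K, y * (k : G) ∉ K := fun k h => hy (by simpa using mul_mem h (inv_mem k.2))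
  have hmem : ∀ g : G, g ∉ K → y⁻¹ * g ∈ K := fun g hg => by
    rw [Subgroup.mul_mem_iff_of_index_two hK]
    simp [hy, hg]
  -- split `G` into two cosets
  let e : K ⊕ K ≃ G :=
    { toFun := Sum.elim (fun k => k) (fun k => y * k)
      invFun := fun g => if h : g ∈ K then Sum.inl ⟨g, h⟩ else Sum.inr ⟨y⁻¹ * g, hmem g h⟩
      left_inv := by
        rintro (k | k)
        · simp
        · simp [hy' k]
      right_inv := fun g => by
        by_cases h : g ∈ K <;> simp [h] }
  let e2 : {q : (K ⊕ K) × (K ⊕ K) // Commute (e q.1) (e q.2)} ≃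
      ({p : K × K // Commute (p.1 : G) p.2} ⊕ {p : K × K // Commute (p.1 : G) (y * (p.2 : G))}) ⊕
      ({p : K × K // Commute (y * (p.1 : G)) p.2} ⊕
        {p : K × K // Commute (y * (p.1 : G)) (y * (p.2 : G))}) :=
    { toFun := fun p => match p with
        | ⟨(Sum.inl a, Sum.inl b), h⟩ => Sum.inl (Sum.inl ⟨(a, b), h⟩)
        | ⟨(Sum.inl a, Sum.inr b), h⟩ => Sum.inl (Sum.inr ⟨(a, b), h⟩)
        | ⟨(Sum.inr a, Sum.inl b), h⟩ => Sum.inr (Sum.inl ⟨(a, b), h⟩)
        | ⟨(Sum.inr a, Sum.inr b), h⟩ => Sum.inr (Sum.inr ⟨(a, b), h⟩)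
      invFun := fun s => match s with
        | Sum.inl (Sum.inl p) => ⟨(Sum.inl p.1.1, Sum.inl p.1.2), p.2⟩
        | Sum.inl (Sum.inr p) => ⟨(Sum.inl p.1.1, Sum.inr p.1.2), p.2⟩
        | Sum.inr (Sum.inl p) => ⟨(Sum.inr p.1.1, Sum.inl p.1.2), p.2⟩
        | Sum.inr (Sum.inr p) => ⟨(Sum.inr p.1.1, Sum.inr p.1.2), p.2⟩
      left_inv := by rintro ⟨⟨(a | a), (b | b)⟩, h⟩ <;> rfl
      right_inv := by rintro ((p | p) | (p | p)) <;> rfl }
  rw [← Nat.card_congr ((Equiv.prodCongr e e).subtypeEquiv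
    (p := fun q : (K ⊕ K) × (K ⊕ K) => Commute (e q.1) (e q.2))
    (q := fun p : G × G => Commute p.1 p.2) (fun _ => Iff.rfl)), Nat.card_congr e2]
  simp only [Nat.card_sum]
  have c1 : Nat.card {p : K × K // Commute (p.1 : G) p.2} = Nat.card {p : K × K // Commute p.1 p.2} :=
    Nat.card_congr (Equiv.subtypeEquivRight fun p =>
      ⟨fun h => Subtype.ext h.eq, fun h => h.map K.subtype⟩)
  have c2 : Nat.card {p : K × K // Commute (p.1 : G) (y * (p.2 : G))} =
      Nat.card {p : K × K // Commute (y * (p.1 : G)) (p.2 : G)} :=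
    Nat.card_congr ((Equiv.prodComm K K).subtypeEquiv fun p => ⟨Commute.symm, Commute.symm⟩)
  have c3 : Nat.card {p : K × K // Commute (y * (p.1 : G)) (y * (p.2 : G))} =
      Nat.card {p : K × K // Commute (y * (p.1 : G)) (p.2 : G)} :=
    Nat.card_congr
      { toFun := fun p => ⟨(p.1.1, p.1.1⁻¹ * p.1.2), by
          have := (Commute.refl (y * (p.1.1 : G))).inv_right.mul_right p.2
          simpa [mul_assoc] using this⟩
        invFun := fun p => ⟨(p.1.1, p.1.1 * p.1.2), by
          have := (Commute.refl (y * (p.1.1 : G))).mul_right p.2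
          simpa [mul_assoc] using this⟩
        left_inv := fun p => by simp
        right_inv := fun p => by simp }
  rw [c1, c2, c3]
  ring

/-! ### Restrictions -/

section Res

set_option linter.unusedSectionVars false

variable {X : Type} [Fintype X]

/-- Restriction to an invariant set. -/
noncomputable def res (P : Subgroup (Perm X)) (O : Finset X) (hO : ∀ g ∈ P, ∀ z ∈ O, g z ∈ O) :
    P →* Perm X :=
  haveI := Classical.decEq X
  (Perm.ofSubtype (p := (· ∈ O))).comp
    { toFun := fun g => (g : Perm X).subtypePerm fun z =>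
        ⟨fun h => by simpa using hO _ (inv_mem g.2) _ h, hO _ g.2 z⟩
      map_one' := by ext z; rfl
      map_mul' := fun g h => by ext z; rfl }

theorem res_apply_mem {P : Subgroup (Perm X)} {O : Finset X} (hO : ∀ g ∈ P, ∀ z ∈ O, g z ∈ O)
    (g : P) {z : X} (hz : z ∈ O) : res P O hO g z = (g : Perm X) z := by
  classical
  simp [res, Perm.ofSubtype_apply_of_mem, hz]

theorem res_apply_not_mem {P : Subgroup (Perm X)} {O : Finset X} (hO : ∀ g ∈ P, ∀ z ∈ O, g z ∈ O)
    (g : P) {z : X} (hz : z ∉ O) : res P O hO g z = z := by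
  classical
  simp [res, Perm.ofSubtype_apply_of_not_mem, hz]

theorem res_ker {P : Subgroup (Perm X)} {O : Finset X} (hO : ∀ g ∈ P, ∀ z ∈ O, g z ∈ O)
    (g : P) (h : res P O hO g = 1) {z : X} (hz : z ∈ O) : (g : Perm X) z = z := by
  rw [← res_apply_mem hO g hz, h]; rfl

theorem res_range_supp {P : Subgroup (Perm X)} {O : Finset X}
    (hO : ∀ g ∈ P, ∀ z ∈ O, g z ∈ O) : ∀ u ∈ (res P O hO).range, ∀ z, z ∉ O → u z = z := by
  rintro _ ⟨g, rfl⟩ z hz
  exact res_apply_not_mem hO g hz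

/-- A group order dividing a power of two and `n!` is smaller than `2 ^ n`. -/
theorem card_le_two_pow (O : Finset X) (hO : O.Nonempty) (Q : Subgroup (Perm X))
    (hQ : IsPGroup 2 Q) (hs : ∀ u ∈ Q, ∀ z, z ∉ O → u z = z) :
    Nat.card Q ≤ 2 ^ (O.card - 1) := by
  classical
  have : Fact (Nat.Prime 2) := ⟨Nat.prime_two⟩
  obtain ⟨k, hk⟩ := hQ.exists_card_eq
  have hmem : ∀ u ∈ Q, ∀ z, u z ∈ O ↔ z ∈ O := fun u hu z => by
    constructor
    · intro h
      by_contra hz
      exact hz (by rwa [hs u hu z hz] at h)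
    · intro hz
      by_contra h
      have h2 := u.injective (hs u hu _ h)
      exact h (by rw [h2]; exact hz)
  let f : Q →* Perm {z // z ∈ O} :=
    { toFun := fun u => (u : Perm X).subtypePerm (hmem u u.2)
      map_one' := by ext z; rfl
      map_mul' := fun u v => by ext z; rfl }
  have hf : Function.Injective f := fun u v h => Subtype.ext <| Equiv.ext fun z => by
    by_cases hz : z ∈ O
    · exact congrArg Subtype.val (congrArg (fun w : Perm {z // z ∈ O} => w ⟨z, hz⟩) h)
    · rw [hs _ u.2 z hz, hs _ v.2 z hz]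
  have hd : 2 ^ k ∣ O.card.factorial := by
    have := Subgroup.card_dvd_of_injective f hf
    rwa [hk, Nat.card_eq_fintype_card, Fintype.card_perm, Fintype.card_coe] at this
  rw [hk]
  refine Nat.pow_le_pow_right (by norm_num) ?_
  have h1 : (k : ℕ∞) < O.card := lt_of_le_of_lt (pow_dvd_iff_le_emultiplicity.1 hd)
    (Nat.emultiplicity_two_factorial_lt (Finset.card_ne_zero.2 hO))
  have h2 : k < O.card := by exact_mod_cast h1
  omega

end Res

/-! ### The bound -/

theorem classes_congr {A B : Type} [Group A] [Group B] [Finite A] [Finite B] (e : A ≃* B) :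
    Nat.card (ConjClasses A) ≤ Nat.card (ConjClasses B) :=
  Nat.card_le_card_of_surjective (ConjClasses.map e.symm.toMonoidHom)
    (ConjClasses.map_surjective e.symm.surjective)

theorem classes_le_card {A : Type} [Group A] [Finite A] :
    Nat.card (ConjClasses A) ≤ Nat.card A :=
  Nat.card_le_card_of_surjective _ ConjClasses.mk_surjective

/-- The arithmetic of the transitive step. -/
theorem step_arith {j u v kP kK : ℕ} (huv : u + v ≤ 2 ^ j - 1)
    (h1 : kK ≤ kTwo (2 ^ j) * kTwo (2 ^ j)) (h2 : kK ≤ kTwo (2 ^ j) * 2 ^ u)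
    (h3 : 2 * kP ≤ 4 * kK) (h4 : 2 * kP ≤ kK + 3 * (2 ^ v * kTwo (2 ^ j))) :
    kP ≤ kTwo (2 * 2 ^ j) := by
  obtain ⟨M, hM⟩ : ∃ M, M = kTwo (2 ^ j) := ⟨_, rfl⟩
  rw [← hM] at h1 h2 h4
  match j with
  | 0 =>
    obtain ⟨rfl, rfl⟩ : u = 0 ∧ v = 0 := by simp at huv; omega
    simp [kTwo] at hM ⊢
    subst hM
    omega
  | 1 =>
    simp [kTwo] at huv hM ⊢
    subst hM
    rcases (show u = 0 ∨ u = 1 ∧ v = 0 by omega) with rfl | ⟨rfl, rfl⟩ <;> omega
  | 2 =>
    simp [kTwo] at huv hM ⊢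
    subst hM
    rcases (show u = 0 ∨ u = 1 ∨ (u = 2 ∧ (v = 0 ∨ v = 1)) ∨ (u = 3 ∧ v = 0) by omega) with
      rfl | rfl | ⟨rfl, rfl | rfl⟩ | ⟨rfl, rfl⟩ <;> omega
  | 3 =>
    simp [kTwo] at huv hM ⊢
    subst hM
    by_cases hv : v ≤ 3
    · have : 2 ^ v ≤ 2 ^ 3 := Nat.pow_le_pow_right (by norm_num) hv
      omega
    · have : 2 ^ u ≤ 2 ^ 3 := Nat.pow_le_pow_right (by norm_num) (by omega)
      omega
  | i + 4 =>
    obtain ⟨q, hq⟩ : ∃ q, q = 4 * 2 ^ i := ⟨_, rfl⟩
    have hn : 2 ^ (i + 4) = 4 * q := by rw [hq, pow_add]; ring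
    have hq4 : 4 ≤ q := by have := Nat.one_le_two_pow (n := i); omega
    rw [hn] at huv hM ⊢
    have hM' : M = 5 ^ q := by simp [hM, kTwo]
    have hgoal : kTwo (2 * (4 * q)) = M * M := by
      rw [hM', ← pow_add, kTwo, show 2 * (4 * q) / 4 = q + q by omega,
        show 2 * (4 * q) % 4 = 0 by omega]
      simp
    rw [hgoal]
    by_cases hv : 3 * 2 ^ v ≤ M
    · have : 3 * (2 ^ v * M) ≤ M * M := by rw [← mul_assoc]; exact Nat.mul_le_mul_right M hv
      omega
    · have hbig : 3 * 16 ^ q ≤ 25 ^ q := by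
        have key : ∀ d, 3 * 16 ^ (4 + d) ≤ 25 ^ (4 + d) := by
          intro d
          induction d with
          | zero => norm_num
          | succ d ih => rw [← Nat.add_assoc, pow_succ, pow_succ]; omega
        obtain ⟨d, rfl⟩ := Nat.exists_eq_add_of_le hq4
        exact key d
      have hN : 2 * 2 ^ u ≤ M := by
        by_contra hlt
        push Not at hlt hv
        have h5 : M * M < 2 * 2 ^ u * (3 * 2 ^ v) := Nat.mul_lt_mul'' hlt hv
        have h6 : 2 * 2 ^ u * (3 * 2 ^ v) ≤ 3 * 16 ^ q := by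
          calc 2 * 2 ^ u * (3 * 2 ^ v) = 3 * 2 ^ (u + v + 1) := by rw [pow_succ, pow_add]; ring
            _ ≤ 3 * 2 ^ (4 * q) :=
              Nat.mul_le_mul_left _ (Nat.pow_le_pow_right (by norm_num) (by omega))
            _ = 3 * 16 ^ q := by rw [pow_mul]; norm_num
        have h7 : 25 ^ q = M * M := by rw [hM', ← mul_pow]; norm_num
        omega
      have : M * (2 * 2 ^ u) ≤ M * M := Nat.mul_le_mul_left M hN
      rw [mul_left_comm] at this
      omega

/-- A maximal subgroup of a finite `2`-group has index two. -/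
theorem index_two_of_coatom {A : Type} [Group A] [Finite A] (hA : IsPGroup 2 A) {K : Subgroup A}
    (hK : IsCoatom K) : K.index = 2 := by
  have : Fact (Nat.Prime 2) := ⟨Nat.prime_two⟩
  have hnil : Group.IsNilpotent A := hA.isNilpotent
  have hn : K.Normal := Subgroup.NormalizerCondition.normal_of_coatom K Group.normalizerCondition_of_isNilpotent hK
  have hne : Nat.card (A ⧸ K) ≠ 1 := by
    rw [← Subgroup.index_eq_card, Ne, Subgroup.index_eq_one]
    exact hK.1
  obtain ⟨k, hk⟩ := (hA.to_quotient K).exists_card_eq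
  have h2 : 2 ∣ Nat.card (A ⧸ K) := by
    rw [hk]
    exact dvd_pow_self 2 (fun h => hne (by rw [hk, h, pow_zero]))
  obtain ⟨x, hx⟩ := exists_prime_orderOf_dvd_card' 2 h2
  have hle : K ≤ (Subgroup.zpowers x).comap (QuotientGroup.mk' K) := fun g hg => by
    simp [Subgroup.mem_comap, (QuotientGroup.eq_one_iff g).2 hg]
  rcases hle.eq_or_lt with h | h
  · have h1 : x = 1 := by
      obtain ⟨g, rfl⟩ := QuotientGroup.mk'_surjective K x
      rw [QuotientGroup.mk'_apply, QuotientGroup.eq_one_iff, h, Subgroup.mem_comap]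
      exact Subgroup.mem_zpowers _
    simp [h1] at hx
  · have h1 := hK.2 _ h
    rw [Subgroup.index_eq_card, ← hx, ← Nat.card_zpowers]
    rw [← Subgroup.comap_top (QuotientGroup.mk' K)] at h1
    rw [Subgroup.comap_injective (QuotientGroup.mk'_surjective K) h1, Subgroup.card_top]

/-- The transitive step. -/
theorem transitive_step {X : Type} [Fintype X] (S : Finset X) (P : Subgroup (Perm X))
    (hP : IsPGroup 2 P) (hS : ∀ g ∈ P, ∀ y, y ∉ S → g y = y)
    (hSm : ∀ g ∈ P, ∀ z ∈ S, g z ∈ S) (hS2 : 2 ≤ S.card) {a : X} (ha : a ∈ S)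
    (hT : ∀ z ∈ S, ∃ g ∈ P, g a = z)
    (ih : ∀ O : Finset X, O.card < S.card → ∀ Q : Subgroup (Perm X), IsPGroup 2 Q →
      (∀ g ∈ Q, ∀ y, y ∉ O → g y = y) → Nat.card (ConjClasses Q) ≤ kTwo O.card) :
    Nat.card (ConjClasses P) ≤ kTwo S.card := by
  classical
  have : Fact (Nat.Prime 2) := ⟨Nat.prime_two⟩
  obtain ⟨b, hb, hba⟩ := Finset.exists_mem_ne (by omega : 1 < S.card) a
  have hH : MulAction.stabilizer P a ≠ ⊤ := by
    intro h
    obtain ⟨g, hg, rfl⟩ := hT b hb
    exact hba (MulAction.mem_stabilizer_iff.1 (h ▸ Subgroup.mem_top (⟨g, hg⟩ : P)))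
  obtain ⟨K, hKc, hHK⟩ := (eq_top_or_exists_le_coatom (MulAction.stabilizer P a)).resolve_left hH
  have hK2 : K.index = 2 := index_two_of_coatom hP hKc
  obtain ⟨y, hy⟩ : ∃ y : P, y ∉ K := by
    by_contra h
    push Not at h
    exact hKc.1 (top_le_iff.1 fun g _ => h g)
  let B : Finset X := S.filter fun z => ∃ k : P, k ∈ K ∧ (k : Perm X) a = z
  have hBS : B ⊆ S := Finset.filter_subset _ _
  have hKB : ∀ k : P, k ∈ K → ∀ z ∈ B, (k : Perm X) z ∈ B := fun k hk z hz => by
    obtain ⟨hzS, k', hk', rfl⟩ := Finset.mem_filter.1 hz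
    exact Finset.mem_filter.2 ⟨hSm k k.2 _ hzS, k * k', mul_mem hk hk', rfl⟩
  have hout : ∀ g : P, g ∉ K → ∀ z ∈ B, (g : Perm X) z ∈ S \ B := fun g hg z hz => by
    obtain ⟨hzS, k, hk, rfl⟩ := Finset.mem_filter.1 hz
    refine Finset.mem_sdiff.2 ⟨hSm g g.2 _ hzS, fun h => ?_⟩
    obtain ⟨-, k', hk', e⟩ := Finset.mem_filter.1 h
    have : k'⁻¹ * g * k ∈ K := hHK (MulAction.mem_stabilizer_iff.2 (by
      show (k' : Perm X)⁻¹ ((g : Perm X) ((k : Perm X) a)) = a
      rw [← e]; simp))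
    exact hg (by simpa [mul_assoc] using mul_mem (mul_mem hk' this) (inv_mem hk))
  have hin : ∀ g : P, g ∉ K → ∀ z ∈ S \ B, (g : Perm X) z ∈ B := fun g hg z hz => by
    obtain ⟨hzS, hzB⟩ := Finset.mem_sdiff.1 hz
    obtain ⟨h, hh, rfl⟩ := hT z hzS
    refine Finset.mem_filter.2 ⟨hSm g g.2 _ hzS, g * ⟨h, hh⟩, ?_, rfl⟩
    rw [Subgroup.mul_mem_iff_of_index_two hK2]
    exact iff_of_false hg fun hk => hzB (Finset.mem_filter.2 ⟨hzS, ⟨h, hh⟩, hk, rfl⟩)
  have hcard : (S \ B).card = B.card :=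
    le_antisymm
      (Finset.card_le_card_of_injOn (y : Perm X) (hin y hy) (Equiv.injective _).injOn)
      (Finset.card_le_card_of_injOn (y : Perm X) (hout y hy) (Equiv.injective _).injOn)
  have haB : a ∈ B := Finset.mem_filter.2 ⟨ha, 1, one_mem K, rfl⟩
  have hSc : S.card = 2 * B.card := by
    have := Finset.card_sdiff_add_card_eq_card hBS
    omega
  have hBpos : 0 < B.card := Finset.card_pos.2 ⟨a, haB⟩
  -- the number of points is a power of two
  obtain ⟨j, hj⟩ : ∃ j, B.card = 2 ^ j := by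
    obtain ⟨n, hn⟩ := hP.card_orbit a
    have h1 : Nat.card (MulAction.orbit P a) = S.card := by
      rw [Nat.card_coe_set_eq, ← Set.ncard_coe_finset S]
      congr 1
      ext z
      exact ⟨fun ⟨g, hg⟩ => hg ▸ hSm g g.2 a ha,
        fun hz => let ⟨g, hg, e⟩ := hT z hz; ⟨⟨g, hg⟩, e⟩⟩
    rcases n with _ | n
    · rw [pow_zero] at hn; omega
    · exact ⟨n, by rw [pow_succ] at hn; omega⟩
  -- restriction of `K` to its orbit
  let ψ : K →* Perm X := P.subtype.comp K.subtype
  have hψ : Function.Injective ψ := P.subtype_injective.comp K.subtype_injective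
  have hψB : ∀ g ∈ ψ.range, ∀ z ∈ B, g z ∈ B := by
    rintro _ ⟨k, rfl⟩ z hz
    exact hKB k k.2 z hz
  let r : K →* Perm X := (res ψ.range B hψB).comp ψ.rangeRestrict
  have hr : ∀ k : K, ∀ z ∈ B, r k z = ((k : P) : Perm X) z := fun k z hz =>
    res_apply_mem hψB _ hz
  have hrsupp : ∀ u ∈ r.range, ∀ z, z ∉ B → u z = z := by
    rintro _ ⟨k, rfl⟩ z hz
    exact res_apply_not_mem hψB _ hz
  have hKp : IsPGroup 2 K := hP.to_subgroup K
  have hX1 : IsPGroup 2 r.range := hKp.of_surjective r.rangeRestrict r.rangeRestrict_surjective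
  have hk1 : Nat.card (ConjClasses r.range) ≤ kTwo B.card := ih B (by omega) _ hX1 hrsupp
  have hker : ∀ k ∈ r.ker, ∀ z ∈ B, ((k : P) : Perm X) z = z := fun k hk z hz => by
    rw [← hr k z hz, MonoidHom.mem_ker.1 hk]; rfl
  have hk2 : Nat.card (ConjClasses r.ker) ≤ kTwo B.card := by
    refine (classes_congr (r.ker.equivMapOfInjective ψ hψ)).trans (hcard ▸ ih (S \ B) (by omega) _
      ((hKp.to_subgroup r.ker).map ψ) ?_)
    rintro _ ⟨k, hk, rfl⟩ z hz
    by_cases hzS : z ∈ S
    · exact hker k hk z (by simpa [hzS] using hz)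
    · exact hS _ (k : P).2 z hzS
  -- orders
  have hdvd : Nat.card r.ker ∣ Nat.card r.range := by
    have hcj : ∀ k : r.ker, y * ((k : K) : P) * y⁻¹ ∈ K := fun k =>
      (Subgroup.normal_of_index_eq_two hK2).conj_mem _ (k : K).2 y
    let θ : r.ker →* r.range :=
      { toFun := fun k => r.rangeRestrict ⟨_, hcj k⟩
        map_one' := by rw [← map_one r.rangeRestrict]; congr 1; ext : 1; simp
        map_mul' := fun k l => by rw [← map_mul]; congr 1; ext : 1; simp [mul_assoc] }
    refine Subgroup.card_dvd_of_injective θ ((injective_iff_map_eq_one θ).2 fun k hk => ?_)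
    refine Subtype.ext (hψ ?_)
    show ((((k : K) : P)) : Perm X) = 1
    refine Equiv.ext fun z => ?_
    by_cases hzB : z ∈ B
    · exact hker k k.2 z hzB
    by_cases hzS : z ∈ S
    · have h1 := hr ⟨_, hcj k⟩ _ (hin y hy z (Finset.mem_sdiff.2 ⟨hzS, hzB⟩))
      rw [show r ⟨_, hcj k⟩ = 1 from congrArg Subtype.val hk] at h1
      simpa using h1.symm
    · exact hS _ ((k : K) : P).2 z hzS
  obtain ⟨w, hw⟩ := hX1.exists_card_eq
  obtain ⟨u, huw, hu⟩ := (Nat.dvd_prime_pow Nat.prime_two).1 (hw ▸ hdvd)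
  obtain ⟨v, rfl⟩ := Nat.exists_eq_add_of_le huw
  have hKcard : Nat.card K = Nat.card r.ker * Nat.card r.range := by
    rw [← r.ker.card_mul_index, Subgroup.index_ker]
  have hwB : u + v ≤ B.card - 1 := by
    have := card_le_two_pow B ⟨a, haB⟩ _ hX1 hrsupp
    rw [hw] at this
    exact (Nat.pow_le_pow_iff_right (by norm_num)).1 this
  -- pairs
  obtain ⟨F, hF⟩ : ∃ F, F = Nat.card {p : K × K // Commute (y * (p.1 : P)) (p.2 : P)} := ⟨_, rfl⟩
  have hid : 2 * Nat.card K * Nat.card (ConjClasses P) =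
      Nat.card (ConjClasses K) * Nat.card K + 3 * F := hF ▸ two_mul_classes_eq K hK2 hy
  have hb1 : F ≤ Nat.card (ConjClasses K) * Nat.card K := hF ▸ coset_pairs_le K y
  have hb2 : F ≤ Nat.card r.range * (Nat.card (ConjClasses r.range) * Nat.card r.range) := by
    rw [← card_comm_eq_card_conjClasses_mul_card, ← Nat.card_prod, hF]
    have hy' : ∀ k : K, y * (k : P) ∉ K := fun k h => hy (by simpa using mul_mem h (inv_mem k.2))
    have hsq : ∀ k : K, y * (k : P) * (y * (k : P)) ∈ K := fun k => by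
      rw [Subgroup.mul_mem_iff_of_index_two hK2]
    refine Nat.card_le_card_of_injective (fun p => (r.rangeRestrict p.1.1,
      ⟨(r.rangeRestrict ⟨_, hsq p.1.1⟩, r.rangeRestrict p.1.2), ?_⟩)) ?_
    · refine Commute.map ?_ r.rangeRestrict
      exact Subtype.ext (p.2.mul_left p.2).eq
    · rintro ⟨⟨z, m⟩, hzm⟩ ⟨⟨z', m'⟩, hzm'⟩ h
      have e1 := congrArg (fun q => (q.1 : Perm X)) h
      have e2 := congrArg (fun q => (q.2.1.1 : Perm X)) h
      have e3 := congrArg (fun q => (q.2.1.2 : Perm X)) h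
      dsimp only [MonoidHom.coe_rangeRestrict] at e1 e2 e3
      have a1 : ∀ c ∈ B, ((z : P) : Perm X) c = ((z' : P) : Perm X) c := fun c hc => by
        rw [← hr z c hc, ← hr z' c hc, e1]
      have a2 : ∀ c ∈ B, ((y * (z : P) * (y * (z : P)) : P) : Perm X) c =
          ((y * (z' : P) * (y * (z' : P)) : P) : Perm X) c := fun c hc => by
        rw [← hr ⟨_, hsq z⟩ c hc, ← hr ⟨_, hsq z'⟩ c hc, e2]
      have a3 : ∀ c ∈ B, ((m : P) : Perm X) c = ((m' : P) : Perm X) c := fun c hc => by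
        rw [← hr m c hc, ← hr m' c hc, e3]
      have hpre : ∀ c ∈ S \ B, ∃ d ∈ B, ((y * (z : P) : P) : Perm X) d = c := fun c hc =>
        ⟨_, hin (y * (z : P))⁻¹ (fun h => hy' z (inv_mem_iff.1 h)) c hc, by simp⟩
      have ez : z = z' := by
        refine Subtype.ext (mul_left_cancel (a := y) (Subtype.ext (Equiv.ext fun c => ?_)))
        by_cases hcB : c ∈ B
        · show (y : Perm X) _ = (y : Perm X) _
          rw [a1 c hcB]
        by_cases hcS : c ∈ S
        · obtain ⟨d, hd, rfl⟩ := hpre c (Finset.mem_sdiff.2 ⟨hcS, hcB⟩)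
          have h5 : ((y * (z : P) : P) : Perm X) d = ((y * (z' : P) : P) : Perm X) d := by
            show (y : Perm X) _ = (y : Perm X) _
            rw [a1 d hd]
          have h6 := a2 d hd
          simp only [Subgroup.coe_mul, Perm.coe_mul, Function.comp_apply] at h5 h6 ⊢
          rw [h6, h5]
        · rw [hS _ (y * (z : P)).2 c hcS, hS _ (y * (z' : P)).2 c hcS]
      subst ez
      have em : m = m' := by
        refine Subtype.ext (Subtype.ext (Equiv.ext fun c => ?_))
        by_cases hcB : c ∈ B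
        · exact a3 c hcB
        by_cases hcS : c ∈ S
        · obtain ⟨d, hd, rfl⟩ := hpre c (Finset.mem_sdiff.2 ⟨hcS, hcB⟩)
          have h5 := congrArg (fun g : P => (g : Perm X) d) hzm.eq
          have h6 := congrArg (fun g : P => (g : Perm X) d) hzm'.eq
          simp only [Subgroup.coe_mul, Perm.coe_mul, Function.comp_apply] at h5 h6 ⊢
          rw [← h5, ← h6, a3 d hd]
        · rw [hS _ (m : P).2 c hcS, hS _ (m' : P).2 c hcS]
      subst em
      rfl
  have hkK : Nat.card (ConjClasses K) ≤ Nat.card (ConjClasses r.ker) * Nat.card (ConjClasses r.range) :=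
    Cfsg.Agent.H21.LinClasses.card_conjClasses_le_ker_mul_range r
  have hpos : 0 < Nat.card K := Nat.card_pos
  rw [hSc, hj]
  rw [hj] at hk1 hk2 hwB
  refine step_arith (u := u) (v := v) (kK := Nat.card (ConjClasses K)) hwB ?_ ?_ ?_ ?_
  · exact hkK.trans (Nat.mul_le_mul hk2 hk1)
  · rw [mul_comm (kTwo (2 ^ j))]
    exact hkK.trans (Nat.mul_le_mul (hu ▸ classes_le_card) hk1)
  · refine Nat.le_of_mul_le_mul_left ?_ hpos
    calc Nat.card K * (2 * Nat.card (ConjClasses P)) =
        2 * Nat.card K * Nat.card (ConjClasses P) := by ring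
      _ ≤ Nat.card (ConjClasses K) * Nat.card K + 3 * (Nat.card (ConjClasses K) * Nat.card K) := by
        rw [hid]; omega
      _ = Nat.card K * (4 * Nat.card (ConjClasses K)) := by ring
  · refine Nat.le_of_mul_le_mul_left ?_ hpos
    have hb3 : F ≤ Nat.card K * (2 ^ v * kTwo (2 ^ j)) := by
      refine hb2.trans ?_
      rw [hKcard, hu, hw]
      calc 2 ^ (u + v) * (Nat.card (ConjClasses r.range) * 2 ^ (u + v))
          ≤ 2 ^ (u + v) * (kTwo (2 ^ j) * 2 ^ (u + v)) := by gcongr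
        _ = 2 ^ u * 2 ^ (u + v) * (2 ^ v * kTwo (2 ^ j)) := by rw [pow_add]; ring
    calc Nat.card K * (2 * Nat.card (ConjClasses P)) =
        2 * Nat.card K * Nat.card (ConjClasses P) := by ring
      _ ≤ Nat.card (ConjClasses K) * Nat.card K + 3 * (Nat.card K * (2 ^ v * kTwo (2 ^ j))) := by
        rw [hid]; omega
      _ = Nat.card K * (Nat.card (ConjClasses K) + 3 * (2 ^ v * kTwo (2 ^ j))) := by ring

/-- A `2`-group of permutations of degree `n` has at most `kTwo n` classes. -/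
theorem card_conjClasses_le_kTwo {X : Type} [Fintype X] (S : Finset X) (P : Subgroup (Perm X))
    (hP : IsPGroup 2 P) (hS : ∀ g ∈ P, ∀ y, y ∉ S → g y = y) :
    Nat.card (ConjClasses P) ≤ kTwo S.card := by
  classical
  induction hn : S.card using Nat.strong_induction_on generalizing S P with
  | _ n IH =>
  subst hn
  have hSm : ∀ g ∈ P, ∀ z ∈ S, g z ∈ S := fun g hg z hz => by
    by_contra h
    exact h (by rw [g.injective (hS g hg _ h)]; exact hz)
  by_cases h1 : S.card ≤ 1
  · have hbot : ∀ g : P, g = 1 := fun g => Subtype.ext <| Equiv.ext fun z => by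
      by_cases hz : z ∈ S
      · exact Finset.card_le_one.1 h1 _ (hSm g g.2 z hz) z hz
      · exact hS g g.2 z hz
    have : Subsingleton P := ⟨fun g h => (hbot g).trans (hbot h).symm⟩
    calc Nat.card (ConjClasses P) ≤ Nat.card P := classes_le_card
      _ = 1 := Nat.card_of_subsingleton (1 : P)
      _ = kTwo 0 := rfl
      _ ≤ kTwo S.card := kTwo_mono (Nat.zero_le _)
  obtain ⟨a, ha⟩ := Finset.card_pos.1 (by omega : 0 < S.card)
  by_cases hT : ∀ z ∈ S, ∃ g ∈ P, g a = z
  · exact transitive_step S P hP hS hSm (by omega) ha hT fun O hO Q hQ hQs => IH _ hO O Q hQ hQs rfl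
  -- intransitive
  let O : Finset X := S.filter fun z => ∃ g ∈ P, g a = z
  have hOm : ∀ g ∈ P, ∀ z ∈ O, g z ∈ O := fun g hg z hz => by
    obtain ⟨hzS, h, hh, rfl⟩ := Finset.mem_filter.1 hz
    exact Finset.mem_filter.2 ⟨hSm g hg _ hzS, g * h, mul_mem hg hh, rfl⟩
  have hOS : O ⊆ S := Finset.filter_subset _ _
  have hlt1 : O.card < S.card := Finset.card_lt_card <| hOS.ssubset_of_ne fun h => hT fun z hz =>
    (Finset.mem_filter.1 (h.symm ▸ hz : z ∈ O)).2
  have hO0 : 0 < O.card :=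
    Finset.card_pos.2 ⟨a, Finset.mem_filter.2 ⟨ha, 1, one_mem P, rfl⟩⟩
  have hadd := Finset.card_sdiff_add_card_eq_card hOS
  have hlt2 : (S \ O).card < S.card := by omega
  refine (Cfsg.Agent.H21.LinClasses.card_conjClasses_le_ker_mul_range (res P O hOm)).trans ?_
  refine le_trans (Nat.mul_le_mul ?_ ?_) ((kTwo_mul_le (S \ O).card O.card).trans_eq (congrArg kTwo hadd))
  · refine (classes_congr ((res P O hOm).ker.equivMapOfInjective P.subtype P.subtype_injective)).trans
      (IH _ hlt2 (S \ O) _ ((hP.to_subgroup _).map P.subtype) ?_ rfl)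
    rintro _ ⟨g, hg, rfl⟩ z hz
    by_cases hzS : z ∈ S
    · exact res_ker hOm g hg (by simpa [hzS] using hz)
    · exact hS _ g.2 z hzS
  · exact IH _ hlt1 O _
      (hP.of_surjective (res P O hOm).rangeRestrict (res P O hOm).rangeRestrict_surjective)
      (res_range_supp hOm) rfl

end Cfsg.Agent.H61.PermTwo
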