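import Cfsg.Agent.H61.PermTwo.Engine
import Cfsg.Agent.H61.PermTwo.TwoGroup
import Cfsg.Agent.H61.PermTwo.Component

/-!
The prime steps: consequences of the orbit engine for the closed weight tables used in S4197.
-/

namespace Cfsg.Agent.H61.PermTwo

open Equiv

theorem nest_mono {C : (ℕ → ℕ → ℝ) → ℝ}
    (hC : ∀ H H', (∀ f c, H f c ≤ H' f c) → C H ≤ C H') :
    ∀ m H H', (∀ f c, H f c ≤ H' f c) → nest C m H ≤ nest C m H'
  | 0, _, _, h => h 0 0
  | m + 1, _, _, h => hC _ _ fun _ _ => nest_mono hC m _ _ fun _ _ => h _ _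

theorem nest_mul {C : (ℕ → ℕ → ℝ) → ℝ}
    (hC : ∀ (r : ℝ) H, C (fun f c => r * H f c) = r * C H) :
    ∀ (m : ℕ) (r : ℝ) H, nest C m (fun f c => r * H f c) = r * nest C m H
  | 0, _, _ => rfl
  | m + 1, r, H => by
    simp only [nest]
    rw [← hC]
    congr 1
    funext f c
    exact nest_mul hC m r _

theorem comp_mono (p : ℕ) :
    ∀ k H H', (∀ f c, H f c ≤ H' f c) → comp p k H ≤ comp p k H'
  | 0, _, _, h => h 1 0
  | k + 1, _, _, h => by
    simp only [comp]
    exact add_le_add (nest_mono (comp_mono p k) p _ _ h)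
      (mul_le_mul_of_nonneg_left (h _ _) (Nat.cast_nonneg _))

theorem comp_mul (p : ℕ) :
    ∀ k (r : ℝ) H, comp p k (fun f c => r * H f c) = r * comp p k H
  | 0, _, _ => rfl
  | k + 1, r, H => by
    simp only [comp]
    rw [nest_mul (comp_mul p k)]
    ring

theorem comp_nonneg (p k : ℕ) (H : ℕ → ℕ → ℝ) (h : ∀ f c, 0 ≤ H f c) : 0 ≤ comp p k H := by
  have h1 := comp_mono p k (fun f c => (0 : ℝ) * H f c) H fun f c => by simpa using h f c
  rw [comp_mul] at h1
  simpa using h1

theorem mono_of {H : ℕ → ℕ → ℝ} (h0 : ∀ f c, 0 ≤ H f c)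
    (h1 : ∀ f c c', c ≤ c' → H f c ≤ H f c') : Mono H := ⟨h0, h1⟩

/-- Free components under product weights. -/
theorem os_pow_cyc_le {p : ℕ} [Fact p.Prime] (hp : 3 ≤ p) {B : ℝ} (hB : 1 ≤ B) (hB2 : B ≤ 2)
    {k : ℕ} {X : Type} [Fintype X] (S : Finset X) (P N : Subgroup (Perm X)) (x : Perm X)
    (hs : Sit p S P N x) (ht : ∀ a ∈ S, ∀ b ∈ S, ∃ g ∈ P, g a = b) (hcard : S.card = p ^ k) :
    os N x (fun u => B ^ cyc S u) ≤ rImp p B B k := by
  classical
  refine le_trans (le_of_eq (os_congr N x _ _ fun n _ => ?_))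
    (comp_prod_le hp hB (A := B) ?_ ?_ hB S P N x hs ht hcard)
  · rw [← pow_add, fx_add_oc]
  · exact le_self_pow₀ hB (by norm_num)
  · nlinarith [mul_le_mul hB2 hB2 (by linarith) (by norm_num)]

theorem step_table {p : ℕ} [Fact p.Prime] (hp : 3 ≤ p) {B Bp : ℝ} (hB : 1 ≤ B) (hB2 : B ≤ 2)
    (hBp : 0 ≤ Bp) (hfree : ∀ k, rImp p B B k ≤ Bp ^ (p ^ k)) (D : ℕ) (W : ℕ → ℕ → ℝ)
    (hW : ∀ i a, 0 ≤ W i a)
    (hclosed : ∀ k i a, i + p ^ k + a ≤ D →
      comp p k (fun f c => W (i + f) a * B ^ c) ≤ W i (a + p ^ k))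
    {X : Type} [Fintype X] [DecidableEq X] (M : Finset X) (P : Subgroup (Perm X)) (hP : IsPGroup p P)
    (hM : ∀ g ∈ P, ∀ m ∈ M, g m ∈ M) (hcard : Fintype.card X ≤ D) :
    os P 1 (fun u => W (fx M Finset.univ u) 0 * B ^ oc M Finset.univ u) ≤
      W 0 M.card * Bp ^ (Fintype.card X - M.card) := by
  have hB0 : 0 ≤ B := by linarith
  have h := engine_univ D (fun i j a b => W i a * B ^ j * Bp ^ b)
    (fun i j a b => by have := hW i a; positivity) ?_ ?_ M P hP hM hcard
  · simpa using h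
  · intro k i j a b hD S P N x hs ht hc
    refine le_trans (compOK_comp p k X S P N x hs ht hc
      (fun f c => W (i + f) a * B ^ (j + c) * Bp ^ b) (mono_of (fun f c => ?_) fun f c c' hcc => ?_)) ?_
    · have := hW (i + f) a; positivity
    · have := hW (i + f) a
      gcongr
    · have e : (fun f c => W (i + f) a * B ^ (j + c) * Bp ^ b)
          = fun f c => (B ^ j * Bp ^ b) * (W (i + f) a * B ^ c) := by
        funext f c; rw [pow_add]; ring
      rw [e, comp_mul]
      refine le_trans (mul_le_mul_of_nonneg_left (hclosed k i a (by omega)) (by positivity)) ?_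
      exact le_of_eq (by ring)
  · intro k i j a b _ S P N x hs ht hc
    have e : ∀ u, W i a * B ^ (j + cyc S u) * Bp ^ b = (W i a * B ^ j * Bp ^ b) * B ^ cyc S u :=
      fun u => by rw [pow_add]; ring
    beta_reduce
    rw [funext e, os_const_mul]
    refine le_trans (mul_le_mul_of_nonneg_left
      (le_trans (os_pow_cyc_le hp hB hB2 S P N x hs ht hc) (hfree k)) ?_) (le_of_eq (by ring))
    have := hW i a; positivity

theorem step_prod {p : ℕ} [Fact p.Prime] (hp : 3 ≤ p) {A A' B Bp : ℝ} (hB : 1 ≤ B) (hB2 : B ≤ 2)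
    (hA : B ≤ A ^ 3) (hA4 : A ^ 3 ≤ 4 * B) (hA1 : 1 ≤ A) (hA' : 0 ≤ A') (hBp : 0 ≤ Bp)
    (hmark : ∀ k, rImp p A B k ≤ A' ^ (p ^ k)) (hfree : ∀ k, rImp p B B k ≤ Bp ^ (p ^ k))
    {X : Type} [Fintype X] [DecidableEq X] (M : Finset X) (P : Subgroup (Perm X)) (hP : IsPGroup p P)
    (hM : ∀ g ∈ P, ∀ m ∈ M, g m ∈ M) :
    os P 1 (fun u => A ^ fx M Finset.univ u * B ^ oc M Finset.univ u) ≤
      A' ^ M.card * Bp ^ (Fintype.card X - M.card) := by
  have hB0 : 0 ≤ B := by linarith
  have hA0 : 0 ≤ A := by linarith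
  have h := engine_univ (Fintype.card X) (fun i j a b => A ^ i * B ^ j * A' ^ a * Bp ^ b)
    (fun i j a b => by positivity) ?_ ?_ M P hP hM le_rfl
  · simpa using h
  · intro k i j a b _ S P N x hs ht hc
    have e : ∀ u, A ^ (i + fx S S u) * B ^ (j + oc S S u) * A' ^ a * Bp ^ b
        = (A ^ i * B ^ j * A' ^ a * Bp ^ b) * (A ^ fx S S u * B ^ oc S S u) :=
      fun u => by rw [pow_add, pow_add]; ring
    beta_reduce
    rw [funext e, os_const_mul]
    exact le_trans (mul_le_mul_of_nonneg_left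
      (le_trans (comp_prod_le hp hB hA hA4 hA1 S P N x hs ht hc) (hmark k)) (by positivity))
      (le_of_eq (by ring))
  · intro k i j a b _ S P N x hs ht hc
    have e : ∀ u, A ^ i * B ^ (j + cyc S u) * A' ^ a * Bp ^ b
        = (A ^ i * B ^ j * A' ^ a * Bp ^ b) * B ^ cyc S u :=
      fun u => by rw [pow_add]; ring
    beta_reduce
    rw [funext e, os_const_mul]
    exact le_trans (mul_le_mul_of_nonneg_left
      (le_trans (os_pow_cyc_le hp hB hB2 S P N x hs ht hc) (hfree k)) (by positivity))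
      (le_of_eq (by ring))

theorem step_small {p : ℕ} [Fact p.Prime] (D : ℕ) (G : ℕ → ℕ → ℕ → ℕ → ℝ)
    (hG : ∀ i j a b, 0 ≤ G i j a b) (hmono : ∀ i j j' a b, j ≤ j' → G i j a b ≤ G i j' a b)
    (hm : ∀ k i j a b, i + j + p ^ k + a + b ≤ D →
      comp p k (fun f c => G (i + f) (j + c) a b) ≤ G i j (a + p ^ k) b)
    (hf : ∀ k i j a b, i + j + p ^ k + a + b ≤ D →
      comp p k (fun f c => G i (j + f + c) a b) ≤ G i j a (b + p ^ k))
    {X : Type} [Fintype X] [DecidableEq X] (M : Finset X) (P : Subgroup (Perm X)) (hP : IsPGroup p P)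
    (hM : ∀ g ∈ P, ∀ m ∈ M, g m ∈ M) (hcard : Fintype.card X ≤ D) :
    os P 1 (fun u => G (fx M Finset.univ u) (oc M Finset.univ u) 0 0) ≤
      G 0 0 M.card (Fintype.card X - M.card) := by
  refine engine_univ D G hG ?_ ?_ M P hP hM hcard
  · intro k i j a b hD S P N x hs ht hc
    exact le_trans (compOK_comp p k X S P N x hs ht hc
      (fun f c => G (i + f) (j + c) a b)
      (mono_of (fun _ _ => hG _ _ _ _) fun _ _ _ hcc => hmono _ _ _ _ _ (by omega)))
      (hm k i j a b hD)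
  · intro k i j a b hD S P N x hs ht hc
    refine le_trans (le_of_eq (os_congr N x _
      (fun u => G i (j + fx S S u + oc S S u) a b) fun n _ => ?_))
      (le_trans (compOK_comp p k X S P N x hs ht hc (fun f c => G i (j + f + c) a b)
        (mono_of (fun _ _ => hG _ _ _ _) fun _ _ _ hcc => hmono _ _ _ _ _ (by omega)))
        (hf k i j a b hD))
    simp only [add_assoc, fx_add_oc]

/-- Base: two-elements without fixed point in `M`; `Fa` is closed under the components. -/
theorem step_two (Fa : ℕ → ℝ) (hFa : ∀ a, 0 ≤ Fa a) (h0 : 1 ≤ Fa 0) (D : ℕ)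
    (hclosed : ∀ k a, 1 ≤ k → 2 ^ k + a ≤ D →
      comp 2 k (fun f _ => if f = 0 then Fa a else 0) ≤ Fa (a + 2 ^ k))
    {X : Type} [Fintype X] [DecidableEq X] (M : Finset X) (P : Subgroup (Perm X)) (hP : IsPGroup 2 P)
    (hM : ∀ g ∈ P, ∀ m ∈ M, g m ∈ M) (hcard : Fintype.card X ≤ D) :
    os P 1 (fun u => if fx M Finset.univ u = 0 then 1 else 0) ≤
      Fa M.card * kTwo (Fintype.card X - M.card) := by
  have : Fact (Nat.Prime 2) := ⟨Nat.prime_two⟩
  let G : ℕ → ℕ → ℕ → ℕ → ℝ := fun i _ a b => if i = 0 then Fa a * (kTwo b : ℝ) else 0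
  have hG : ∀ i j a b, 0 ≤ G i j a b := by
    intro i j a b
    simp only [G]
    split_ifs
    · exact mul_nonneg (hFa a) (Nat.cast_nonneg _)
    · exact le_rfl
  have h := engine_univ D G hG ?_ ?_ M P hP hM hcard
  · refine le_trans ?_ (le_trans h (le_of_eq (by simp [G])))
    refine os_mono _ _ _ _ fun n _ => ?_
    simp only [G]
    split_ifs
    · simpa [kTwo] using h0
    · exact le_rfl
  · intro k i j a b hD S P N x hs ht hc
    rcases Nat.eq_zero_or_pos i with rfl | hi
    · refine le_trans (compOK_comp 2 k X S P N x hs ht hc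
        (fun f _ => if f = 0 then Fa a * (kTwo b : ℝ) else 0) (mono_of (fun f c => ?_)
          fun _ _ _ _ => le_rfl) |> le_trans (le_of_eq (os_congr N x _ _ fun n _ => by simp [G]))) ?_
      · split_ifs
        · exact mul_nonneg (hFa a) (Nat.cast_nonneg _)
        · exact le_rfl
      rcases Nat.eq_zero_or_pos k with rfl | hk
      · simp only [comp, one_ne_zero, if_false]
        exact hG 0 j _ _
      have e : (fun (f : ℕ) (_ : ℕ) => if f = 0 then Fa a * (kTwo b : ℝ) else 0)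
          = fun f c => (kTwo b : ℝ) * (fun f _ => if f = 0 then Fa a else 0 : ℕ → ℕ → ℝ) f c := by
        funext f c; by_cases hf : f = 0 <;> simp [hf, mul_comm]
      rw [e, comp_mul]
      refine le_trans (mul_le_mul_of_nonneg_left (hclosed k a hk (by omega))
        (Nat.cast_nonneg _)) (le_of_eq ?_)
      simp [G, mul_comm]
    · have e : ∀ n ∈ N, G (i + fx S S (x * n)) (j + oc S S (x * n)) a b = (fun _ => (0 : ℝ)) (x * n) :=
        fun n _ => if_neg (by omega)
      rw [os_congr N x (fun u => G (i + fx S S u) (j + oc S S u) a b) (fun _ => 0) e, os_const, zero_mul]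
      exact hG i j _ _
  · intro k i j a b _ S P N x hs _ hc
    by_cases hi : i = 0
    · subst hi
      simp only [G, if_true]
      rw [os_const]
      have hk : (Nat.card (ConjClasses N) : ℝ) ≤ (kTwo (2 ^ k) : ℝ) := by
        have := card_conjClasses_le_kTwo S N
          (hs.pgroup.to_le hs.le) fun g hg => hs.supp g (hs.le hg)
        rw [hc] at this
        exact_mod_cast this
      refine le_trans (mul_le_mul_of_nonneg_left (le_trans (os_one_le N x hs.normal) hk)
        (mul_nonneg (hFa a) (Nat.cast_nonneg _))) ?_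
      rw [mul_assoc]
      refine mul_le_mul_of_nonneg_left ?_ (hFa a)
      exact_mod_cast kTwo_mul_le b (2 ^ k)
    · simp only [G, if_neg hi]
      rw [os_const, zero_mul]

end Cfsg.Agent.H61.PermTwo
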