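import Cfsg.Agent.H61.PermTwo.Step
import Cfsg.Agent.H61.PermTwo.Steps
import Cfsg.Agent.H61.PermTwo.TwoGroup
import Mathlib.GroupTheory.Sylow
import Mathlib.Analysis.Complex.Exponential
import Mathlib.Algebra.Order.Field.GeomSum
import Mathlib.Tactic.NormNum.Pow
import Mathlib.Tactic.NormNum.Prime
import Mathlib.Data.Fintype.Perm

/-!
The bound for the number of derangement classes of a permutation group of degree `d`, uniform in `d`:
`numD G (primes ≤ d) univ ≤ (198 / 100) ^ d`. This settles `k(G) ≤ 2 ^ (d - 1)` for `139 ≤ d`.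
-/

namespace Cfsg.Agent.H61.PermTwo

open Equiv

/-- The growth rate of derangement classes in the degree. -/
noncomputable def Ainf : ℝ := 198 / 100

section Two

/-- The value of `comp 2 k` at the indicator of no fixed point. -/
noncomputable def cTwo : ℕ → ℝ
  | 0 => 0
  | k + 1 => cTwo k ^ 2 + 2 ^ (2 ^ k - 1)

theorem cTwo_nonneg : ∀ k, 0 ≤ cTwo k
  | 0 => le_refl _
  | k + 1 => by
    have := cTwo_nonneg k
    simp only [cTwo]
    positivity

theorem nest_prod {C : (ℕ → ℕ → ℝ) → ℝ} {A B r : ℝ}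
    (h : ∀ t : ℝ, C (fun f c => t * (A ^ f * B ^ c)) = t * r) :
    ∀ (m : ℕ) (t : ℝ), nest C m (fun f c => t * (A ^ f * B ^ c)) = t * r ^ m := by
  intro m
  induction m with
  | zero => intro t; simp [nest]
  | succ m ih =>
    intro t
    have h1 : ∀ f c : ℕ, nest C m (fun f' c' => t * (A ^ (f + f') * B ^ (c + c'))) =
        t * r ^ m * (A ^ f * B ^ c) := by
      intro f c
      have := ih (t * (A ^ f * B ^ c))
      have h2 : (fun f' c' : ℕ => t * (A ^ (f + f') * B ^ (c + c'))) =
          fun f' c' => t * (A ^ f * B ^ c) * (A ^ f' * B ^ c') := by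
        funext f' c'
        rw [pow_add, pow_add]
        ring
      rw [h2, this]
      ring
    simp only [nest, h1]
    rw [h, pow_succ]
    ring

theorem comp_two : ∀ (k : ℕ) (t : ℝ), comp 2 k (fun f c => t * ((0 : ℝ) ^ f * 1 ^ c)) = t * cTwo k := by
  intro k
  induction k with
  | zero => intro t; simp [comp, cTwo]
  | succ k ih =>
    intro t
    simp only [comp, cTwo]
    rw [nest_prod ih 2 t]
    simp
    ring

theorem comp_two_indicator (k : ℕ) (t : ℝ) :
    comp 2 k (fun f _ => if f = 0 then t else 0) = t * cTwo k := by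
  rw [← comp_two k t]
  congr 1
  funext f c
  rcases f with _ | f <;> simp

set_option exponentiation.threshold 600 in
theorem cTwo_inv (j : ℕ) : cTwo (j + 8) + 2 * 2 ^ 2 ^ (j + 7) ≤ (14671 / 10000 : ℝ) ^ 2 ^ (j + 8) := by
  induction j with
  | zero => norm_num [cTwo]
  | succ j ih =>
    have hc := cTwo_nonneg (j + 8)
    have e1 : j + 1 + 8 = (j + 8) + 1 := by omega
    have e2 : j + 1 + 7 = j + 8 := by omega
    rw [e1, e2, pow_succ (2 : ℕ) (j + 8), pow_mul]
    simp only [cTwo]
    generalize hw : (2 : ℝ) ^ 2 ^ (j + 7) = w at ih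
    have hw1 : (2 : ℝ) ^ 2 ^ (j + 8) = w ^ 2 := by
      rw [← hw, ← pow_mul, ← pow_succ]
    have hw2 : (2 : ℝ) ^ (2 ^ (j + 8) - 1) ≤ w ^ 2 := by
      rw [← hw1]
      exact pow_le_pow_right₀ one_le_two (Nat.sub_le _ _)
    have hw0 : 0 ≤ w := by rw [← hw]; positivity
    calc cTwo (j + 8) ^ 2 + 2 ^ (2 ^ (j + 8) - 1) + 2 * 2 ^ 2 ^ (j + 8)
        ≤ (cTwo (j + 8) + 2 * w) ^ 2 := by rw [hw1]; nlinarith [mul_nonneg hc hw0]
      _ ≤ _ := pow_le_pow_left₀ (by positivity) ih 2

set_option exponentiation.threshold 600 in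
theorem cTwo_le (k : ℕ) : cTwo k ≤ (14671 / 10000 : ℝ) ^ 2 ^ k := by
  rcases Nat.lt_or_ge k 8 with h | h
  · interval_cases k <;> norm_num [cTwo]
  · obtain ⟨j, rfl⟩ : ∃ j, k = j + 8 := ⟨k - 8, by omega⟩
    exact le_trans (le_add_of_nonneg_right (by positivity)) (cTwo_inv j)

end Two

section Odd

theorem rImp_nonneg (p : ℕ) {A B : ℝ} (hA : 0 ≤ A) (hB : 0 ≤ B) : ∀ k, 0 ≤ rImp p A B k := by
  intro k
  induction k with
  | zero => simpa [rImp] using hA
  | succ k ih =>
    simp only [rImp]
    positivity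

/-- A rate `T` dominates the component bound once it does so with a margin at level `k0`. -/
theorem rImp_le {p : ℕ} (hp : 3 ≤ p) {A B T : ℝ} (s : ℝ) (hA : 0 ≤ A) (hB : 1 ≤ B) (hT : 1 ≤ T)
    (hs : 1 ≤ s) (hps : (p : ℝ) ≤ s ^ (p - 1)) (k0 : ℕ)
    (hsmall : ∀ k < k0, rImp p A B k ≤ T ^ p ^ k) (hbase : rImp p A B k0 + 1 ≤ T ^ p ^ k0)
    (h2 : (p : ℝ) * (s * B) ^ p ^ k0 ≤ (T ^ (p - 1)) ^ p ^ k0) (h3 : s * B ≤ T ^ (p - 1)) :
    ∀ k, rImp p A B k ≤ T ^ p ^ k := by
  have hR := rImp_nonneg p hA (by linarith : (0 : ℝ) ≤ B)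
  have key : ∀ j, rImp p A B (k0 + j) + 1 ≤ T ^ p ^ (k0 + j) := by
    intro j
    induction j with
    | zero => simpa using hbase
    | succ j ih =>
      have hn : p ^ k0 ≤ p ^ (k0 + j) := Nat.pow_le_pow_right (by omega) (Nat.le_add_right _ _)
      rw [show k0 + (j + 1) = k0 + j + 1 by omega, pow_succ, pow_mul]
      simp only [rImp]
      have hR0 := hR (k0 + j)
      generalize k0 + j = k at ih hn hR0 ⊢
      generalize rImp p A B k = R at ih hR0 ⊢
      have hU1 : 1 ≤ T ^ p ^ k := one_le_pow₀ hT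
      have hsB : 1 ≤ s * B := one_le_mul_of_one_le_of_one_le hs hB
      have hE : (if p = 3 ∧ k = 1 then (0 : ℝ) else ((p - 1) * p ^ ((p ^ k - 1) / (p - 1)) : ℕ)) * B ^ p ^ k
          ≤ ((p : ℝ) - 1) * (s * B) ^ p ^ k := by
        have he : (p : ℝ) ^ ((p ^ k - 1) / (p - 1)) ≤ s ^ p ^ k := by
          calc (p : ℝ) ^ ((p ^ k - 1) / (p - 1)) ≤ (s ^ (p - 1)) ^ ((p ^ k - 1) / (p - 1)) :=
                pow_le_pow_left₀ (by positivity) hps _
            _ ≤ s ^ p ^ k := by
                rw [← pow_mul]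
                refine pow_le_pow_right₀ hs ?_
                exact (Nat.mul_div_le _ _).trans (Nat.sub_le _ _)
        have hp1 : ((p - 1 : ℕ) : ℝ) = (p : ℝ) - 1 := by
          rw [Nat.cast_sub (by omega)]; simp
        have hp0 : (0 : ℝ) ≤ (p : ℝ) - 1 := by rw [← hp1]; positivity
        split_ifs
        · rw [zero_mul]; positivity
        · rw [Nat.cast_mul, Nat.cast_pow, hp1, mul_pow, ← mul_assoc]
          exact mul_le_mul_of_nonneg_right (mul_le_mul_of_nonneg_left he hp0) (by positivity)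
      have hbig : (p : ℝ) * (s * B) ^ p ^ k ≤ (T ^ (p - 1)) ^ p ^ k := by
        obtain ⟨i, hi⟩ := Nat.exists_eq_add_of_le hn
        rw [hi, pow_add, pow_add, ← mul_assoc]
        exact mul_le_mul h2 (pow_le_pow_left₀ (by positivity) h3 _) (by positivity) (by positivity)
      rw [← pow_mul, mul_comm (p - 1), pow_mul] at hbig
      generalize hU : T ^ p ^ k = U at ih hU1 hbig ⊢
      obtain ⟨q, rfl⟩ : ∃ q, p = q + 1 := ⟨p - 1, by omega⟩
      simp only [Nat.add_sub_cancel] at hbig hE ⊢
      have h4 : R ^ (q + 1) + U ^ q ≤ U ^ (q + 1) := by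
        have h5 : R ^ q ≤ U ^ q := pow_le_pow_left₀ hR0 (by linarith) q
        have h6 : R ^ q * R ≤ U ^ q * (U - 1) :=
          mul_le_mul h5 (by linarith) hR0 (by positivity)
        rw [pow_succ, pow_succ]
        linarith
      have h7 : (1 : ℝ) ≤ (s * B) ^ (q + 1) ^ k := one_le_pow₀ hsB
      push_cast at hE hbig ⊢
      linarith
  intro k
  rcases Nat.lt_or_ge k k0 with h | h
  · exact hsmall k h
  · obtain ⟨j, rfl⟩ := Nat.exists_eq_add_of_le h
    linarith [key j]

end Odd

/-- Derangement class bound for the primes in `S`. -/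
def Good (S : Finset ℕ) (A B : ℝ) : Prop :=
  ∀ (Y : Type) [Fintype Y] (G : Subgroup (Perm Y)) (L : Finset Y),
    (∀ g ∈ G, ∀ m ∈ L, g m ∈ L) → (numD G S ↑L : ℝ) ≤ A ^ L.card * B ^ (Fintype.card Y - L.card)

theorem good_two : Good (insert 2 ∅) (14671 / 10000) (14954 / 10000) := by
  intro Y _ G L hL
  classical
  have : Fact (Nat.Prime 2) := ⟨Nat.prime_two⟩
  obtain ⟨P⟩ : Nonempty (Sylow 2 G) := inferInstance
  have h1 := numD_insert_le G L hL ∅ 2 P (fun f _ => if f = 0 then (1 : ℝ) else 0) (by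
    intro Z _ H K _ _
    split_ifs with h
    · exact_mod_cast numD_empty_le H ↑K
    · rw [numD_empty_eq_zero H ↑K (Finset.coe_nonempty.2 (Finset.card_ne_zero.1 h))]
      simp)
  refine h1.trans ((step_two (fun a => (14671 / 10000 : ℝ) ^ a) (fun a => by positivity) (by simp)
    (Fintype.card Y) ?_ L _ (P.isPGroup'.map _) ?_ le_rfl).trans ?_)
  · intro k a _ _
    rw [comp_two_indicator, pow_add]
    exact mul_le_mul_of_nonneg_left (cTwo_le k) (by positivity)
  · intro g hg
    exact hL g (Subgroup.map_subtype_le _ hg)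
  · exact mul_le_mul_of_nonneg_left (kTwo_le_pow (by norm_num) (by norm_num) _) (by positivity)

theorem good_insert {S : Finset ℕ} {A B : ℝ} (hgood : Good S A B) {p : ℕ} [Fact p.Prime] (hp : 3 ≤ p)
    {A' B' : ℝ} (hB : 1 ≤ B) (hB2 : B ≤ 2) (hA : B ≤ A ^ 3) (hA4 : A ^ 3 ≤ 4 * B) (hA1 : 1 ≤ A)
    (hA' : 0 ≤ A') (hB' : 0 ≤ B') (hmark : ∀ k, rImp p A B k ≤ A' ^ p ^ k)
    (hfree : ∀ k, rImp p B B k ≤ B' ^ p ^ k) : Good (insert p S) A' B' := by
  intro Y _ G L hL
  classical
  obtain ⟨P⟩ : Nonempty (Sylow p G) := inferInstance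
  refine (numD_insert_le G L hL S p P (fun f c => A ^ f * B ^ c)
    (fun Z _ H K _ hK => hgood Z H K hK)).trans
    (step_prod hp hB hB2 hA hA4 hA1 hA' hB' hmark hfree L _ (P.isPGroup'.map _) ?_)
  intro g hg
  exact hL g (Subgroup.map_subtype_le _ hg)

set_option exponentiation.threshold 600 in
theorem good_three : Good (insert 3 (insert 2 ∅)) (183203 / 100000) (185034 / 100000) := by
  have : Fact (Nat.Prime 3) := ⟨by norm_num⟩
  refine good_insert good_two le_rfl (by norm_num) (by norm_num) (by norm_num) (by norm_num)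
    (by norm_num) (by norm_num) (by norm_num) ?_ ?_ <;>
  · refine rImp_le le_rfl (1733 / 1000) (by norm_num) (by norm_num) (by norm_num) (by norm_num)
      (by norm_num) 3 ?_ ?_ (by norm_num) (by norm_num)
    · intro k hk; interval_cases k <;> norm_num [rImp]
    · norm_num [rImp]

set_option exponentiation.threshold 600 in
theorem good_five : Good (insert 5 (insert 3 (insert 2 ∅))) (194785 / 100000) (196225 / 100000) := by
  have : Fact (Nat.Prime 5) := ⟨by norm_num⟩
  refine good_insert good_three (by norm_num) (by norm_num) (by norm_num) (by norm_num) (by norm_num)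
    (by norm_num) (by norm_num) (by norm_num) ?_ ?_ <;>
  · refine rImp_le (by norm_num) 2 (by norm_num) (by norm_num) (by norm_num) (by norm_num)
      (by norm_num) 2 ?_ ?_ (by norm_num) (by norm_num)
    · intro k hk; interval_cases k <;> norm_num [rImp]
    · norm_num [rImp]

set_option exponentiation.threshold 600 in
theorem good_seven :
    Good (insert 7 (insert 5 (insert 3 (insert 2 ∅)))) (197728 / 100000) (199047 / 100000) := by
  have : Fact (Nat.Prime 7) := ⟨by norm_num⟩
  refine good_insert good_five (by norm_num) (by norm_num) (by norm_num) (by norm_num) (by norm_num)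
    (by norm_num) (by norm_num) (by norm_num) ?_ ?_ <;>
  · refine rImp_le (by norm_num) 2 (by norm_num) (by norm_num) (by norm_num) (by norm_num)
      (by norm_num) 2 ?_ ?_ (by norm_num) (by norm_num)
    · intro k hk; interval_cases k <;> norm_num [rImp]
    · norm_num [rImp]

theorem good_eleven :
    Good (insert 11 (insert 7 (insert 5 (insert 3 (insert 2 ∅))))) (197935 / 100000) (199241 / 100000) := by
  have : Fact (Nat.Prime 11) := ⟨by norm_num⟩
  refine good_insert good_seven (by norm_num) (by norm_num) (by norm_num) (by norm_num) (by norm_num)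
    (by norm_num) (by norm_num) (by norm_num) ?_ ?_ <;>
  · refine rImp_le (by norm_num) 2 (by norm_num) (by norm_num) (by norm_num) (by norm_num)
      (by norm_num) 1 ?_ ?_ (by norm_num) (by norm_num)
    · intro k hk; interval_cases k; norm_num [rImp]
    · norm_num [rImp]

/-- The primes up to `13`. -/
def smallPrimes : Finset ℕ := insert 13 (insert 11 (insert 7 (insert 5 (insert 3 (insert 2 ∅)))))

theorem good_thirteen : Good smallPrimes (197988 / 100000) (199290 / 100000) := by
  have : Fact (Nat.Prime 13) := ⟨by norm_num⟩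
  refine good_insert good_eleven (by norm_num) (by norm_num) (by norm_num) (by norm_num) (by norm_num)
    (by norm_num) (by norm_num) (by norm_num) ?_ ?_ <;>
  · refine rImp_le (by norm_num) 2 (by norm_num) (by norm_num) (by norm_num) (by norm_num)
      (by norm_num) 1 ?_ ?_ (by norm_num) (by norm_num)
    · intro k hk; interval_cases k; norm_num [rImp]
    · norm_num [rImp]

section Tail

/-- The logarithmic growth caused by a prime `p ≥ 17`. -/
noncomputable def tailEps (p : ℕ) : ℝ := 2 * (100 / 197 : ℝ) ^ p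

theorem sum_tailEps_le (T : Finset ℕ) (hT : ∀ p ∈ T, 17 ≤ p) :
    ∑ p ∈ T, tailEps p ≤ 1 / 24000 := by
  have hsub : T ⊆ Finset.Ico 17 (T.sup id + 1) := fun p hp =>
    Finset.mem_Ico.2 ⟨hT p hp, Nat.lt_succ_of_le (Finset.le_sup (f := id) hp)⟩
  refine (Finset.sum_le_sum_of_subset_of_nonneg hsub (fun p _ _ => by unfold tailEps; positivity)).trans ?_
  simp only [tailEps, ← Finset.mul_sum]
  have h := geom_sum_Ico_le_of_lt_one (K := ℝ) (x := 100 / 197) (m := 17) (n := T.sup id + 1)
    (by norm_num) (by norm_num)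
  have h2 : 2 * ((100 / 197 : ℝ) ^ 17 / (1 - 100 / 197)) ≤ 1 / 24000 := by norm_num
  linarith

theorem exp_sum_tailEps_le (T : Finset ℕ) (hT : ∀ p ∈ T, 17 ≤ p) :
    Real.exp (∑ p ∈ T, tailEps p) ≤ 24000 / 23999 := by
  refine (Real.exp_le_exp.2 (sum_tailEps_le T hT)).trans ?_
  refine (Real.exp_bound_div_one_sub_of_interval (by norm_num) (by norm_num)).trans ?_
  norm_num

theorem tail_rImp_le {p : ℕ} (hp : 17 ≤ p) {A B : ℝ} (hA : 197 / 100 ≤ A) (hB : 1 ≤ B) (hB2 : B ≤ 2) :
    ∀ k, rImp p A B k ≤ (A * Real.exp (tailEps p)) ^ p ^ k := by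
  have he : 1 ≤ Real.exp (tailEps p) := Real.one_le_exp (by unfold tailEps; positivity)
  have hAT : A ≤ A * Real.exp (tailEps p) := le_mul_of_one_le_right (by linarith) he
  have hT4 : (15 : ℝ) ≤ (A * Real.exp (tailEps p)) ^ (p - 1) := by
    calc (15 : ℝ) ≤ (197 / 100) ^ 4 := by norm_num
      _ ≤ (197 / 100) ^ (p - 1) := pow_le_pow_right₀ (by norm_num) (by omega)
      _ ≤ _ := pow_le_pow_left₀ (by norm_num) (by linarith) _
  have hps : (p : ℝ) ≤ 2 ^ (p - 1) := by
    have := Nat.lt_two_pow_self (n := p - 1)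
    have : (p : ℕ) ≤ 2 ^ (p - 1) := by omega
    exact_mod_cast this
  refine rImp_le (by omega) 2 (by linarith) hB (by linarith) one_le_two hps 1 ?_ ?_ ?_ (by linarith)
  · intro k hk
    obtain rfl : k = 0 := by omega
    simpa [rImp] using hAT
  · have h1 : rImp p A B 1 = A ^ p + ((p - 1 : ℕ) : ℝ) * B := by simp [rImp]
    rw [h1, pow_one, mul_pow, ← Real.exp_nat_mul]
    have hAp : 0 < A ^ p := pow_pos (by linarith) p
    have hq : ((p - 1 : ℕ) : ℝ) = (p : ℝ) - 1 := by rw [Nat.cast_sub (by omega)]; simp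
    have hk : 2 * (p : ℝ) ≤ A ^ p * ((p : ℝ) * tailEps p) := by
      have : (1 : ℝ) ≤ A ^ p * (100 / 197) ^ p := by
        rw [← mul_pow]
        exact one_le_pow₀ (by linarith)
      unfold tailEps
      nlinarith [show (0 : ℝ) ≤ p from Nat.cast_nonneg p]
    have hexp := Real.add_one_le_exp ((p : ℝ) * tailEps p)
    have hp0 : (0 : ℝ) ≤ (p : ℝ) - 1 := by rw [← hq]; positivity
    rw [hq]
    nlinarith [mul_le_mul_of_nonneg_left hexp hAp.le, mul_le_mul_of_nonneg_left hB2 hp0]
  · rw [pow_one]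
    calc (p : ℝ) * (2 * B) ^ p ≤ 2 ^ p * (2 * 2) ^ p := by
          refine mul_le_mul (hps.trans (pow_le_pow_right₀ one_le_two (Nat.sub_le _ _))) ?_ (by positivity)
            (by positivity)
          exact pow_le_pow_left₀ (by linarith) (by linarith) _
      _ = 8 ^ p := by rw [← mul_pow]; norm_num
      _ ≤ _ := pow_le_pow_left₀ (by norm_num) (by linarith) _

theorem good_tail : ∀ T : Finset ℕ, (∀ p ∈ T, p.Prime ∧ 17 ≤ p) →
    Good (smallPrimes ∪ T) (197988 / 100000 * Real.exp (∑ p ∈ T, tailEps p))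
      (199290 / 100000 * Real.exp (∑ p ∈ T, tailEps p)) := by
  intro T
  induction T using Finset.induction_on with
  | empty =>
    intro _
    simpa using good_thirteen
  | @insert p T hpT ih =>
    intro hT
    obtain ⟨hpp, hp17⟩ := hT p (Finset.mem_insert_self _ _)
    have : Fact p.Prime := ⟨hpp⟩
    have hT' : ∀ q ∈ T, q.Prime ∧ 17 ≤ q := fun q hq => hT q (Finset.mem_insert_of_mem hq)
    have he1 : 1 ≤ Real.exp (∑ q ∈ T, tailEps q) :=
      Real.one_le_exp (Finset.sum_nonneg fun q _ => by unfold tailEps; positivity)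
    have he2 := exp_sum_tailEps_le T fun q hq => (hT' q hq).2
    have hih := ih hT'
    rw [Finset.union_insert, Finset.sum_insert hpT, add_comm, Real.exp_add, ← mul_assoc, ← mul_assoc]
    generalize Real.exp (∑ q ∈ T, tailEps q) = E at he1 he2 hih ⊢
    have hA3 : (199290 / 100000 : ℝ) * E ≤ (197988 / 100000 * E) ^ 3 := by
      calc (199290 / 100000 : ℝ) * E ≤ (197988 / 100000 : ℝ) ^ 3 := by linarith
        _ ≤ _ := pow_le_pow_left₀ (by norm_num) (by linarith) 3
    have hA4 : (197988 / 100000 * E) ^ 3 ≤ 4 * (199290 / 100000 * E) := by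
      calc (197988 / 100000 * E) ^ 3 ≤ (197988 / 100000 * (24000 / 23999) : ℝ) ^ 3 :=
            pow_le_pow_left₀ (by linarith) (by linarith) 3
        _ ≤ _ := by linarith
    exact good_insert hih (by omega) (by linarith) (by linarith) hA3 hA4 (by linarith) (by positivity)
      (by positivity) (tail_rImp_le hp17 (by linarith) (by linarith) (by linarith))
      (tail_rImp_le hp17 (by linarith) (by linarith) (by linarith))

end Tail

theorem numD_mono {X : Type} [Finite X] (G : Subgroup (Perm X)) {S T : Finset ℕ} (h : S ⊆ T)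
    (M : Set X) : numD G S M ≤ numD G T M := by
  have : Finite (ConjClasses G) := Finite.of_surjective ConjClasses.mk ConjClasses.mk_surjective
  refine Nat.card_le_card_of_injective
    (Subtype.map id fun c ⟨g, h1, h2, h3⟩ => ⟨g, h1, h2.trans h, h3⟩) ?_
  exact Subtype.map_injective _ Function.injective_id

/-- At most `Ainf ^ d` classes of derangements. -/
theorem numD_le_analytic {X : Type} [Fintype X] (G : Subgroup (Perm X)) :
    (numD G ((Finset.range (Fintype.card X + 1)).filter Nat.Prime) Set.univ : ℝ) ≤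
      Ainf ^ Fintype.card X := by
  classical
  let T := (Finset.range (Fintype.card X + 1)).filter fun p => p.Prime ∧ 17 ≤ p
  have hT : ∀ p ∈ T, p.Prime ∧ 17 ≤ p := fun p hp => (Finset.mem_filter.1 hp).2
  have hsub : (Finset.range (Fintype.card X + 1)).filter Nat.Prime ⊆ smallPrimes ∪ T := by
    intro p hp
    obtain ⟨h1, h2⟩ := Finset.mem_filter.1 hp
    rcases Nat.lt_or_ge p 17 with h | h
    · refine Finset.mem_union_left _ ?_
      interval_cases p <;> first | (simp [smallPrimes]; done) | norm_num at h2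
    · exact Finset.mem_union_right _ (Finset.mem_filter.2 ⟨h1, h2, h⟩)
  have h := good_tail T hT X G Finset.univ fun _ _ _ _ => Finset.mem_univ _
  rw [Finset.coe_univ, Finset.card_univ, Nat.sub_self, pow_zero, mul_one] at h
  refine (Nat.cast_le.2 (numD_mono G hsub Set.univ)).trans (h.trans ?_)
  refine pow_le_pow_left₀ (by positivity) ?_ _
  have := exp_sum_tailEps_le T fun p hp => (hT p hp).2
  unfold Ainf
  linarith

set_option exponentiation.threshold 600 in
/-- The numeric condition of the splitting step, for large degree. -/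
theorem analytic_num : ∀ d, 139 ≤ d → Ainf ^ d + Ainf ^ (d - 1) + 2 ^ (d - 3) ≤ (2 : ℝ) ^ (d - 1) := by
  intro d hd
  induction d, hd using Nat.le_induction with
  | base => norm_num [Ainf]
  | succ n hn ih =>
    have hA : 0 < Ainf := by norm_num [Ainf]
    have hA2 : Ainf ≤ 2 := by norm_num [Ainf]
    have e1 : n + 1 - 1 = (n - 1) + 1 := by omega
    have e2 : n + 1 - 3 = (n - 3) + 1 := by omega
    rw [e1, e2, pow_succ Ainf n, pow_succ Ainf (n - 1), pow_succ (2 : ℝ) (n - 3), pow_succ (2 : ℝ) (n - 1)]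
    nlinarith [mul_le_mul_of_nonneg_left hA2 (pow_nonneg hA.le n),
      mul_le_mul_of_nonneg_left hA2 (pow_nonneg hA.le (n - 1))]

end Cfsg.Agent.H61.PermTwo
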