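import Cfsg.Agent.H61.PermTwo.Defs
import Mathlib.GroupTheory.Perm.Support
import Mathlib.Tactic.Linarith
import Mathlib.Tactic.Ring
import Mathlib.Tactic.FieldSimp
import Mathlib.Tactic.Group

/-!
Basic facts on orbit sums over cosets (`os`): monotonicity, linearity, the fibre inequality and
its form for a split of the support of a coset situation along an invariant subset.
-/

namespace Cfsg.Agent.H61.PermTwo

open Equiv

section General

variable {G : Type} [Group G] [Finite G]

theorem cent_pos (N : Subgroup G) (y : G) : 0 < cent N y := by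
  have : Nonempty {m : N // (m : G) * y = y * (m : G)} := ⟨⟨1, by simp⟩⟩
  exact Nat.card_pos

theorem card_real_pos (N : Subgroup G) : (0 : ℝ) < (Nat.card N : ℝ) := by
  exact_mod_cast Nat.card_pos

theorem os_def (N : Subgroup G) [Fintype N] (x : G) (f : G → ℝ) :
    os N x f = (∑ n : N, f (x * (n : G)) * (cent N (x * (n : G)) : ℝ)) / (Nat.card N : ℝ) := by
  unfold os
  congr
  exact Subsingleton.elim _ _

theorem os_nonneg (N : Subgroup G) (x : G) (f : G → ℝ) (hf : ∀ n ∈ N, 0 ≤ f (x * n)) :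
    0 ≤ os N x f := by
  classical
  have : Fintype N := Fintype.ofFinite N
  rw [os]
  exact div_nonneg (Finset.sum_nonneg fun n _ => mul_nonneg (hf n n.2) (Nat.cast_nonneg _))
    (Nat.cast_nonneg _)

theorem os_mono (N : Subgroup G) (x : G) (f g : G → ℝ) (h : ∀ n ∈ N, f (x * n) ≤ g (x * n)) :
    os N x f ≤ os N x g := by
  classical
  rw [os, os]
  refine div_le_div_of_nonneg_right (Finset.sum_le_sum fun n _ => ?_) (Nat.cast_nonneg _)
  exact mul_le_mul_of_nonneg_right (h n n.2) (Nat.cast_nonneg _)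

theorem os_congr (N : Subgroup G) (x : G) (f g : G → ℝ) (h : ∀ n ∈ N, f (x * n) = g (x * n)) :
    os N x f = os N x g :=
  le_antisymm (os_mono N x f g fun n hn => (h n hn).le) (os_mono N x g f fun n hn => (h n hn).ge)

theorem os_const_mul (N : Subgroup G) (x : G) (c : ℝ) (f : G → ℝ) :
    os N x (fun y => c * f y) = c * os N x f := by
  classical
  rw [os, os, ← mul_div_assoc, Finset.mul_sum]
  simp only [mul_assoc]

theorem os_mul_const (N : Subgroup G) (x : G) (c : ℝ) (f : G → ℝ) :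
    os N x (fun y => f y * c) = os N x f * c := by
  rw [mul_comm, ← os_const_mul]
  exact os_congr _ _ _ _ fun n _ => mul_comm _ _

theorem os_const (N : Subgroup G) (x : G) (c : ℝ) :
    os N x (fun _ => c) = c * os N x (fun _ => 1) := by
  rw [← os_const_mul]
  simp

theorem os_add (N : Subgroup G) (x : G) (f g : G → ℝ) :
    os N x (fun y => f y + g y) = os N x f + os N x g := by
  classical
  rw [os, os, os, ← add_div, ← Finset.sum_add_distrib]
  simp only [add_mul]

theorem os_eq_of_subsingleton (N : Subgroup G) (x : G) (f : G → ℝ) (hN : ∀ n ∈ N, n = (1 : G)) :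
    os N x f = f x := by
  classical
  have : Fintype N := Fintype.ofFinite N
  have hsub : Subsingleton N := ⟨fun a b => Subtype.ext ((hN a a.2).trans (hN b b.2).symm)⟩
  have hcard : Nat.card N = 1 := Nat.card_eq_one_iff_unique.mpr ⟨hsub, ⟨1⟩⟩
  have hc : cent N x = 1 := by
    have : Subsingleton {m : N // (m : G) * x = x * (m : G)} :=
      ⟨fun a b => Subtype.ext (Subsingleton.elim _ _)⟩
    have hne : Nonempty {m : N // (m : G) * x = x * (m : G)} := ⟨⟨1, by simp⟩⟩
    exact Nat.card_eq_one_iff_unique.mpr ⟨this, hne⟩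
  rw [os_def, Fintype.sum_eq_single (1 : N) (fun b hb => absurd (hsub.elim b 1) hb), hcard]
  simp [hc]

/-- Averages are preserved by surjective homomorphisms. -/
theorem sum_comp_hom {A B : Type} [Group A] [Group B] [Fintype A] [Fintype B] (φ : A →* B)
    (hφ : Function.Surjective φ) (g : B → ℝ) :
    (∑ a, g (φ a)) / (Fintype.card A : ℝ) = (∑ b, g b) / (Fintype.card B : ℝ) := by
  classical
  have h : (Fintype.card A : ℝ) * ∑ b, g b = (Fintype.card B : ℝ) * ∑ a, g (φ a) := by
    have h1 : ∑ a : A, ∑ b, g (φ a * b) = (Fintype.card A : ℝ) * ∑ b, g b := by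
      have : ∀ a : A, ∑ b, g (φ a * b) = ∑ b, g b := fun a =>
        Equiv.sum_comp (Equiv.mulLeft (φ a)) g
      simp [this]
    have h2 : ∑ b, ∑ a : A, g (φ a * b) = (Fintype.card B : ℝ) * ∑ a, g (φ a) := by
      have : ∀ b : B, ∑ a : A, g (φ a * b) = ∑ a, g (φ a) := fun b => by
        obtain ⟨a₀, rfl⟩ := hφ b
        have h3 := Equiv.sum_comp (Equiv.mulRight a₀) fun a => g (φ a)
        simp only [Equiv.coe_mulRight, map_mul] at h3
        exact h3
      simp [this]
    rw [← h1, Finset.sum_comm, h2]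
  have hA : (Fintype.card A : ℝ) ≠ 0 := by exact_mod_cast Fintype.card_ne_zero
  have hB : (Fintype.card B : ℝ) ≠ 0 := by exact_mod_cast Fintype.card_ne_zero
  field_simp
  linarith

end General

section Hom

variable {G H : Type} [Group G] [Group H] [Finite G] [Finite H]

/-- The kernel part of `N`. -/
def kerPart (N : Subgroup G) (φ : G →* H) : Subgroup G := N ⊓ φ.ker

theorem cent_le_mul (N : Subgroup G) (φ : G →* H) (y : G) :
    cent N y ≤ cent (N.map φ) (φ y) * cent (kerPart N φ) y := by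
  classical
  let C := {m : N // (m : G) * y = y * (m : G)}
  let D := {m : N.map φ // (m : H) * φ y = φ y * (m : H)}
  let F : C → D := fun m => ⟨⟨φ (m.1 : G), Subgroup.mem_map_of_mem φ m.1.2⟩, by
    rw [← map_mul, ← map_mul, m.2]⟩
  have : Nonempty C := ⟨⟨1, by simp⟩⟩
  let s : D → C := Function.invFun F
  have hs : ∀ m, F (s (F m)) = F m := fun m => Function.invFun_eq ⟨m, rfl⟩
  have hmem : ∀ m : C, ((s (F m)).1 : G)⁻¹ * (m.1 : G) ∈ kerPart N φ := fun m => by
    refine ⟨N.mul_mem (N.inv_mem (s (F m)).1.2) m.1.2, ?_⟩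
    have h := congrArg (fun d : D => ((d.1 : N.map φ) : H)) (hs m)
    simp only [F] at h
    show φ _ = 1
    rw [map_mul, map_inv, h, inv_mul_cancel]
  have hcom : ∀ m : C, ((s (F m)).1 : G)⁻¹ * (m.1 : G) * y
      = y * (((s (F m)).1 : G)⁻¹ * (m.1 : G)) := fun m =>
    ((Commute.inv_left (show Commute _ y from (s (F m)).2)).mul_left m.2).eq
  let T : C → D × {m : kerPart N φ // (m : G) * y = y * (m : G)} := fun m =>
    (F m, ⟨⟨_, hmem m⟩, hcom m⟩)
  have hT : Function.Injective T := by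
    intro a b hab
    simp only [T, Prod.mk.injEq, Subtype.mk.injEq] at hab
    have h2 := hab.2
    rw [hab.1] at h2
    exact Subtype.ext (Subtype.ext (mul_left_cancel h2))
  have h := Nat.card_le_card_of_injective T hT
  rw [Nat.card_prod] at h
  exact h

/-- The fibre inequality. -/
theorem os_fibre (N : Subgroup G) (x : G) (φ : G →* H) (f : G → ℝ) (Φ : H → ℝ)
    (hf : ∀ n ∈ N, 0 ≤ f (x * n))
    (h : ∀ n ∈ N, os (kerPart N φ) (x * n) f ≤ Φ (φ (x * n))) :
    os N x f ≤ os (N.map φ) (φ x) Φ := by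
  classical
  set M := kerPart N φ with hM
  have : Fintype N := Fintype.ofFinite N
  have : Fintype M := Fintype.ofFinite M
  have : Fintype (N.map φ) := Fintype.ofFinite _
  have hMN : M ≤ N := inf_le_left
  let g : G → ℝ := fun z => f z * (cent N z : ℝ)
  have hcM := card_real_pos M
  have havg : ∑ n : N, g (x * n) = (∑ n : N, ∑ m : M, g (x * n * m)) / (Nat.card M : ℝ) := by
    rw [eq_div_iff hcM.ne', Finset.sum_comm]
    have : ∀ m : M, ∑ n : N, g (x * n * m) = ∑ n : N, g (x * n) := fun m => by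
      have h3 := Equiv.sum_comp (Equiv.mulRight (⟨m, hMN m.2⟩ : N)) fun n : N => g (x * n)
      simpa [mul_assoc] using h3
    simp only [this, Finset.sum_const, Finset.card_univ, Nat.card_eq_fintype_card, nsmul_eq_mul]
    ring
  let ψ : N →* N.map φ := φ.subgroupMap N
  let q : N.map φ → ℝ := fun b => Φ (φ x * (b : H)) * (cent (N.map φ) (φ x * (b : H)) : ℝ)
  have hle : ∀ n : N, ∑ m : M, g (x * n * m) ≤ q (ψ n) * (Nat.card M : ℝ) := by
    intro n
    have h1 := h n n.2
    rw [os_def, div_le_iff₀ hcM] at h1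
    have hq : q (ψ n) = Φ (φ (x * n)) * (cent (N.map φ) (φ (x * n)) : ℝ) := by
      simp [q, ψ, map_mul]
    rw [hq, mul_right_comm]
    refine le_trans ?_ (mul_le_mul_of_nonneg_right h1
      (Nat.cast_nonneg (α := ℝ) (cent (N.map φ) (φ (x * n)))))
    rw [Finset.sum_mul]
    refine Finset.sum_le_sum fun m _ => ?_
    have h0 : 0 ≤ f (x * n * m) := by
      rw [mul_assoc]; exact hf _ (N.mul_mem n.2 (hMN m.2))
    have he : φ (x * n * m) = φ (x * n) := by
      rw [map_mul, (MonoidHom.mem_ker).mp m.2.2, mul_one]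
    have h2 := cent_le_mul N φ (x * n * m)
    rw [he] at h2
    have h2' : (cent N (x * n * m) : ℝ) ≤
        (cent M (x * n * m) : ℝ) * (cent (N.map φ) (φ (x * n)) : ℝ) := by
      rw [mul_comm]; exact_mod_cast h2
    simp only [g]
    rw [mul_assoc (f _)]
    exact mul_le_mul_of_nonneg_left h2' h0
  have hsum : ∑ n : N, g (x * n) ≤ ∑ n : N, q (ψ n) := by
    rw [havg, div_le_iff₀ hcM, Finset.sum_mul]
    exact Finset.sum_le_sum fun n _ => hle n
  have e := sum_comp_hom ψ (φ.subgroupMap_surjective N) q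
  rw [← Nat.card_eq_fintype_card, ← Nat.card_eq_fintype_card] at e
  have eL : os N x f = (∑ n : N, g (x * n)) / (Nat.card N : ℝ) := by
    rw [os]; congr
    exact Subsingleton.elim _ _
  have eR : os (N.map φ) (φ x) Φ = (∑ b, q b) / (Nat.card (N.map φ) : ℝ) := by
    rw [os]; congr
    exact Subsingleton.elim _ _
  rw [eL, eR, ← e]
  exact div_le_div_of_nonneg_right hsum (Nat.cast_nonneg _)

/-- Transfer along a homomorphism injective on the subgroup. -/
theorem os_map (N : Subgroup G) (x : G) (φ : G →* H) (hinj : ∀ n ∈ N, φ n = 1 → n = 1)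
    (hnorm : ∀ n ∈ N, x * n * x⁻¹ ∈ N) (f : H → ℝ) :
    os N x (fun y => f (φ y)) = os (N.map φ) (φ x) f := by
  classical
  have hi : Function.Injective (φ.subgroupMap N) := by
    intro a b hab
    have h1 : φ ((a : G) * (b : G)⁻¹) = 1 := by
      have := congrArg (fun z : N.map φ => (z : H)) hab
      simp only [MonoidHom.subgroupMap_apply_coe] at this
      simp [this]
    exact Subtype.ext (mul_inv_eq_one.mp (hinj _ (N.mul_mem a.2 (N.inv_mem b.2)) h1))
  let e : N ≃* N.map φ :=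
    MulEquiv.ofBijective (φ.subgroupMap N) ⟨hi, φ.subgroupMap_surjective N⟩
  have hcent : ∀ n ∈ N, cent N (x * n) = cent (N.map φ) (φ (x * n)) := by
    intro n hn
    refine Nat.card_congr (Equiv.subtypeEquiv e.toEquiv fun m => ?_)
    have hv : ((e.toEquiv m : N.map φ) : H) = φ (m : G) := rfl
    rw [hv, ← map_mul, ← map_mul]
    constructor
    · intro hm; rw [hm]
    · intro hm
      have hmem : (m : G) * (x * n) * (m : G)⁻¹ * (x * n)⁻¹ ∈ N := by
        have h1 := hnorm _ (N.mul_mem (N.mul_mem hn (N.inv_mem m.2)) (N.inv_mem hn))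
        have e1 : (m : G) * (x * n) * (m : G)⁻¹ * (x * n)⁻¹
            = (m : G) * (x * (n * (m : G)⁻¹ * n⁻¹) * x⁻¹) := by group
        rw [e1]
        exact N.mul_mem m.2 h1
      have h2 : φ ((m : G) * (x * n) * (m : G)⁻¹ * (x * n)⁻¹) = 1 := by
        rw [map_mul, map_mul, hm]
        simp [map_mul, mul_assoc]
      have h3 := hinj _ hmem h2
      rw [mul_inv_eq_one, mul_inv_eq_iff_eq_mul] at h3
      exact h3
  have hc : (Nat.card N : ℝ) = (Nat.card (N.map φ) : ℝ) := by
    rw [Nat.card_congr e.toEquiv]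
  have : Fintype N := Fintype.ofFinite N
  have : Fintype (N.map φ) := Fintype.ofFinite _
  rw [os_def, os_def, hc]
  congr 1
  refine Fintype.sum_equiv e.toEquiv _ _ fun n => ?_
  have hv : ((e.toEquiv n : N.map φ) : H) = φ (n : G) := rfl
  rw [hv, ← map_mul, hcent n n.2]

end Hom

section Perm

variable {X : Type} [Fintype X] [DecidableEq X]

/-- Restriction of a permutation to a set it preserves (`1` if it does not). -/
noncomputable def resS (S : Finset X) (u : Perm X) : Perm X :=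
  if h : ∀ y, u y ∈ S ↔ y ∈ S then Perm.ofSubtype (u.subtypePerm h) else 1

/-- The permutations preserving `S`. -/
def setStab (S : Finset X) : Subgroup (Perm X) where
  carrier := {u | ∀ y, u y ∈ S ↔ y ∈ S}
  one_mem' := fun _ => by simp
  mul_mem' := fun {a b} ha hb y => by rw [Perm.mul_apply, ha, hb]
  inv_mem' := fun {a} ha y => by
    rw [← ha (a⁻¹ y)]
    simp

theorem mem_setStab {S : Finset X} {u : Perm X} : u ∈ setStab S ↔ ∀ y, u y ∈ S ↔ y ∈ S := Iff.rfl

theorem resS_apply {S : Finset X} {u : Perm X} (h : ∀ y, u y ∈ S ↔ y ∈ S) (y : X) :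
    resS S u y = if y ∈ S then u y else y := by
  rw [resS, dif_pos h]
  split_ifs with hy
  · rw [Perm.ofSubtype_apply_of_mem _ hy]; rfl
  · exact Perm.ofSubtype_apply_of_not_mem _ hy

theorem resS_apply_mem {S : Finset X} {u : Perm X} (h : ∀ y, u y ∈ S ↔ y ∈ S) {y : X}
    (hy : y ∈ S) : resS S u y = u y := by
  rw [resS_apply h, if_pos hy]

theorem resS_supp (S : Finset X) (u : Perm X) {y : X} (hy : y ∉ S) : resS S u y = y := by
  by_cases h : ∀ y, u y ∈ S ↔ y ∈ S
  · rw [resS_apply h, if_neg hy]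
  · rw [resS, dif_neg h]; rfl

theorem resS_mul {S : Finset X} {u v : Perm X} (hu : u ∈ setStab S) (hv : v ∈ setStab S) :
    resS S (u * v) = resS S u * resS S v := by
  ext y
  rw [resS_apply ((setStab S).mul_mem hu hv), Perm.mul_apply, Perm.mul_apply, resS_apply hv]
  by_cases hy : y ∈ S
  · rw [if_pos hy, if_pos hy, resS_apply hu, if_pos ((hv y).mpr hy)]
  · rw [if_neg hy, if_neg hy, resS_supp S u hy]

theorem resS_one (S : Finset X) : resS S (1 : Perm X) = 1 := by
  ext y
  rw [resS_apply fun _ => by simp]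
  simp

/-- `resS S` as a homomorphism on a group of permutations preserving `S`. -/
noncomputable def resSHom (S : Finset X) (P : Subgroup (Perm X)) (hP : P ≤ setStab S) : P →* Perm X where
  toFun g := resS S (g : Perm X)
  map_one' := resS_one S
  map_mul' a b := resS_mul (hP a.2) (hP b.2)

theorem eq_resS_mul_resS {S S₁ : Finset X} (hsub : S₁ ⊆ S) {u : Perm X} (h₁ : u ∈ setStab S₁)
    (h₂ : u ∈ setStab (S \ S₁)) (hu : ∀ y, y ∉ S → u y = y) : u = resS S₁ u * resS (S \ S₁) u := by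
  ext y
  rw [Perm.mul_apply, resS_apply h₂]
  by_cases hy : y ∈ S \ S₁
  · rw [if_pos hy, resS_supp S₁ u]
    exact (Finset.mem_sdiff.mp ((h₂ y).mpr hy)).2
  · rw [if_neg hy, resS_apply h₁]
    by_cases hy₁ : y ∈ S₁
    · rw [if_pos hy₁]
    · rw [if_neg hy₁, hu y]
      intro hS
      exact hy (Finset.mem_sdiff.mpr ⟨hS, hy₁⟩)

theorem setStab_sdiff_of_supp {S S₁ : Finset X} {u : Perm X} (h₁ : u ∈ setStab S₁)
    (hu : ∀ y, y ∉ S → u y = y) : u ∈ setStab (S \ S₁) := by
  intro y
  simp only [Finset.mem_sdiff]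
  rw [h₁ y]
  refine and_congr_left fun _ => ⟨fun h => ?_, fun h => ?_⟩
  · by_contra hy
    rw [hu y hy] at h
    exact hy h
  · by_contra hy
    have := u.injective (hu _ hy)
    rw [this] at hy
    exact hy h

/-- Splitting a situation along an invariant subset `S₁`: the coset is bounded through its
restriction to `S₁`, fibre sums being bounded on the rest. -/
theorem os_split {p : ℕ} {S S₁ : Finset X} {P N : Subgroup (Perm X)} {x : Perm X}
    (hs : Sit p S P N x) (hsub : S₁ ⊆ S) (hinv : ∀ g ∈ P, ∀ y, g y ∈ S₁ ↔ y ∈ S₁)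
    (f : Perm X → ℝ) (Φ : Perm X → ℝ) (hf : ∀ n ∈ N, 0 ≤ f (x * n))
    (h : ∀ y ∈ P, ∀ (P₂ N₂ : Subgroup (Perm X)) (y₂ : Perm X), Sit p (S \ S₁) P₂ N₂ y₂ →
      (∀ g ∈ P₂, ∃ g' ∈ P, ∀ a ∈ S \ S₁, g a = g' a) →
      os N₂ y₂ (fun z => f (resS S₁ y * z)) ≤ Φ (resS S₁ y)) :
    ∃ (P₁ N₁ : Subgroup (Perm X)) (x₁ : Perm X), Sit p S₁ P₁ N₁ x₁ ∧
      (∀ g ∈ P, ∃ g' ∈ P₁, ∀ a ∈ S₁, g' a = g a) ∧
      (∀ g ∈ P₁, ∃ g' ∈ P, ∀ a ∈ S₁, g a = g' a) ∧ os N x f ≤ os N₁ x₁ Φ := by
  classical
  have hP₁ : P ≤ setStab S₁ := fun g hg => hinv g hg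
  have hP₂ : P ≤ setStab (S \ S₁) := fun g hg => setStab_sdiff_of_supp (hP₁ hg) (hs.supp g hg)
  let φ₁ := resSHom S₁ P hP₁
  let φ₂ := resSHom (S \ S₁) P hP₂
  let N' : Subgroup P := N.subgroupOf P
  let x' : P := ⟨x, hs.mem⟩
  have hnorm' : ∀ n ∈ N', x' * n * x'⁻¹ ∈ N' := fun n hn => by
    rw [Subgroup.mem_subgroupOf] at hn ⊢
    simpa using hs.normal _ hn
  have hmap : N'.map P.subtype = N := by
    rw [Subgroup.subgroupOf_map_subtype, inf_eq_left.mpr hs.le]
  have e1 : os N x f = os N' x' (fun y => f (y : Perm X)) := by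
    have := os_map N' x' P.subtype (fun n _ hn => by simpa using hn) hnorm' f
    rw [hmap] at this
    exact this.symm
  have hrange : ∀ {S' : Finset X} (hS' : P ≤ setStab S') (n : P) (N₀ : Subgroup P),
      (∀ m ∈ N₀, n * m * n⁻¹ ∈ N₀) →
      Sit p S' (resSHom S' P hS').range (N₀.map (resSHom S' P hS')) (resSHom S' P hS' n) := by
    intro S' hS' n N₀ hn
    refine ⟨?_, ?_, ?_, ⟨n, rfl⟩, ?_⟩
    · exact hs.pgroup.of_surjective _ (resSHom S' P hS').rangeRestrict_surjective
    · rintro g ⟨g', rfl⟩ y hy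
      exact resS_supp S' _ hy
    · rintro g ⟨g', -, rfl⟩
      exact ⟨g', rfl⟩
    · rintro g ⟨g', hg', rfl⟩
      rw [← map_inv, ← map_mul, ← map_mul]
      exact Subgroup.mem_map_of_mem _ (hn g' hg')
  refine ⟨φ₁.range, N'.map φ₁, φ₁ x', hrange hP₁ x' N' hnorm', ?_, ?_, ?_⟩
  · intro g hg
    exact ⟨φ₁ ⟨g, hg⟩, ⟨_, rfl⟩, fun a ha => resS_apply_mem (hP₁ hg) ha⟩
  · rintro g ⟨g', rfl⟩
    exact ⟨g', g'.2, fun a ha => resS_apply_mem (hP₁ g'.2) ha⟩
  rw [e1]
  refine os_fibre N' x' φ₁ _ Φ (fun n hn => hf _ hn) fun n hn => ?_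
  set M := kerPart N' φ₁ with hM
  have hnM : ∀ m ∈ M, (x' * n) * m * (x' * n)⁻¹ ∈ M := by
    intro m hm
    refine ⟨?_, ?_⟩
    · have e : (x' * n) * m * (x' * n)⁻¹ = x' * (n * m * n⁻¹) * x'⁻¹ := by group
      rw [e]
      exact hnorm' _ (N'.mul_mem (N'.mul_mem hn hm.1) (N'.inv_mem hn))
    · show φ₁ _ = 1
      rw [map_mul, map_mul, (MonoidHom.mem_ker).mp hm.2]
      simp
  have hker : ∀ m ∈ M, φ₁ (x' * n * m) = φ₁ (x' * n) := fun m hm => by
    rw [map_mul _ (x' * n) m, (MonoidHom.mem_ker).mp hm.2, mul_one]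
  have hsplit : ∀ g : P, (g : Perm X) = φ₁ g * φ₂ g := fun g =>
    eq_resS_mul_resS hsub (hP₁ g.2) (hP₂ g.2) (hs.supp g g.2)
  have hinj : ∀ m ∈ M, φ₂ m = 1 → m = 1 := by
    intro m hm hm2
    refine Subtype.ext ?_
    rw [hsplit m, (MonoidHom.mem_ker).mp hm.2, hm2]
    simp
  have e2 : os M (x' * n) (fun y : P => f (y : Perm X))
      = os (M.map φ₂) (φ₂ (x' * n)) (fun z => f (φ₁ (x' * n) * z)) := by
    rw [← os_map M (x' * n) φ₂ hinj hnM]
    refine os_congr _ _ _ _ fun m hm => ?_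
    rw [← hker m hm, ← hsplit]
  rw [e2]
  refine h _ (x' * n).2 φ₂.range _ _ (hrange hP₂ _ M hnM) ?_
  rintro g ⟨g', rfl⟩
  exact ⟨g', g'.2, fun a ha => resS_apply_mem (hP₂ g'.2) ha⟩

/-- Two labelings with the same fibres have images of the same size. -/
theorem card_image_eq_of_iff {α β γ : Type} {_ : DecidableEq β} {_ : DecidableEq γ} (s : Finset α)
    (f : α → β) (g : α → γ) (h : ∀ a ∈ s, ∀ b ∈ s, f a = f b ↔ g a = g b) :
    (s.image f).card = (s.image g).card := by
  classical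
  have h1 : ((s.image fun a => (f a, g a)).image Prod.fst).card
      = (s.image fun a => (f a, g a)).card := by
    refine Finset.card_image_of_injOn ?_
    intro a ha b hb hab
    simp only [Finset.coe_image, Set.mem_image, Finset.mem_coe] at ha hb
    obtain ⟨a', ha', rfl⟩ := ha
    obtain ⟨b', hb', rfl⟩ := hb
    exact Prod.ext hab ((h _ ha' _ hb').mp hab)
  have h2 : ((s.image fun a => (f a, g a)).image Prod.snd).card
      = (s.image fun a => (f a, g a)).card := by
    refine Finset.card_image_of_injOn ?_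
    intro a ha b hb hab
    simp only [Finset.coe_image, Set.mem_image, Finset.mem_coe] at ha hb
    obtain ⟨a', ha', rfl⟩ := ha
    obtain ⟨b', hb', rfl⟩ := hb
    exact Prod.ext ((h _ ha' _ hb').mpr hab) hab
  rw [Finset.image_image] at h1 h2
  exact h1.trans h2.symm

omit [DecidableEq X] in
theorem pow_apply_eq_of_agree {S : Finset X} {u v : Perm X} (hu : ∀ y ∈ S, u y ∈ S)
    (huv : ∀ y ∈ S, u y = v y) (i : ℕ) {y : X} (hy : y ∈ S) :
    (u ^ i) y = (v ^ i) y ∧ (u ^ i) y ∈ S := by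
  induction i with
  | zero => exact ⟨rfl, hy⟩
  | succ i ih =>
    rw [pow_succ', pow_succ', Perm.mul_apply, Perm.mul_apply, ← ih.1]
    exact ⟨huv _ ih.2, hu _ ih.2⟩

omit [DecidableEq X] in
theorem cyc_congr {S : Finset X} {u v : Perm X} (hu : ∀ y ∈ S, u y ∈ S)
    (huv : ∀ y ∈ S, u y = v y) : cyc S u = cyc S v := by
  classical
  have hv : ∀ y ∈ S, v y ∈ S := fun y hy => huv y hy ▸ hu y hy
  unfold cyc
  refine card_image_eq_of_iff S _ _ fun a ha b hb => ?_
  rw [Quotient.eq, Quotient.eq]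
  constructor <;> intro h
  · obtain ⟨i, hi⟩ := Perm.SameCycle.exists_nat_pow_eq h
    exact ⟨i, by rw [zpow_natCast, ← (pow_apply_eq_of_agree hu huv i ha).1, hi]⟩
  · obtain ⟨i, hi⟩ := Perm.SameCycle.exists_nat_pow_eq h
    exact ⟨i, by rw [zpow_natCast, (pow_apply_eq_of_agree hu huv i ha).1, hi]⟩

omit [DecidableEq X] in
theorem fx_congr {M S : Finset X} {u v : Perm X} (huv : ∀ y ∈ S, u y = v y) :
    fx M S u = fx M S v := by
  classical
  unfold fx
  congr 1
  exact Finset.filter_congr fun y hy => by rw [huv y (Finset.mem_inter.mp hy).1]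

omit [DecidableEq X] in
theorem fx_le_cyc (M S : Finset X) (u : Perm X) : fx M S u ≤ cyc S u := by
  letI := Classical.decEq X
  letI := Classical.decEq (Quotient (Perm.SameCycle.setoid u))
  unfold fx cyc
  refine Finset.card_le_card_of_injOn (fun y => Quotient.mk (Perm.SameCycle.setoid u) y) ?_ ?_
  · intro y hy
    simp only [Finset.coe_filter, Finset.mem_inter, Set.mem_setOf_eq] at hy
    simp only [Finset.mem_coe, Finset.mem_image]
    exact ⟨y, hy.1.1, rfl⟩
  · intro a ha b hb hab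
    simp only [Finset.coe_filter, Finset.mem_inter, Set.mem_setOf_eq] at ha hb
    obtain ⟨i, hi⟩ := Quotient.exact hab
    rw [Perm.zpow_apply_eq_self_of_apply_eq_self ha.2] at hi
    exact hi

theorem fx_union {M S₁ S₂ : Finset X} (hd : Disjoint S₁ S₂) (u : Perm X) :
    fx M (S₁ ∪ S₂) u = fx M S₁ u + fx M S₂ u := by
  have e : ∀ S : Finset X, fx M S u = ((S ∩ M).filter fun y => u y = y).card := fun S => by
    unfold fx
    congr 1
    ext y
    simp
  simp only [e]
  rw [Finset.union_inter_distrib_right, Finset.filter_union, Finset.card_union_of_disjoint]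
  exact Finset.disjoint_filter_filter (hd.mono Finset.inter_subset_left Finset.inter_subset_left)

theorem cyc_union {S₁ S₂ : Finset X} (hd : Disjoint S₁ S₂) {u : Perm X} (hu : ∀ y ∈ S₁, u y ∈ S₁) :
    cyc (S₁ ∪ S₂) u = cyc S₁ u + cyc S₂ u := by
  letI := Classical.decEq (Quotient (Perm.SameCycle.setoid u))
  unfold cyc
  rw [Finset.image_union, Finset.card_union_of_disjoint]
  rw [Finset.disjoint_left]
  intro q hq₁ hq₂
  obtain ⟨a, ha, rfl⟩ := Finset.mem_image.mp hq₁
  obtain ⟨b, hb, hab⟩ := Finset.mem_image.mp hq₂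
  obtain ⟨i, hi⟩ := Perm.SameCycle.exists_nat_pow_eq (Quotient.exact hab).symm
  have := (pow_apply_eq_of_agree hu (fun _ _ => rfl) i ha).2
  rw [hi] at this
  exact Finset.disjoint_left.mp hd this hb

theorem oc_union {M S₁ S₂ : Finset X} (hd : Disjoint S₁ S₂) {u : Perm X}
    (hu : ∀ y ∈ S₁, u y ∈ S₁) : oc M (S₁ ∪ S₂) u = oc M S₁ u + oc M S₂ u := by
  unfold oc
  rw [cyc_union hd hu, fx_union hd]
  have := fx_le_cyc M S₁ u
  have := fx_le_cyc M S₂ u
  omega

omit [DecidableEq X] in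
theorem oc_congr {M S : Finset X} {u v : Perm X} (hu : ∀ y ∈ S, u y ∈ S)
    (huv : ∀ y ∈ S, u y = v y) : oc M S u = oc M S v := by
  rw [oc, oc, cyc_congr hu huv, fx_congr huv]

omit [DecidableEq X] in
theorem cyc_pos {S : Finset X} (hS : S.Nonempty) (u : Perm X) : 0 < cyc S u := by
  letI := Classical.decEq (Quotient (Perm.SameCycle.setoid u))
  exact Finset.card_pos.mpr (hS.image _)

omit [DecidableEq X] in
theorem fx_empty (M : Finset X) (u : Perm X) : fx M ∅ u = 0 := by
  classical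
  simp [fx]

omit [DecidableEq X] in
theorem cyc_empty (u : Perm X) : cyc (∅ : Finset X) u = 0 := by
  classical
  simp [cyc]

omit [DecidableEq X] in
theorem oc_empty (M : Finset X) (u : Perm X) : oc M ∅ u = 0 := by
  simp [oc, cyc_empty]

omit [DecidableEq X] in
theorem fx_inter {M M' S : Finset X} (h : ∀ y ∈ S, (y ∈ M ↔ y ∈ M')) (u : Perm X) :
    fx M S u = fx M' S u := by
  classical
  unfold fx
  congr 2
  ext y
  simp only [Finset.mem_inter]
  exact and_congr_right (h y)

omit [DecidableEq X] in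
theorem fx_eq_zero_of_disjoint {M S : Finset X} (h : ∀ y ∈ S, y ∉ M) (u : Perm X) :
    fx M S u = 0 := by
  classical
  unfold fx
  rw [Finset.card_eq_zero, Finset.filter_eq_empty_iff]
  intro y hy
  exact absurd (Finset.mem_inter.mp hy).2 (h y (Finset.mem_inter.mp hy).1)

omit [DecidableEq X] in
/-- Statistics on `S` of a product with a permutation fixing `S` pointwise. -/
theorem stat_mul_right {M S : Finset X} {u v : Perm X} (hu : ∀ y ∈ S, u y ∈ S)
    (hv : ∀ y ∈ S, v y = y) :
    fx M S (u * v) = fx M S u ∧ oc M S (u * v) = oc M S u := by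
  have h : ∀ y ∈ S, u y = (u * v) y := fun y hy => by rw [Perm.mul_apply, hv y hy]
  exact ⟨(fx_congr h).symm, (oc_congr hu h).symm⟩

omit [DecidableEq X] in
theorem stat_mul_left {M S : Finset X} {u v : Perm X} (hv : ∀ y ∈ S, v y ∈ S)
    (hu : ∀ y ∈ S, u y = y) :
    fx M S (u * v) = fx M S v ∧ oc M S (u * v) = oc M S v := by
  have h : ∀ y ∈ S, v y = (u * v) y := fun y hy => by rw [Perm.mul_apply, hu _ (hv y hy)]
  exact ⟨(fx_congr h).symm, (oc_congr hv h).symm⟩

end Perm

end Cfsg.Agent.H61.PermTwo
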