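import Cfsg.Agent.H61.PermTwo.Defs
import Mathlib.GroupTheory.Coset.Card
import Mathlib.GroupTheory.Index
import Mathlib.GroupTheory.Perm.Support
import Mathlib.Data.Finite.Perm

/-!
Tools for the transitive component lemma (slice F of S4197): orbit sums, restriction to an
invariant set, cycle counts.
-/

namespace Cfsg.Agent.H61.PermTwo.Comp

open Equiv

section Sums

variable {G : Type} [Group G] [Finite G]

theorem cent_eq (N : Subgroup G) (y : G) :
    cent N y = Nat.card ↥(N ⊓ Subgroup.centralizer ({y} : Set G)) := by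
  refine Nat.card_congr ⟨fun m => ⟨m.1, m.1.2, Subgroup.mem_centralizer_singleton_iff.2 m.2⟩,
    fun m => ⟨⟨m.1, m.2.1⟩, Subgroup.mem_centralizer_singleton_iff.1 m.2.2⟩,
    fun _ => rfl, fun _ => rfl⟩

theorem cent_le_card (N : Subgroup G) (y : G) : cent N y ≤ Nat.card N :=
  Nat.card_le_card_of_injective (fun m : {m : N // (m : G) * y = y * (m : G)} => m.1)
    Subtype.val_injective

theorem cent_eq_card (N : Subgroup G) (y : G) (h : ∀ m ∈ N, m * y = y * m) :
    cent N y = Nat.card N :=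
  Nat.card_congr (Equiv.subtypeUnivEquiv fun m => h m m.2)

theorem os_def (N : Subgroup G) [Fintype N] (x : G) (f : G → ℝ) :
    os N x f = (∑ n : N, f (x * (n : G)) * (cent N (x * (n : G)) : ℝ)) / (Nat.card N : ℝ) := by
  unfold os
  refine congrArg (· / _) ?_
  convert rfl

theorem os_nonneg (N : Subgroup G) (x : G) (f : G → ℝ) (hf : ∀ n ∈ N, 0 ≤ f (x * n)) :
    0 ≤ os N x f := by
  unfold os
  exact div_nonneg (Finset.sum_nonneg fun n _ => mul_nonneg (hf n n.2) (Nat.cast_nonneg _))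
    (Nat.cast_nonneg _)

theorem os_congr (N : Subgroup G) (x : G) (f g : G → ℝ) (h : ∀ n ∈ N, f (x * n) = g (x * n)) :
    os N x f = os N x g := by
  unfold os
  exact congrArg (· / _) (Finset.sum_congr rfl fun n _ => by rw [h n n.2])

theorem os_coset (N : Subgroup G) (x : G) (f : G → ℝ) {n₀ : G} (hn : n₀ ∈ N) :
    os N (x * n₀) f = os N x f := by
  haveI : Fintype N := Fintype.ofFinite N
  rw [os_def, os_def]
  congr 1
  refine Fintype.sum_equiv (Equiv.mulLeft (⟨n₀, hn⟩ : N)) _ _ fun n => ?_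
  simp [mul_assoc]

theorem os_bot (x : G) (f : G → ℝ) : os (⊥ : Subgroup G) x f = f x := by
  rw [os_def, Fintype.sum_unique, Subgroup.card_bot]
  have h : cent (⊥ : Subgroup G) x = 1 := by
    rw [cent_eq_card, Subgroup.card_bot]
    intro m hm
    rw [Subgroup.mem_bot.1 hm, one_mul, mul_one]
  simp [h, Subgroup.mem_bot.1 (default : (⊥ : Subgroup G)).2]

theorem os_map {G' : Type} [Group G'] [Finite G'] (ι : G →* G') (hι : Function.Injective ι)
    (N : Subgroup G) (x : G) (f : G' → ℝ) :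
    os (N.map ι) (ι x) f = os N x (f ∘ ι) := by
  haveI : Fintype N := Fintype.ofFinite N
  haveI : Fintype (N.map ι) := Fintype.ofFinite _
  let e := (N.equivMapOfInjective ι hι).toEquiv
  have hc : ∀ y : G, cent (N.map ι) (ι y) = cent N y := by
    intro y
    refine (Nat.card_congr (Equiv.subtypeEquiv e fun m => ?_)).symm
    show _ ↔ ι m * ι y = ι y * ι m
    rw [← map_mul, ← map_mul]
    exact ⟨fun h => by rw [h], fun h => hι h⟩
  rw [os_def, os_def, Nat.card_congr e]
  congr 1
  refine (Fintype.sum_equiv e _ _ fun n => ?_).symm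
  show _ = f (ι x * ι n) * (cent (N.map ι) (ι x * ι n) : ℝ)
  rw [← map_mul, hc]
  rfl

theorem cent_le_mul {G₂ : Type} [Group G₂] [Finite G₂] (N : Subgroup G) (φ : G →* G₂) (y : G) :
    cent N y ≤ cent (N ⊓ φ.ker) y * cent (N.map φ) (φ y) := by
  let C := N ⊓ Subgroup.centralizer ({y} : Set G)
  have h1 : Nat.card C = Nat.card ↥(C ⊓ φ.ker) * Nat.card (C.map φ) := by
    have e1 : (C ⊓ φ.ker).relIndex C = Nat.card (C.map φ) := by
      rw [Subgroup.inf_relIndex_left, Subgroup.relIndex_ker]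

    have := Subgroup.relIndex_mul_relIndex ⊥ (C ⊓ φ.ker) C bot_le inf_le_left
    rw [Subgroup.relIndex_bot_left, Subgroup.relIndex_bot_left, e1] at this
    exact this.symm
  rw [cent_eq, cent_eq, cent_eq, h1]
  refine Nat.mul_le_mul ?_ ?_
  · refine le_of_eq (congrArg (fun H : Subgroup G => Nat.card H) ?_)
    exact inf_right_comm _ _ _
  · refine Subgroup.card_le_of_le ?_
    rintro _ ⟨m, ⟨hm1, hm2⟩, rfl⟩
    refine ⟨⟨m, hm1, rfl⟩, Subgroup.mem_centralizer_singleton_iff.2 ?_⟩
    rw [← map_mul, ← map_mul, Subgroup.mem_centralizer_singleton_iff.1 hm2]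

/-- Fibre inequality. -/
theorem os_le_fibre {G₂ : Type} [Group G₂] [Finite G₂] (N : Subgroup G) (φ : G →* G₂) (x : G)
    (f : G → ℝ) (F : G₂ → ℝ) (hf : ∀ n ∈ N, 0 ≤ f (x * n))
    (hF : ∀ n ∈ N, os (N ⊓ φ.ker) (x * n) f ≤ F (φ (x * n))) :
    os N x f ≤ os (N.map φ) (φ x) F := by
  haveI : Fintype N := Fintype.ofFinite N
  haveI : Fintype (N.map φ) := Fintype.ofFinite _
  let K := N ⊓ φ.ker
  haveI : Fintype K := Fintype.ofFinite K
  have hK0 : (0 : ℝ) < Nat.card K := by exact_mod_cast Nat.card_pos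
  have hN0 : (0 : ℝ) < Nat.card N := by exact_mod_cast Nat.card_pos
  have hM0 : (0 : ℝ) < Nat.card (N.map φ) := by exact_mod_cast Nat.card_pos
  let c₁ : G → ℝ := fun y => (cent (N.map φ) (φ y) : ℝ)
  let a : N → ℝ := fun n => f (x * n) * (cent K (x * n) : ℝ) * c₁ (x * n)
  have h1 : ∑ n : N, f (x * n) * (cent N (x * n) : ℝ) ≤ ∑ n : N, a n := by
    refine Finset.sum_le_sum fun n _ => ?_
    rw [show a n = f (x * n) * ((cent K (x * n) : ℝ) * c₁ (x * n)) from mul_assoc _ _ _]
    refine mul_le_mul_of_nonneg_left ?_ (hf n n.2)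
    simp only [c₁]
    exact_mod_cast cent_le_mul N φ (x * n)
  have h2 : (Nat.card K : ℝ) * ∑ n : N, a n =
      ∑ n : N, c₁ (x * n) * ((Nat.card K : ℝ) * os K (x * n) f) := by
    have e1 : ∀ k : K, ∑ n : N, a (n * ⟨k, k.2.1⟩) = ∑ n : N, a n := fun k =>
      Fintype.sum_equiv (Equiv.mulRight (⟨k, k.2.1⟩ : N)) _ _ fun n => rfl
    have e2 : ∀ n : N, (Nat.card K : ℝ) * os K (x * n) f =
        ∑ k : K, f (x * n * k) * (cent K (x * n * k) : ℝ) := by
      intro n
      rw [os_def, mul_div_cancel₀ _ hK0.ne']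
    calc (Nat.card K : ℝ) * ∑ n : N, a n = ∑ k : K, ∑ n : N, a (n * ⟨k, k.2.1⟩) := by
          simp only [e1, Finset.sum_const, Finset.card_univ, nsmul_eq_mul, Nat.card_eq_fintype_card]
      _ = ∑ n : N, ∑ k : K, a (n * ⟨k, k.2.1⟩) := Finset.sum_comm
      _ = _ := by
          refine Finset.sum_congr rfl fun n _ => ?_
          rw [e2, Finset.mul_sum]
          refine Finset.sum_congr rfl fun k _ => ?_
          have hk : φ (x * n * k) = φ (x * n) := by
            rw [map_mul, MonoidHom.mem_ker.1 k.2.2, mul_one]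
          simp only [a, c₁, Subgroup.coe_mul, ← mul_assoc, hk]
          ring
  have h3 : ∑ n : N, a n ≤ ∑ n : N, c₁ (x * n) * F (φ (x * n)) := by
    refine le_of_mul_le_mul_left ?_ hK0
    rw [h2, Finset.mul_sum]
    refine Finset.sum_le_sum fun n _ => ?_
    rw [mul_left_comm (Nat.card K : ℝ)]
    refine mul_le_mul_of_nonneg_left ?_ (Nat.cast_nonneg _)
    exact mul_le_mul_of_nonneg_left (hF n n.2) hK0.le
  let g : N.map φ → ℝ := fun m => F (φ x * m) * (cent (N.map φ) (φ x * m) : ℝ)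
  have h4 : (Nat.card (N.map φ) : ℝ) * ∑ n : N, c₁ (x * n) * F (φ (x * n)) =
      (Nat.card N : ℝ) * ∑ m : N.map φ, g m := by
    let ψ : N → N.map φ := fun n => ⟨φ n, n, n.2, rfl⟩
    have e0 : ∀ n : N, c₁ (x * n) * F (φ (x * n)) = g (ψ n) := fun n => by
      simp [c₁, g, ψ, map_mul, mul_comm]
    have e1 : ∀ n : N, ∑ m : N.map φ, g (ψ n * m) = ∑ m : N.map φ, g m := fun n =>
      Fintype.sum_equiv (Equiv.mulLeft (ψ n)) _ _ fun _ => rfl
    have e3 : ∀ m : N.map φ, ∑ n : N, g (ψ n * m) = ∑ n : N, g (ψ n) := by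
      rintro ⟨_, n₁, hn₁, rfl⟩
      refine Fintype.sum_equiv (Equiv.mulRight (⟨n₁, hn₁⟩ : N)) _ _ fun n => ?_
      exact congrArg g (Subtype.ext (by simp [ψ]))
    calc (Nat.card (N.map φ) : ℝ) * ∑ n : N, c₁ (x * n) * F (φ (x * n))
        = ∑ m : N.map φ, ∑ n : N, g (ψ n * m) := by
          simp only [e3, e0, Finset.sum_const, Finset.card_univ, nsmul_eq_mul,
            Nat.card_eq_fintype_card]
      _ = ∑ n : N, ∑ m : N.map φ, g (ψ n * m) := Finset.sum_comm
      _ = _ := by
          simp only [e1, Finset.sum_const, Finset.card_univ, nsmul_eq_mul, Nat.card_eq_fintype_card]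
  calc os N x f ≤ (∑ n : N, c₁ (x * n) * F (φ (x * n))) / (Nat.card N : ℝ) := by
        rw [os_def]
        exact div_le_div_of_nonneg_right (h1.trans h3) hN0.le
    _ = (∑ m : N.map φ, g m) / (Nat.card (N.map φ) : ℝ) := by
        rw [div_eq_div_iff hN0.ne' hM0.ne', mul_comm, h4, mul_comm]
    _ = os (N.map φ) (φ x) F := by
        rw [os_def]

end Sums

section Cycles

variable {X : Type} [Fintype X]

theorem zpow_agree {S : Finset X} {u v : Perm X} (hinv : ∀ y, u y ∈ S ↔ y ∈ S)
    (h : ∀ y ∈ S, u y = v y) : ∀ (i : ℤ), ∀ y ∈ S, (u ^ i) y = (v ^ i) y ∧ (u ^ i) y ∈ S := by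
  intro i
  induction i using Int.induction_on with
  | zero => intro y hy; exact ⟨rfl, hy⟩
  | succ n ih =>
    intro y hy
    obtain ⟨h1, h2⟩ := ih y hy
    rw [add_comm, zpow_add, zpow_add, Perm.mul_apply, Perm.mul_apply, zpow_one, zpow_one, ← h1]
    exact ⟨h _ h2, (hinv _).2 h2⟩
  | pred n ih =>
    intro y hy
    obtain ⟨h1, h2⟩ := ih y hy
    rw [sub_eq_neg_add, zpow_add, zpow_add, Perm.mul_apply, Perm.mul_apply, zpow_neg_one,
      zpow_neg_one, ← h1]
    have hs : u⁻¹ ((u ^ (-(n : ℤ))) y) ∈ S := by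
      rw [← hinv, ← Perm.mul_apply, mul_inv_cancel, Perm.one_apply]
      exact h2
    refine ⟨?_, hs⟩
    rw [eq_comm, Perm.inv_eq_iff_eq]
    rw [← h _ hs, ← Perm.mul_apply, mul_inv_cancel, Perm.one_apply]


theorem cyc_def (S : Finset X) (u : Perm X) [DecidableEq (Quotient (Perm.SameCycle.setoid u))] :
    cyc S u = (S.image fun y => Quotient.mk (Perm.SameCycle.setoid u) y).card := by
  unfold cyc
  convert rfl

theorem card_image_le_image {A B : Type} [DecidableEq A] [DecidableEq B] (S : Finset X)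
    (f : X → A) (g : X → B) (h : ∀ a ∈ S, ∀ b ∈ S, f a = f b → g a = g b) :
    (S.image g).card ≤ (S.image f).card := by
  classical
  rcases S.eq_empty_or_nonempty with rfl | ⟨a₀, _⟩
  · simp
  haveI : Nonempty X := ⟨a₀⟩
  refine (Finset.card_le_card ?_).trans
    (Finset.card_image_le (f := fun q => g (Function.invFunOn f (↑S) q)))
  intro z hz
  obtain ⟨a, ha, rfl⟩ := Finset.mem_image.1 hz
  refine Finset.mem_image.2 ⟨f a, Finset.mem_image_of_mem f ha, ?_⟩
  exact h _ (Function.invFunOn_mem ⟨a, ha, rfl⟩) a ha (Function.invFunOn_eq ⟨a, ha, rfl⟩)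

theorem fx_congr {S : Finset X} {u v : Perm X} (h : ∀ y ∈ S, u y = v y) :
    fx S S u = fx S S v := by
  classical
  unfold fx
  refine congrArg Finset.card (Finset.filter_congr fun y hy => ?_)
  rw [h y (Finset.mem_inter.1 hy).1]

theorem cyc_congr {S : Finset X} {u v : Perm X} (hinv : ∀ y, u y ∈ S ↔ y ∈ S)
    (h : ∀ y ∈ S, u y = v y) : cyc S u = cyc S v := by
  classical
  have key : ∀ a ∈ S, ∀ b, u.SameCycle a b ↔ v.SameCycle a b := by
    intro a ha b
    constructor
    · rintro ⟨i, hi⟩; exact ⟨i, by rw [← (zpow_agree hinv h i a ha).1]; exact hi⟩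
    · rintro ⟨i, hi⟩; exact ⟨i, by rw [(zpow_agree hinv h i a ha).1]; exact hi⟩
  rw [cyc_def, cyc_def]
  refine le_antisymm (card_image_le_image S _ _ ?_) (card_image_le_image S _ _ ?_)
  · intro a ha b _ hab
    exact Quotient.sound ((key a ha b).2 (Quotient.exact hab))
  · intro a ha b _ hab
    exact Quotient.sound ((key a ha b).1 (Quotient.exact hab))

theorem fx_le_cyc (S : Finset X) (u : Perm X) : fx S S u ≤ cyc S u := by
  classical
  rw [cyc_def]
  unfold fx
  refine Finset.card_le_card_of_injOn (fun y => Quotient.mk (Perm.SameCycle.setoid u) y) ?_ ?_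
  · intro y hy
    simp only [Finset.coe_filter, Finset.mem_inter, Set.mem_setOf_eq] at hy
    exact Finset.mem_coe.2 (Finset.mem_image_of_mem _ hy.1.1)
  · intro a ha b hb hab
    simp only [Finset.coe_filter, Set.mem_setOf_eq] at ha
    obtain ⟨i, hi⟩ := (Quotient.exact hab : u.SameCycle a b)
    rw [← hi, Perm.zpow_apply_eq_self_of_apply_eq_self ha.2]

theorem fx_add (S O : Finset X) [DecidableEq X] (hO : O ⊆ S) (u : Perm X) :
    fx S S u = fx O O u + fx (S \ O) (S \ O) u := by
  unfold fx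
  simp only [Finset.inter_self]
  rw [← Finset.card_union_of_disjoint]
  · congr 1
    ext y
    simp only [Finset.mem_filter, Finset.mem_union, Finset.mem_sdiff]
    constructor
    · rintro ⟨h1, h2⟩
      by_cases hy : y ∈ O
      · exact Or.inl ⟨hy, h2⟩
      · exact Or.inr ⟨⟨h1, hy⟩, h2⟩
    · rintro (⟨h1, h2⟩ | ⟨⟨h1, -⟩, h2⟩)
      · exact ⟨hO h1, h2⟩
      · exact ⟨h1, h2⟩
  · rw [Finset.disjoint_left]
    intro y h1 h2
    simp only [Finset.mem_filter, Finset.mem_sdiff] at h1 h2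
    exact h2.1.2 h1.1

theorem cyc_add (S O : Finset X) [DecidableEq X] (hO : O ⊆ S) (u : Perm X)
    (hinv : ∀ y, u y ∈ O ↔ y ∈ O) : cyc S u = cyc O u + cyc (S \ O) u := by
  classical
  rw [cyc_def, cyc_def, cyc_def, ← Finset.card_union_of_disjoint]
  refine congrArg Finset.card (Eq.trans ?_ (Finset.image_union (f := fun y => Quotient.mk (Perm.SameCycle.setoid u) y) O (S \ O)))

  · rw [Finset.union_sdiff_of_subset hO]
  · rw [Finset.disjoint_left]
    intro q h1 h2
    obtain ⟨a, ha, rfl⟩ := Finset.mem_image.1 h1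
    obtain ⟨b, hb, hab⟩ := Finset.mem_image.1 h2
    obtain ⟨i, hi⟩ := (Quotient.exact hab.symm : u.SameCycle a b)
    have := (zpow_agree hinv (fun _ _ => rfl) i a ha).2
    rw [hi] at this
    exact (Finset.mem_sdiff.1 hb).2 this

theorem oc_add (S O : Finset X) [DecidableEq X] (hO : O ⊆ S) (u : Perm X)
    (hinv : ∀ y, u y ∈ O ↔ y ∈ O) : oc S S u = oc O O u + oc (S \ O) (S \ O) u := by
  have h1 := fx_le_cyc O u
  have h2 := fx_le_cyc (S \ O) u
  have h3 := fx_add S O hO u
  have h4 := cyc_add S O hO u hinv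
  unfold oc
  omega

theorem oc_congr {S : Finset X} {u v : Perm X} (hinv : ∀ y, u y ∈ S ↔ y ∈ S)
    (h : ∀ y ∈ S, u y = v y) : oc S S u = oc S S v := by
  unfold oc
  rw [fx_congr h, cyc_congr hinv h]

theorem three_mul_le (S : Finset X) (u : Perm X) (hinv : ∀ y, u y ∈ S ↔ y ∈ S)
    (hodd : Odd (orderOf u)) : fx S S u + 3 * oc S S u ≤ S.card := by
  classical
  have h2 : ∀ y, u (u y) = y → u y = y := by
    intro y hy
    obtain ⟨j, hj⟩ := hodd
    have hper : ∀ m : ℕ, (u ^ (2 * m)) y = y := by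
      intro m
      induction m with
      | zero => rfl
      | succ m ih => rw [Nat.mul_succ, pow_add, Perm.mul_apply, pow_two, Perm.mul_apply, hy, ih]
    have := Equiv.congr_fun (pow_orderOf_eq_one u) y
    rw [hj, pow_succ', Perm.mul_apply, hper, Perm.one_apply] at this
    exact this
  let F := S.filter fun y => u y = y
  let R := S.filter fun y => ¬ u y = y
  let T := R.image fun y => Quotient.mk (Perm.SameCycle.setoid u) y
  have hfx : fx S S u = F.card := by simp [fx, F]
  have hRc : 3 * T.card ≤ R.card := by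
    rw [Finset.card_eq_sum_card_image (fun y => Quotient.mk (Perm.SameCycle.setoid u) y) R]
    show 3 * T.card ≤ ∑ q ∈ T, _
    refine le_trans (le_of_eq (by rw [Finset.sum_const, smul_eq_mul, mul_comm]))
      (Finset.sum_le_sum fun q hq => ?_)
    obtain ⟨y, hy, rfl⟩ := Finset.mem_image.1 hq
    obtain ⟨hyS, hyn⟩ := Finset.mem_filter.1 hy
    have hsub : ({y, u y, u (u y)} : Finset X) ⊆
        R.filter fun z => Quotient.mk (Perm.SameCycle.setoid u) z = Quotient.mk _ y := by
      intro z hz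
      simp only [Finset.mem_insert, Finset.mem_singleton] at hz
      rw [Finset.mem_filter, Finset.mem_filter]
      rcases hz with rfl | rfl | rfl
      · exact ⟨⟨hyS, hyn⟩, rfl⟩
      · exact ⟨⟨(hinv _).2 hyS, fun h => hyn (u.injective h)⟩,
          Quotient.sound ⟨-1, by simp⟩⟩
      · exact ⟨⟨(hinv _).2 ((hinv _).2 hyS), fun h => hyn (u.injective (u.injective h))⟩,
          Quotient.sound ⟨-2, by
            show (u ^ (-2 : ℤ) * (u * u)) y = y
            rw [show u ^ (-2 : ℤ) * (u * u) = 1 by group]; rfl⟩⟩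
    refine le_trans (le_of_eq ?_) (Finset.card_le_card hsub)
    rw [Finset.card_insert_of_notMem, Finset.card_insert_of_notMem, Finset.card_singleton]
    · simpa using fun h => hyn (u.injective h).symm
    · simp only [Finset.mem_insert, Finset.mem_singleton, not_or]
      exact ⟨fun h => hyn h.symm, fun h => hyn (h2 y h.symm)⟩
  have hcyc : cyc S u ≤ F.card + T.card := by
    rw [cyc_def, ← Finset.filter_union_filter_not_eq (fun y => u y = y) S, Finset.image_union]
    refine (Finset.card_union_le _ _).trans ?_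
    exact Nat.add_le_add Finset.card_image_le le_rfl
  have hsum : F.card + R.card = S.card :=
    Finset.card_filter_add_card_filter_not _
  unfold oc
  omega

end Cycles

end Cfsg.Agent.H61.PermTwo.Comp
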