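import Cfsg.Agent.H61.PermTwo.CompBasic
import Cfsg.Agent.H91.PermClasses.Weight
import Mathlib.GroupTheory.SpecificGroups.Cyclic

/-!
Block subgroup of a transitive `p`-group and the iteration over its orbits (slice F of S4197).
-/

namespace Cfsg.Agent.H61.PermTwo.Comp

open Equiv

theorem os_image {G G' : Type} [Group G] [Finite G] [Group G'] [Finite G'] (N : Subgroup G)
    (φ : G →* G') (x : G) (hinj : ∀ m ∈ N, φ m = 1 → m = 1) (hx : ∀ m ∈ N, x * m * x⁻¹ ∈ N)
    (f : G → ℝ) (F : G' → ℝ) (hf : ∀ n ∈ N, f (x * n) = F (φ (x * n))) :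
    os N x f = os (N.map φ) (φ x) F := by
  haveI : Fintype N := Fintype.ofFinite N
  haveI : Fintype (N.map φ) := Fintype.ofFinite _
  let ψ : N → N.map φ := fun n => ⟨φ n, n, n.2, rfl⟩
  have hψi : Function.Injective ψ := by
    intro a b h
    have h' : φ (a : G) = φ (b : G) := congrArg Subtype.val h
    exact Subtype.ext (mul_inv_eq_one.1 (hinj _ (N.mul_mem a.2 (N.inv_mem b.2))
      (by rw [map_mul, map_inv, h', mul_inv_cancel])))
  have hψs : Function.Surjective ψ := by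
    rintro ⟨_, n, hn, rfl⟩
    exact ⟨⟨n, hn⟩, rfl⟩
  let e := Equiv.ofBijective ψ ⟨hψi, hψs⟩
  have hc : ∀ n : N, cent (N.map φ) (φ (x * n)) = cent N (x * n) := by
    intro n
    refine (Nat.card_congr (Equiv.subtypeEquiv e fun m => ?_)).symm
    show _ ↔ φ m * φ (x * n) = φ (x * n) * φ m
    constructor
    · intro h; rw [← map_mul, ← map_mul, h]
    · intro h
      have hy : (x * n) * (m : G) * (x * n)⁻¹ ∈ N := by
        rw [show (x * n) * (m : G) * (x * n)⁻¹ = x * (n * m * (n : G)⁻¹) * x⁻¹ by group]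
        exact hx _ (N.mul_mem (N.mul_mem n.2 m.2) (N.inv_mem n.2))
      have h1 : (m : G) * ((x * n) * (m : G) * (x * n)⁻¹)⁻¹ = 1 := by
        refine hinj _ (N.mul_mem m.2 (N.inv_mem hy)) ?_
        simp only [map_mul, map_inv] at h ⊢
        rw [← h]
        group
      rw [mul_inv_eq_one, eq_mul_inv_iff_mul_eq] at h1
      exact h1
  rw [os_def, os_def, Nat.card_congr e]
  congr 1
  refine Fintype.sum_equiv e _ _ fun n => ?_
  show _ = F (φ x * φ n) * (cent (N.map φ) (φ x * φ n) : ℝ)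
  rw [← map_mul, hf n n.2, hc]

section Restrict

variable {X : Type} [DecidableEq X]

/-- Restriction to an invariant finite set, extended by the identity. -/
def res (O : Finset X) (Q : Subgroup (Perm X)) (h : ∀ g ∈ Q, ∀ y, g y ∈ O ↔ y ∈ O) :
    ↥Q →* Perm X where
  toFun g := Perm.ofSubtype (Perm.subtypePerm (g : Perm X) (p := fun y => y ∈ O) (h g g.2))
  map_one' := (congrArg Perm.ofSubtype (Equiv.ext fun _ => rfl)).trans (map_one _)
  map_mul' a b := by
    rw [← map_mul]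
    congr 1

theorem res_of_mem (O : Finset X) (Q : Subgroup (Perm X)) (h : ∀ g ∈ Q, ∀ y, g y ∈ O ↔ y ∈ O)
    (g : Q) {y : X} (hy : y ∈ O) : res O Q h g y = (g : Perm X) y :=
  Perm.ofSubtype_apply_of_mem (p := fun y => y ∈ O) _ hy

theorem res_of_notMem (O : Finset X) (Q : Subgroup (Perm X)) (h : ∀ g ∈ Q, ∀ y, g y ∈ O ↔ y ∈ O)
    (g : Q) {y : X} (hy : y ∉ O) : res O Q h g y = y :=
  Perm.ofSubtype_apply_of_not_mem (p := fun y => y ∈ O) _ hy

end Restrict

section Orbits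

variable {X : Type} [Fintype X]

/-- The orbit of `a` inside `T`. -/
noncomputable def orb (T : Finset X) (Q : Subgroup (Perm X)) (a : X) : Finset X :=
  haveI := Classical.decPred fun b => ∃ g ∈ Q, g a = b
  T.filter fun b => ∃ g ∈ Q, g a = b

theorem mem_orb {T : Finset X} {Q : Subgroup (Perm X)} {a b : X} :
    b ∈ orb T Q a ↔ b ∈ T ∧ ∃ g ∈ Q, g a = b := by
  classical
  simp [orb]

theorem supp_inv {T : Finset X} {Q : Subgroup (Perm X)}
    (hs : ∀ g ∈ Q, ∀ y, y ∉ T → g y = y) : ∀ g ∈ Q, ∀ y, g y ∈ T ↔ y ∈ T := by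
  intro g hg y
  constructor
  · intro h
    by_contra hy
    exact hy (by rwa [hs g hg y hy] at h)
  · intro h
    by_contra hy
    have h2 := hs g hg _ hy
    exact hy (by rw [g.injective h2]; exact h)

theorem orb_inv {T : Finset X} {Q : Subgroup (Perm X)}
    (hs : ∀ g ∈ Q, ∀ y, y ∉ T → g y = y) (a : X) :
    ∀ g ∈ Q, ∀ y, g y ∈ orb T Q a ↔ y ∈ orb T Q a := by
  intro g hg y
  rw [mem_orb, mem_orb, supp_inv hs g hg]
  refine and_congr_right fun _ => ⟨?_, ?_⟩
  · rintro ⟨m, hm, hma⟩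
    exact ⟨g⁻¹ * m, Q.mul_mem (Q.inv_mem hg) hm, by rw [Perm.mul_apply, hma]; simp⟩
  · rintro ⟨m, hm, hma⟩
    exact ⟨g * m, Q.mul_mem hg hm, by rw [Perm.mul_apply, hma]⟩

set_option maxHeartbeats 1000000 in
/-- Iteration of the fibre inequality over the orbits. -/
theorem nest_bound {p k : ℕ} [hp : Fact p.Prime] {C : (ℕ → ℕ → ℝ) → ℝ} {Adm : (ℕ → ℕ → ℝ) → Prop}
    (hC : CompOK p k C Adm) (hnn : ∀ H, Adm H → ∀ f c, 0 ≤ H f c)
    (hshift : ∀ H, Adm H → ∀ f c, Adm fun f' c' => H (f + f') (c + c'))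
    (hcl : ∀ H, Adm H → ∀ m, Adm fun f c => nest C m fun f' c' => H (f + f') (c + c')) :
    ∀ (m : ℕ) (T : Finset X) (Q N : Subgroup (Perm X)) (x : Perm X), Sit p T Q N x →
      (∀ a ∈ T, (orb T Q a).card = p ^ k) → T.card = m * p ^ k → ∀ H, Adm H →
      os N x (fun u => H (fx T T u) (oc T T u)) ≤ nest C m H := by
  classical
  intro m
  induction m with
  | zero =>
    intro T Q N x hs _ hcard H _
    have hT : T = ∅ := Finset.card_eq_zero.1 (by simpa using hcard)
    subst hT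
    have h1 : ∀ g ∈ Q, g = 1 := fun g hg => Equiv.ext fun y => hs.supp g hg y (by simp)
    have hN : N = ⊥ := (Subgroup.eq_bot_iff_forall _).2 fun g hg => h1 g (hs.le hg)
    rw [hN, os_bot]
    refine le_of_eq ?_
    simp [fx, oc, cyc, nest]
  | succ m ih =>
    intro T Q N x hs horb hcard H hH
    obtain ⟨a, ha⟩ : T.Nonempty :=
      Finset.card_pos.1 (by rw [hcard]; exact Nat.mul_pos (Nat.succ_pos m) (pow_pos hp.out.pos k))
    let O := orb T Q a
    let T₂ := T \ O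
    have hOT : O ⊆ T := fun b hb => (mem_orb.1 hb).1
    have hinvT := supp_inv hs.supp
    have hinvO : ∀ g ∈ Q, ∀ y, g y ∈ O ↔ y ∈ O := orb_inv hs.supp a
    have hinv2 : ∀ g ∈ Q, ∀ y, g y ∈ T₂ ↔ y ∈ T₂ := fun g hg y => by
      simp only [T₂, Finset.mem_sdiff, hinvT g hg, hinvO g hg]
    let r₁ := res O Q hinvO
    let r₂ := res T₂ Q hinv2
    let N' := N.subgroupOf Q
    let x' : Q := ⟨x, hs.mem⟩
    have hx' : ∀ n ∈ N', x' * n * x'⁻¹ ∈ N' := fun n hn => hs.normal _ hn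
    let f : Perm X → ℝ := fun u => H (fx T T u) (oc T T u)
    let F : Perm X → ℝ := fun u => nest C m fun f' c' => H (fx O O u + f') (oc O O u + c')
    have hf : ∀ g : Q, f g = H (fx O O (r₁ g) + fx T₂ T₂ (r₂ g))
        (oc O O (r₁ g) + oc T₂ T₂ (r₂ g)) := by
      intro g
      have e1 : ∀ y ∈ O, r₁ g y = (g : Perm X) y := fun y hy => res_of_mem _ _ _ g hy
      have e2 : ∀ y ∈ T₂, r₂ g y = (g : Perm X) y := fun y hy => res_of_mem _ _ _ g hy
      simp only [f]
      rw [fx_add T O hOT, oc_add T O hOT _ (hinvO g g.2),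
        fx_congr (fun y hy => (e1 y hy).symm), fx_congr (fun y hy => (e2 y hy).symm),
        oc_congr (hinvO g g.2) (fun y hy => (e1 y hy).symm),
        oc_congr (hinv2 g g.2) (fun y hy => (e2 y hy).symm)]
    have step1 : os N x f = os N' x' (fun g => f g) := by
      have := os_map Q.subtype Q.subtype_injective N' x' f
      rw [Subgroup.map_subgroupOf_eq_of_le hs.le] at this
      exact this
    have hfib : ∀ n ∈ N', os (N' ⊓ r₁.ker) (x' * n) (fun g => f g) ≤ F (r₁ (x' * n)) := by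
      intro n hn
      let y := x' * n
      let N₂ := N' ⊓ r₁.ker
      have hy : ∀ g ∈ N₂, y * g * y⁻¹ ∈ N₂ := by
        rintro g ⟨hg1, hg2⟩
        refine ⟨?_, r₁.normal_ker.conj_mem g hg2 y⟩
        show y * g * y⁻¹ ∈ N'
        rw [show y * g * y⁻¹ = x' * (n * g * n⁻¹) * x'⁻¹ by simp only [y]; group]
        exact hx' _ (N'.mul_mem (N'.mul_mem hn hg1) (N'.inv_mem hn))
      have hinj : ∀ g ∈ N₂, r₂ g = 1 → g = 1 := by
        rintro g ⟨-, hg2⟩ hg3
        refine Subtype.ext (Equiv.ext fun z => ?_)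
        by_cases hzO : z ∈ O
        · rw [← res_of_mem _ _ hinvO g hzO]
          exact Equiv.congr_fun (MonoidHom.mem_ker.1 hg2) z
        · by_cases hzT : z ∈ T
          · rw [← res_of_mem _ _ hinv2 g (Finset.mem_sdiff.2 ⟨hzT, hzO⟩)]
            exact Equiv.congr_fun hg3 z
          · exact hs.supp g g.2 z hzT
      let H' : ℕ → ℕ → ℝ := fun f' c' => H (fx O O (r₁ y) + f') (oc O O (r₁ y) + c')
      rw [os_image N₂ r₂ y hinj hy (fun g => f g) (fun u => H' (fx T₂ T₂ u) (oc T₂ T₂ u))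
        (fun g hg => by
          show f (y * g : Q) = _
          rw [hf, map_mul r₁, MonoidHom.mem_ker.1 hg.2, mul_one])]
      refine ih T₂ r₂.range (N₂.map r₂) (r₂ y) ⟨?_, ?_, ?_, ⟨y, rfl⟩, ?_⟩ ?_ ?_ H' (hshift H hH _ _)
      · exact IsPGroup.of_surjective hs.pgroup r₂.rangeRestrict r₂.rangeRestrict_surjective
      · rintro _ ⟨g, rfl⟩ z hz
        exact res_of_notMem _ _ _ g hz
      · rintro _ ⟨g, -, rfl⟩
        exact ⟨g, rfl⟩
      · rintro _ ⟨g, hg, rfl⟩
        exact ⟨y * g * y⁻¹, hy g hg, by simp⟩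
      · intro b hb
        obtain ⟨hbT, hbO⟩ := Finset.mem_sdiff.1 hb
        have : orb T₂ r₂.range b = orb T Q b := by
          ext z
          rw [mem_orb, mem_orb]
          constructor
          · rintro ⟨hz, _, ⟨g, rfl⟩, hg⟩
            exact ⟨(Finset.mem_sdiff.1 hz).1, g, g.2, by rw [← hg, res_of_mem _ _ _ g hb]⟩
          · rintro ⟨-, g, hg, hgz⟩
            have e : r₂ ⟨g, hg⟩ b = z := (res_of_mem _ _ _ _ hb).trans hgz
            exact ⟨hgz ▸ (hinv2 g hg b).2 hb, _, ⟨⟨g, hg⟩, rfl⟩, e⟩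
        rw [this]
        exact horb b hbT
      · rw [Finset.card_sdiff_of_subset hOT, hcard, horb a ha, Nat.succ_mul, Nat.add_sub_cancel]
    have step2 : os N' x' (fun g => f g) ≤ os (N'.map r₁) (r₁ x') F := by
      refine os_le_fibre N' r₁ x' _ F (fun n _ => ?_) hfib
      exact hnn H hH _ _
    have step3 : os (N'.map r₁) (r₁ x') F ≤ nest C (m + 1) H := by
      have hsit : Sit p O r₁.range (N'.map r₁) (r₁ x') := by
        refine ⟨?_, ?_, ?_, ⟨x', rfl⟩, ?_⟩
        · exact IsPGroup.of_surjective hs.pgroup r₁.rangeRestrict r₁.rangeRestrict_surjective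
        · rintro _ ⟨g, rfl⟩ z hz
          exact res_of_notMem _ _ _ g hz
        · rintro _ ⟨g, -, rfl⟩
          exact ⟨g, rfl⟩
        · rintro _ ⟨g, hg, rfl⟩
          exact ⟨x' * g * x'⁻¹, hx' g hg, by simp⟩
      have htr : ∀ b ∈ O, ∀ c ∈ O, ∃ g ∈ r₁.range, g b = c := by
        intro b hb c hc
        obtain ⟨-, g₁, hg₁, hb'⟩ := mem_orb.1 hb
        obtain ⟨-, g₂, hg₂, hc'⟩ := mem_orb.1 hc
        refine ⟨r₁ ⟨g₂ * g₁⁻¹, Q.mul_mem hg₂ (Q.inv_mem hg₁)⟩, ⟨_, rfl⟩, ?_⟩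
        rw [res_of_mem _ _ _ _ hb, ← hb', ← hc']
        simp
      exact hC X O r₁.range (N'.map r₁) (r₁ x') hsit htr (horb a ha) _ (hcl H hH m)
    exact step1.le.trans (step2.trans step3)

/-- A normal subgroup of index `p` containing the point stabilisers. -/
structure Blk (p n : ℕ) (S : Finset X) (P K : Subgroup (Perm X)) : Prop where
  le : K ≤ P
  normal : ∀ g ∈ P, ∀ m ∈ K, g * m * g⁻¹ ∈ K
  relIndex : K.relIndex P = p
  stab : ∀ g ∈ P, ∀ a ∈ S, g a = a → g ∈ K
  card_orb : ∀ a ∈ S, (orb S K a).card = n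
  gen : ∀ y ∈ P, y ∉ K → ∀ g ∈ P, ∃ i : ℤ, g * y ^ i ∈ K

theorem card_orbit_mul (H : Subgroup (Perm X)) (a : X) :
    Nat.card {b // ∃ g ∈ H, g a = b} *
      Nat.card ↥(H ⊓ MulAction.stabilizer (Perm X) a) = Nat.card H := by
  have h1 := MulAction.index_stabilizer H a
  have h2 : MulAction.stabilizer H a = (MulAction.stabilizer (Perm X) a).subgroupOf H := by
    ext g; rfl
  have h3 : (MulAction.orbit H a).ncard = Nat.card {b // ∃ g ∈ H, g a = b} := by
    rw [← Nat.card_coe_set_eq]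
    exact Nat.card_congr (Equiv.subtypeEquivRight fun b =>
      ⟨fun ⟨g, hg⟩ => ⟨g, g.2, hg⟩, fun ⟨g, hg, hgb⟩ => ⟨⟨g, hg⟩, hgb⟩⟩)
  rw [← h3, ← h1, h2]
  show (MulAction.stabilizer (Perm X) a).relIndex H * _ = _
  rw [mul_comm, ← Subgroup.inf_relIndex_left H]
  have := Subgroup.relIndex_mul_relIndex ⊥ (H ⊓ MulAction.stabilizer (Perm X) a) H bot_le inf_le_left
  rwa [Subgroup.relIndex_bot_left, Subgroup.relIndex_bot_left] at this

set_option maxHeartbeats 1000000 in
theorem exists_blk {p k : ℕ} [hp : Fact p.Prime] {S : Finset X} {P : Subgroup (Perm X)}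
    (hP : IsPGroup p P) (hs : ∀ g ∈ P, ∀ y, y ∉ S → g y = y)
    (ht : ∀ a ∈ S, ∀ b ∈ S, ∃ g ∈ P, g a = b) (hcard : S.card = p ^ (k + 1)) :
    ∃ K, Blk p (p ^ k) S P K := by
  classical
  obtain ⟨a₀, ha₀⟩ : S.Nonempty := Finset.card_pos.1 (by rw [hcard]; exact pow_pos hp.out.pos _)
  let S₀ : Subgroup P := (MulAction.stabilizer (Perm X) a₀).subgroupOf P
  have hS : S₀ ≠ ⊤ := by
    intro h
    have h1 : S ⊆ {a₀} := fun b hb => by
      obtain ⟨g, hg, rfl⟩ := ht a₀ ha₀ b hb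
      have : (⟨g, hg⟩ : P) ∈ S₀ := h ▸ Subgroup.mem_top _
      exact Finset.mem_singleton.2 this
    have := Finset.card_le_card h1
    rw [hcard, Finset.card_singleton] at this
    exact absurd this (Nat.not_le.2 (Nat.one_lt_pow (Nat.succ_ne_zero k) hp.out.one_lt))
  obtain ⟨M, hM, hSM⟩ := (IsCoatomic.eq_top_or_exists_le_coatom S₀).resolve_left hS
  haveI : Group.IsNilpotent P := hP.isNilpotent
  haveI hMn : M.Normal :=
    Subgroup.NormalizerCondition.normal_of_coatom M Group.normalizerCondition_of_isNilpotent hM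
  have hMi : M.index = p := by
    obtain ⟨j, hj⟩ := IsPGroup.iff_card.1 (hP.to_subgroup M)
    obtain ⟨a, ha⟩ := IsPGroup.iff_card.1 hP
    have hka : j < a := by
      by_contra h
      exact hM.1 (Subgroup.eq_top_of_le_card _
        (by rw [hj, ha]; exact Nat.pow_le_pow_right hp.out.pos (by omega)))
    obtain ⟨L, hL, hML⟩ := Sylow.exists_subgroup_card_pow_succ
      (p := p) (by rw [ha]; exact Nat.pow_dvd_pow p hka) hj
    have hLtop : L = ⊤ := by
      refine hM.2 L (lt_of_le_of_ne hML fun h => ?_)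
      rw [← h, hj] at hL
      exact absurd (Nat.pow_right_injective hp.out.two_le hL) (by omega)
    rw [hLtop, Subgroup.card_top] at hL
    have := M.card_mul_index
    rw [hj, hL, pow_succ] at this
    exact Nat.eq_of_mul_eq_mul_left (pow_pos hp.out.pos j) this
  refine ⟨M.map P.subtype, ?_⟩
  have hmem : ∀ g (hg : g ∈ P), g ∈ M.map P.subtype ↔ (⟨g, hg⟩ : P) ∈ M := by
    intro g hg
    constructor
    · rintro ⟨m, hm, rfl⟩; exact hm
    · intro h; exact ⟨_, h, rfl⟩
  have hnormal : ∀ g ∈ P, ∀ m ∈ M.map P.subtype, g * m * g⁻¹ ∈ M.map P.subtype := by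
    rintro g hg _ ⟨m, hm, rfl⟩
    exact ⟨_, hMn.conj_mem m hm ⟨g, hg⟩, rfl⟩
  have hstab : ∀ g ∈ P, ∀ a ∈ S, g a = a → g ∈ M.map P.subtype := by
    intro g hg a ha hga
    obtain ⟨c, hc, hca⟩ := ht a₀ ha₀ a ha
    have h1 : c⁻¹ * g * c ∈ M.map P.subtype := by
      have hmem' : c⁻¹ * g * c ∈ P := P.mul_mem (P.mul_mem (P.inv_mem hc) hg) hc
      rw [hmem _ hmem']
      apply hSM
      show (c⁻¹ * g * c) a₀ = a₀
      rw [Perm.mul_apply, Perm.mul_apply, hca, hga, ← hca]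
      simp
    have h2 := hnormal c hc _ h1
    rwa [show c * (c⁻¹ * g * c) * c⁻¹ = g by group] at h2
  have hle : M.map P.subtype ≤ P := Subgroup.map_subtype_le M
  have hrel : (M.map P.subtype).relIndex P = p := by
    rw [Subgroup.relIndex, Subgroup.subgroupOf,
      Subgroup.comap_map_eq_self_of_injective P.subtype_injective, hMi]
  refine ⟨hle, hnormal, hrel, hstab, ?_, ?_⟩
  · intro a ha
    have horbP : Nat.card {b // ∃ g ∈ P, g a = b} = S.card := by
      rw [← Nat.card_eq_finsetCard S]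
      refine Nat.card_congr (Equiv.subtypeEquivRight fun b => ⟨?_, fun hb => ht a ha b hb⟩)
      rintro ⟨g, hg, rfl⟩
      exact (supp_inv hs g hg a).2 ha
    have horbK : Nat.card {b // ∃ g ∈ M.map P.subtype, g a = b} =
        (orb S (M.map P.subtype) a).card := by
      rw [← Nat.card_eq_finsetCard]
      refine Nat.card_congr (Equiv.subtypeEquivRight fun b => ?_)
      rw [mem_orb]
      refine ⟨fun h => ⟨?_, h⟩, fun h => h.2⟩
      obtain ⟨g, hg, rfl⟩ := h
      exact (supp_inv hs g (hle hg) a).2 ha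
    have hst : M.map P.subtype ⊓ MulAction.stabilizer (Perm X) a =
        P ⊓ MulAction.stabilizer (Perm X) a :=
      le_antisymm (inf_le_inf_right _ hle) fun g hg => ⟨hstab g hg.1 a ha hg.2, hg.2⟩
    have e1 := card_orbit_mul (M.map P.subtype) a
    have e2 := card_orbit_mul P a
    have e3 := Subgroup.relIndex_mul_relIndex ⊥ (M.map P.subtype) P bot_le hle
    rw [Subgroup.relIndex_bot_left, Subgroup.relIndex_bot_left, hrel, ← e1, ← e2, horbK, horbP,
      hst, hcard, pow_succ, mul_right_comm] at e3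
    exact Nat.eq_of_mul_eq_mul_right hp.out.pos (Nat.eq_of_mul_eq_mul_right Nat.card_pos e3)
  · intro y hy hyK g hg
    have hyM : (⟨y, hy⟩ : P) ∉ M := fun h => hyK ((hmem y hy).2 h)
    have htop : Subgroup.zpowers (⟨y, hy⟩ : P) ⊔ M = ⊤ :=
      hM.2 _ (lt_of_le_of_ne le_sup_right fun h =>
        hyM (h ▸ (le_sup_left : Subgroup.zpowers (⟨y, hy⟩ : P) ≤ _) (Subgroup.mem_zpowers _)))
    have h0 : (⟨g, hg⟩ : P) ∈ Subgroup.zpowers (⟨y, hy⟩ : P) ⊔ M := htop ▸ Subgroup.mem_top _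
    rw [sup_comm] at h0
    obtain ⟨m, hm, z, ⟨i, rfl⟩, hmz⟩ := Subgroup.mem_sup_of_normal_left.1 h0
    refine ⟨-i, ?_⟩
    have : g = (m : Perm X) * y ^ i := by
      have := congrArg Subtype.val hmz
      simpa using this.symm
    rw [this, mul_assoc, ← zpow_add, add_neg_cancel, zpow_zero, mul_one]
    exact ⟨m, hm, rfl⟩

end Orbits

end Cfsg.Agent.H61.PermTwo.Comp
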