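import Mathlib.Algebra.BigOperators.Field
import Mathlib.Data.Real.Basic
import Mathlib.GroupTheory.Perm.Cycle.Basic
import Mathlib.GroupTheory.PGroup

/-!
Definitions for the elementary bound `k(G) ≤ 2 ^ (n - 1)` on permutation groups (S4197).

* `os N x f` : sum of the class function `f` over the `N`-conjugation orbits on the coset `x N`,
  written as an element sum.
* `fx M S u`, `cyc S u`, `oc M S u` : marked fixed points, cycles and other cycles of `u` inside `S`.
* `comp p k` : linear bound operator for a transitive component of size `p ^ k`.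
* `kTwo` : bound for the class number of a `2`-group of degree `n`.
-/

namespace Cfsg.Agent.H61.PermTwo

open Equiv

/-- `|C_N(y)|`. -/
noncomputable def cent {G : Type} [Group G] (N : Subgroup G) (y : G) : ℕ :=
  Nat.card {m : N // (m : G) * y = y * (m : G)}

/-- Orbit sum of `f` for `N` acting by conjugation on the coset `x N`. -/
noncomputable def os {G : Type} [Group G] [Finite G] (N : Subgroup G) (x : G) (f : G → ℝ) : ℝ :=
  haveI : Fintype N := Fintype.ofFinite N
  (∑ n : N, f (x * (n : G)) * (cent N (x * (n : G)) : ℝ)) / (Nat.card N : ℝ)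

section Stat

variable {X : Type} [Fintype X]

/-- Fixed points of `u` in `M ∩ S`. -/
noncomputable def fx (M S : Finset X) (u : Perm X) : ℕ :=
  haveI := Classical.decEq X
  ((S ∩ M).filter fun y => u y = y).card

/-- Cycles of `u` (fixed points included) meeting `S`. -/
noncomputable def cyc (S : Finset X) (u : Perm X) : ℕ :=
  haveI := Classical.decEq (Quotient (Perm.SameCycle.setoid u))
  (S.image fun y => Quotient.mk (Perm.SameCycle.setoid u) y).card

/-- Cycles other than the marked fixed points. -/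
noncomputable def oc (M S : Finset X) (u : Perm X) : ℕ := cyc S u - fx M S u

end Stat

/-- `m`-fold nesting of an operator on shifted functions. -/
def nest (C : (ℕ → ℕ → ℝ) → ℝ) : ℕ → (ℕ → ℕ → ℝ) → ℝ
  | 0, H => H 0 0
  | m + 1, H => C fun f c => nest C m fun f' c' => H (f + f') (c + c')

/-- Bound operator for a component of size `p ^ k`: identity-like part `comp ^ p` plus outer classes. -/
def comp (p : ℕ) : ℕ → (ℕ → ℕ → ℝ) → ℝ
  | 0, H => H 1 0
  | k + 1, H =>
    nest (comp p k) p H + ((p - 1) * p ^ ((p ^ k - 1) / (p - 1)) : ℕ) * H 0 (p ^ k)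

/-- Value of `nest` at multiplicity zero. -/
theorem nest_zero (C : (ℕ → ℕ → ℝ) → ℝ) (H : ℕ → ℕ → ℝ) : nest C 0 H = H 0 0 := by rw [nest.eq_def]

/-- Value of `nest` at a successor. -/
theorem nest_succ (C : (ℕ → ℕ → ℝ) → ℝ) (m : ℕ) (H : ℕ → ℕ → ℝ) :
    nest C (m + 1) H = C fun f c => nest C m fun f' c' => H (f + f') (c + c') := by rw [nest.eq_def]

/-- Value of `comp` at size one. -/
theorem comp_zero (p : ℕ) (H : ℕ → ℕ → ℝ) : comp p 0 H = H 1 0 := by rw [comp.eq_def]

/-- Value of `comp` at size `p ^ (k + 1)`. -/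
theorem comp_succ (p k : ℕ) (H : ℕ → ℕ → ℝ) : comp p (k + 1) H =
    nest (comp p k) p H + ((p - 1) * p ^ ((p ^ k - 1) / (p - 1)) : ℕ) * H 0 (p ^ k) := by
  rw [comp.eq_def]

/-- Class bound for a `2`-group of degree `n`. -/
def kTwo (n : ℕ) : ℕ := 5 ^ (n / 4) * [1, 1, 2, 2].getD (n % 4) 1

/-- Number of classes of elements with all primes in `S` and no fixed point in `M`. -/
noncomputable def numD {X : Type} (G : Subgroup (Perm X)) (S : Finset ℕ) (M : Set X) : ℕ :=
  Nat.card {c : ConjClasses G // ∃ g : G, ConjClasses.mk g = c ∧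
    (orderOf g).primeFactors ⊆ S ∧ ∀ m ∈ M, (g : Perm X) m ≠ m}

/-- A coset situation inside a `p`-group `P` of permutations supported on `S`. -/
structure Sit {X : Type} (p : ℕ) (S : Finset X) (P N : Subgroup (Perm X)) (x : Perm X) : Prop where
  pgroup : IsPGroup p P
  supp : ∀ g ∈ P, ∀ y, y ∉ S → g y = y
  le : N ≤ P
  mem : x ∈ P
  normal : ∀ n ∈ N, x * n * x⁻¹ ∈ N

/-- `C` bounds every transitive component of size `p ^ k`, for admissible weights. -/
def CompOK (p k : ℕ) (C : (ℕ → ℕ → ℝ) → ℝ) (Adm : (ℕ → ℕ → ℝ) → Prop) : Prop :=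
  ∀ (X : Type) [Fintype X] (S : Finset X) (P N : Subgroup (Perm X)) (x : Perm X),
    Sit p S P N x → (∀ a ∈ S, ∀ b ∈ S, ∃ g ∈ P, g a = b) → S.card = p ^ k →
    ∀ H, Adm H → os N x (fun u => H (fx S S u) (oc S S u)) ≤ C H

/-- Non-negative weights, monotone in the number of cycles. -/
def Mono (H : ℕ → ℕ → ℝ) : Prop :=
  (∀ f c, 0 ≤ H f c) ∧ ∀ f c c', c ≤ c' → H f c ≤ H f c'

/-- Component bound for product weights `A ^ f * B ^ c`, improved for `p = 3`, `k = 1`. -/
def rImp (p : ℕ) (A B : ℝ) : ℕ → ℝ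
  | 0 => A
  | k + 1 => rImp p A B k ^ p +
      (if p = 3 ∧ k = 1 then 0 else ((p - 1) * p ^ ((p ^ k - 1) / (p - 1)) : ℕ)) * B ^ (p ^ k)

/-- Value of `rImp` at zero. -/
theorem rImp_zero (p : ℕ) (A B : ℝ) : rImp p A B 0 = A := by rw [rImp.eq_def]

/-- Value of `rImp` at a successor. -/
theorem rImp_succ (p : ℕ) (A B : ℝ) (k : ℕ) : rImp p A B (k + 1) = rImp p A B k ^ p +
    (if p = 3 ∧ k = 1 then 0 else ((p - 1) * p ^ ((p ^ k - 1) / (p - 1)) : ℕ)) * B ^ (p ^ k) := by
  rw [rImp.eq_def]

end Cfsg.Agent.H61.PermTwo
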