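import Cfsg.Agent.H61.PermTwo.Basic

/-!
The orbit engine: a coset situation is bounded by peeling off transitive components.
-/

namespace Cfsg.Agent.H61.PermTwo

open Equiv

variable {X : Type} [Fintype X] [DecidableEq X]

/-- The orbit of `a` under `P`, as a finset. -/
noncomputable def orb (P : Subgroup (Perm X)) (a : X) : Finset X :=
  (Set.toFinite (MulAction.orbit P a)).toFinset

omit [DecidableEq X] in
theorem mem_orb {P : Subgroup (Perm X)} {a y : X} : y ∈ orb P a ↔ ∃ g ∈ P, g a = y := by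
  rw [orb, Set.Finite.mem_toFinset, MulAction.mem_orbit_iff]
  constructor
  · rintro ⟨g, rfl⟩; exact ⟨g, g.2, rfl⟩
  · rintro ⟨g, hg, rfl⟩; exact ⟨⟨g, hg⟩, rfl⟩

omit [DecidableEq X] in
theorem card_orb {p : ℕ} [Fact p.Prime] {P : Subgroup (Perm X)} (hP : IsPGroup p P) (a : X) :
    ∃ k, (orb P a).card = p ^ k := by
  obtain ⟨k, hk⟩ := hP.card_orbit a
  exact ⟨k, by rw [← hk, Nat.card_eq_card_finite_toFinset]; rfl⟩

omit [DecidableEq X] in
theorem orb_inv {P : Subgroup (Perm X)} {a : X} {g : Perm X} (hg : g ∈ P) (y : X) :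
    g y ∈ orb P a ↔ y ∈ orb P a := by
  simp only [mem_orb]
  constructor
  · rintro ⟨h, hh, he⟩
    exact ⟨g⁻¹ * h, P.mul_mem (P.inv_mem hg) hh, by rw [Perm.mul_apply, he]; simp⟩
  · rintro ⟨h, hh, rfl⟩
    exact ⟨g * h, P.mul_mem hg hh, rfl⟩

omit [Fintype X] [DecidableEq X] in
theorem apply_mem_of_supp {S : Finset X} {g : Perm X} (hg : ∀ y, y ∉ S → g y = y) {y : X}
    (hy : y ∈ S) : g y ∈ S := by
  by_contra h
  have h1 := g.injective (hg _ h)
  exact h (by rw [h1]; exact hy)

omit [DecidableEq X] in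
theorem fx_add_oc (M S : Finset X) (u : Perm X) : fx M S u + oc M S u = cyc S u := by
  have := fx_le_cyc M S u
  unfold oc
  omega

omit [DecidableEq X] in
theorem cyc_le_card (S : Finset X) (u : Perm X) : cyc S u ≤ S.card := by
  letI := Classical.decEq (Quotient (Perm.SameCycle.setoid u))
  unfold cyc
  exact Finset.card_image_le

/-- Peeling components: if `G` is closed under marked and free components up to total size `D`,
it bounds every situation of size at most `D`. -/
theorem engine {p : ℕ} [Fact p.Prime] (D : ℕ) (G : ℕ → ℕ → ℕ → ℕ → ℝ)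
    (hG : ∀ i j a b, 0 ≤ G i j a b)
    (hm : ∀ k i j a b, i + j + p ^ k + a + b ≤ D →
      ∀ (S : Finset X) (P N : Subgroup (Perm X)) (x : Perm X), Sit p S P N x →
      (∀ a' ∈ S, ∀ b' ∈ S, ∃ g ∈ P, g a' = b') → S.card = p ^ k →
      os N x (fun u => G (i + fx S S u) (j + oc S S u) a b) ≤ G i j (a + p ^ k) b)
    (hf : ∀ k i j a b, i + j + p ^ k + a + b ≤ D →
      ∀ (S : Finset X) (P N : Subgroup (Perm X)) (x : Perm X), Sit p S P N x →
      (∀ a' ∈ S, ∀ b' ∈ S, ∃ g ∈ P, g a' = b') → S.card = p ^ k →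
      os N x (fun u => G i (j + cyc S u) a b) ≤ G i j a (b + p ^ k))
    (M : Finset X) : ∀ (S : Finset X) (P N : Subgroup (Perm X)) (x : Perm X), Sit p S P N x →
      (∀ g ∈ P, ∀ m ∈ M, g m ∈ M) → ∀ i j, i + j + S.card ≤ D →
      os N x (fun u => G (i + fx M S u) (j + oc M S u) 0 0) ≤
        G i j (S ∩ M).card (S \ M).card := by
  intro S
  induction S using Finset.strongInduction with
  | H S ih =>
    intro P N x hs hM i j hD
    rcases S.eq_empty_or_nonempty with hS | ⟨a, ha⟩
    · subst hS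
      have h1 : ∀ g ∈ P, g = (1 : Perm X) := fun g hg => by
        ext y; exact hs.supp g hg y (Finset.notMem_empty y)
      rw [os_eq_of_subsingleton N x _ fun n hn => h1 n (hs.le hn)]
      simp [fx_empty, oc_empty]
    set S₁ := orb P a with hS₁
    have hsub : S₁ ⊆ S := by
      intro y hy
      obtain ⟨g, hg, rfl⟩ := mem_orb.mp hy
      exact apply_mem_of_supp (hs.supp g hg) ha
    have haS₁ : a ∈ S₁ := mem_orb.mpr ⟨1, P.one_mem, rfl⟩
    obtain ⟨k, hk⟩ := card_orb hs.pgroup a
    have hinv : ∀ g ∈ P, ∀ y, g y ∈ S₁ ↔ y ∈ S₁ := fun g hg y => orb_inv hg y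
    set a₂ := ((S \ S₁) ∩ M).card with ha₂
    set b₂ := ((S \ S₁) \ M).card with hb₂
    have hcard : (S \ S₁).card + p ^ k = S.card := by
      rw [← hk, Finset.card_sdiff_add_card_eq_card hsub]
    have hab : a₂ + b₂ = (S \ S₁).card := Finset.card_inter_add_card_sdiff _ _
    have hd : Disjoint S₁ (S \ S₁) := Finset.disjoint_sdiff
    have hun : S₁ ∪ (S \ S₁) = S := Finset.union_sdiff_of_subset hsub
    have hssub : S \ S₁ ⊂ S := by
      refine Finset.sdiff_ssubset hsub ⟨a, haS₁⟩
    let Φ : Perm X → ℝ := fun r => G (i + fx M S₁ r) (j + oc M S₁ r) a₂ b₂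
    obtain ⟨P₁, N₁, x₁, hs₁, hup, -, hle⟩ := os_split hs hsub hinv
      (fun u => G (i + fx M S u) (j + oc M S u) 0 0) Φ (fun n _ => hG _ _ _ _) (by
        intro y hy P₂ N₂ y₂ hs₂ hP₂
        set r := resS S₁ y with hr
        have hrS : ∀ z ∈ S₁, r z ∈ S₁ := fun z hz => by
          rw [hr, resS_apply_mem (hinv y hy) hz]
          exact (hinv y hy z).mpr hz
        have hrfix : ∀ z ∈ S \ S₁, r z = z := fun z hz =>
          resS_supp S₁ y (Finset.mem_sdiff.mp hz).2
        have e : ∀ n ∈ N₂, G (i + fx M S (r * (y₂ * n))) (j + oc M S (r * (y₂ * n))) 0 0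
            = G ((i + fx M S₁ r) + fx M (S \ S₁) (y₂ * n))
              ((j + oc M S₁ r) + oc M (S \ S₁) (y₂ * n)) 0 0 := by
          intro n hn
          have hz : y₂ * n ∈ P₂ := P₂.mul_mem hs₂.mem (hs₂.le hn)
          have hzfix : ∀ z ∈ S₁, (y₂ * n) z = z := fun z hz' =>
            hs₂.supp _ hz z fun h => (Finset.mem_sdiff.mp h).2 hz'
          have hzS : ∀ z ∈ S \ S₁, (y₂ * n) z ∈ S \ S₁ := fun z hz' =>
            apply_mem_of_supp (hs₂.supp _ hz) hz'
          have hprod : ∀ z ∈ S₁, (r * (y₂ * n)) z ∈ S₁ := fun z hz' => by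
            rw [Perm.mul_apply, hzfix z hz']; exact hrS z hz'
          have e1 := stat_mul_right (M := M) hrS hzfix
          have e2 := stat_mul_left (M := M) hzS hrfix
          have f1 := fx_union (M := M) hd (r * (y₂ * n))
          have f2 := oc_union (M := M) hd hprod
          rw [hun, e1.1, e2.1] at f1
          rw [hun, e1.2, e2.2] at f2
          rw [f1, f2, ← add_assoc, ← add_assoc]
        rw [os_congr N₂ y₂ _
          (fun w => G (i + fx M S₁ r + fx M (S \ S₁) w) (j + oc M S₁ r + oc M (S \ S₁) w) 0 0) e]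
        refine ih _ hssub P₂ N₂ y₂ hs₂ ?_ _ _ ?_
        · intro g hg m hm'
          by_cases hmS : m ∈ S \ S₁
          · obtain ⟨g', hg', he⟩ := hP₂ g hg
            rw [he m hmS]
            exact hM g' hg' m hm'
          · rw [hs₂.supp g hg m hmS]
            exact hm'
        · have := fx_add_oc M S₁ r
          have := cyc_le_card S₁ r
          rw [hk] at this
          omega)
    refine le_trans hle ?_
    have htrans : ∀ a' ∈ S₁, ∀ b' ∈ S₁, ∃ g ∈ P₁, g a' = b' := by
      intro a' ha' b' hb'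
      obtain ⟨g, hg, rfl⟩ := mem_orb.mp ha'
      obtain ⟨g', hg', rfl⟩ := mem_orb.mp hb'
      obtain ⟨h, hh, he⟩ := hup (g' * g⁻¹) (P.mul_mem hg' (P.inv_mem hg))
      refine ⟨h, hh, ?_⟩
      rw [he _ ha', Perm.mul_apply]
      simp
    by_cases haM : a ∈ M
    · have hS₁M : S₁ ⊆ M := by
        intro y hy
        obtain ⟨g, hg, rfl⟩ := mem_orb.mp hy
        exact hM g hg a haM
      have h1 : (S ∩ M).card = a₂ + p ^ k := by
        rw [ha₂, ← hk, ← Finset.card_union_of_disjoint
          (hd.symm.mono_left Finset.inter_subset_left)]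
        congr 1
        ext y
        simp only [Finset.mem_inter, Finset.mem_union, Finset.mem_sdiff]
        have := @hS₁M y
        have := @hsub y
        tauto
      have h2 : (S \ M).card = b₂ := by
        rw [hb₂]
        congr 1
        ext y
        simp only [Finset.mem_sdiff]
        have := @hS₁M y
        tauto
      rw [h1, h2]
      refine le_trans (le_of_eq (os_congr N₁ x₁ _ _ fun n _ => ?_))
        (hm k i j a₂ b₂ (by omega) S₁ P₁ N₁ x₁ hs₁ htrans hk)
      have hfx : fx M S₁ (x₁ * n) = fx S₁ S₁ (x₁ * n) :=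
        fx_inter (fun y hy => ⟨fun _ => hy, fun _ => hS₁M hy⟩) _
      simp only [Φ, oc, hfx]
    · have hS₁M : ∀ y ∈ S₁, y ∉ M := by
        intro y hy hyM
        obtain ⟨g, hg, rfl⟩ := mem_orb.mp hy
        have := hM g⁻¹ (P.inv_mem hg) _ hyM
        simp at this
        exact haM this
      have h1 : (S ∩ M).card = a₂ := by
        rw [ha₂]
        congr 1
        ext y
        simp only [Finset.mem_inter, Finset.mem_sdiff]
        have := hS₁M y
        tauto
      have h2 : (S \ M).card = b₂ + p ^ k := by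
        rw [hb₂, ← hk, ← Finset.card_union_of_disjoint
          (hd.symm.mono_left Finset.sdiff_subset)]
        congr 1
        ext y
        simp only [Finset.mem_union, Finset.mem_sdiff]
        have := hS₁M y
        have := @hsub y
        tauto
      rw [h1, h2]
      refine le_trans (le_of_eq (os_congr N₁ x₁ _ _ fun n _ => ?_))
        (hf k i j a₂ b₂ (by omega) S₁ P₁ N₁ x₁ hs₁ htrans hk)
      simp [Φ, oc, fx_eq_zero_of_disjoint hS₁M]

/-- The engine on the whole space, from the trivial coset. -/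
theorem engine_univ {p : ℕ} [Fact p.Prime] (D : ℕ) (G : ℕ → ℕ → ℕ → ℕ → ℝ)
    (hG : ∀ i j a b, 0 ≤ G i j a b)
    (hm : ∀ k i j a b, i + j + p ^ k + a + b ≤ D →
      ∀ (S : Finset X) (P N : Subgroup (Perm X)) (x : Perm X), Sit p S P N x →
      (∀ a' ∈ S, ∀ b' ∈ S, ∃ g ∈ P, g a' = b') → S.card = p ^ k →
      os N x (fun u => G (i + fx S S u) (j + oc S S u) a b) ≤ G i j (a + p ^ k) b)
    (hf : ∀ k i j a b, i + j + p ^ k + a + b ≤ D →
      ∀ (S : Finset X) (P N : Subgroup (Perm X)) (x : Perm X), Sit p S P N x →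
      (∀ a' ∈ S, ∀ b' ∈ S, ∃ g ∈ P, g a' = b') → S.card = p ^ k →
      os N x (fun u => G i (j + cyc S u) a b) ≤ G i j a (b + p ^ k))
    (M : Finset X) (P : Subgroup (Perm X)) (hP : IsPGroup p P)
    (hM : ∀ g ∈ P, ∀ m ∈ M, g m ∈ M) (hcard : Fintype.card X ≤ D) :
    os P 1 (fun u => G (fx M Finset.univ u) (oc M Finset.univ u) 0 0) ≤
      G 0 0 M.card (Fintype.card X - M.card) := by
  have hs : Sit p Finset.univ P P 1 :=
    ⟨hP, fun g _ y hy => absurd (Finset.mem_univ y) hy, le_rfl, P.one_mem, fun n hn => by simpa⟩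
  have h := engine D G hG hm hf M Finset.univ P P 1 hs hM 0 0 (by simpa using hcard)
  simp only [Finset.univ_inter, ← Finset.compl_eq_univ_sdiff, Finset.card_compl, zero_add] at h
  exact h

end Cfsg.Agent.H61.PermTwo
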