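import Cfsg.Agent.H61.PermTwo.Step
import Cfsg.Agent.H61.PermTwo.Steps
import Cfsg.Agent.H61.PermTwo.SmallTab
import Mathlib.Tactic.NormNum.Prime

/-!
Derangement classes of permutation groups of degree at most 8 (S4197).
-/

namespace Cfsg.Agent.H61.PermTwo

open Equiv

/-- `g` bounds the classes with primes in `S` in degree at most 8. -/
def BoundSmall (S : Finset ℕ) (g : ℕ → ℕ → ℕ) : Prop :=
  ∀ (Y : Type) [Fintype Y] (H : Subgroup (Perm Y)) (L : Finset Y), Fintype.card Y ≤ 8 →
    (∀ h ∈ H, ∀ m ∈ L, h m ∈ L) → (numD H S ↑L : ℝ) ≤ (g L.card (Fintype.card Y - L.card) : ℝ)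

theorem nest_comp_zero (p m : ℕ) (H : ℕ → ℕ → ℝ) : nest (comp p 0) m H = H m 0 := by
  induction m generalizing H with
  | zero => rfl
  | succ m ih =>
    show nest (comp p 0) m (fun f' c' => H (1 + f') (0 + c')) = H (m + 1) 0
    rw [ih, Nat.add_comm 1 m, Nat.add_zero]

theorem comp_one (p : ℕ) (H : ℕ → ℕ → ℝ) :
    comp p 1 H = H p 0 + ((p - 1 : ℕ) : ℝ) * H 0 1 := by
  show nest (comp p 0) p H + (((p - 1) * p ^ ((p ^ 0 - 1) / (p - 1)) : ℕ) : ℝ) * H 0 (p ^ 0) = _
  rw [nest_comp_zero]
  simp

theorem closedTwo_small (k a : ℕ) (hk : 1 ≤ k) (h : 2 ^ k + a ≤ 8) :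
    comp 2 k (fun f _ => if f = 0 then (faSmall a : ℝ) else 0) ≤ (faSmall (a + 2 ^ k) : ℝ) := by
  have hk3 : k ≤ 3 := by
    by_contra hc
    have : 2 ^ 4 ≤ 2 ^ k := Nat.pow_le_pow_right (by omega) (by omega)
    omega
  interval_cases k
  · have H : ∀ a < 7, faSmall a ≤ faSmall (a + 2) := by decide
    rw [comp_one]
    simpa using H a (by omega)
  · have H : ∀ a < 5, 3 * faSmall a ≤ faSmall (a + 4) := by decide
    have h' : (3 : ℝ) * faSmall a ≤ faSmall (a + 4) := by exact_mod_cast H a (by omega)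
    simp [comp, nest]
    linarith
  · obtain rfl : a = 0 := by omega
    simp [comp, nest, faSmall]
    norm_num

theorem stage_small (p : ℕ) [Fact p.Prime] (hp : 3 ≤ p) (S : Finset ℕ) (Fp : ℕ → ℕ → ℕ)
    (t : List (List (List (List ℕ)))) (hinit : ∀ i j, look t i j 0 0 = Fp i j)
    (hcl : ClosedSmall p (look t)) (hb : BoundSmall S Fp) :
    BoundSmall (insert p S) (look t 0 0) := by
  intro Y _ H L hY hL
  classical
  obtain ⟨P⟩ : Nonempty (Sylow p H) := inferInstance
  refine (numD_insert_le H L hL S p P (fun f c => (Fp f c : ℝ))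
    fun Z _ K M hZ hM => hb Z K M (hZ.trans hY) hM).trans ?_
  have hk : ∀ k n, p ^ k + n ≤ 8 → k = 0 ∨ k = 1 := by
    intro k n hkn
    by_contra hc
    have h2 : p ^ 2 ≤ p ^ k := Nat.pow_le_pow_right (by omega) (by omega)
    have h9 : 3 ^ 2 ≤ p ^ 2 := Nat.pow_le_pow_left hp 2
    omega
  have key := step_small (p := p) 8 (fun i j a b => (look t i j a b : ℝ))
    (fun i j a b => Nat.cast_nonneg _)
    (fun i j j' a b hj => Nat.cast_le.2 (look_mono hcl i j j' a b hj))
    (fun k i j a b hs => by
      rcases hk k (i + j + a + b) (by omega) with rfl | rfl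
      · rw [pow_zero] at hs ⊢
        show (look t (i + 1) (j + 0) a b : ℝ) ≤ (look t i j (a + 1) b : ℝ)
        exact_mod_cast ((hcl i (by omega) j (by omega) a (by omega) b (by omega)).1 (by omega)).1
      · rw [pow_one] at hs ⊢
        rw [comp_one]
        simp only [Nat.add_zero]
        exact_mod_cast ((hcl i (by omega) j (by omega) a (by omega) b (by omega)).2.1 (by omega)).1)
    (fun k i j a b hs => by
      rcases hk k (i + j + a + b) (by omega) with rfl | rfl
      · rw [pow_zero] at hs ⊢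
        show (look t i (j + 1 + 0) a b : ℝ) ≤ (look t i j a (b + 1) : ℝ)
        exact_mod_cast ((hcl i (by omega) j (by omega) a (by omega) b (by omega)).1 (by omega)).2.1
      · rw [pow_one] at hs ⊢
        rw [comp_one]
        simp only [Nat.add_zero]
        exact_mod_cast ((hcl i (by omega) j (by omega) a (by omega) b (by omega)).2.1 (by omega)).2)
    L ((P : Subgroup H).map H.subtype) (P.2.map H.subtype)
    (fun g hg => by
      obtain ⟨g', -, rfl⟩ := Subgroup.mem_map.1 hg
      exact hL g' g'.2)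
    hY
  simpa only [hinit] using key

theorem boundSmall_two : BoundSmall {2} gTwo := by
  intro Y _ H L hY hL
  classical
  have : Fact (Nat.Prime 2) := ⟨Nat.prime_two⟩
  obtain ⟨P⟩ : Nonempty (Sylow 2 H) := inferInstance
  have h1 : (numD H (insert 2 ∅) ↑L : ℝ) ≤ os ((P : Subgroup H).map H.subtype) 1
      (fun u => if fx L Finset.univ u = 0 then 1 else 0) := by
    refine numD_insert_le H L hL ∅ 2 P (fun f _ => if f = 0 then 1 else 0) ?_
    intro Z _ K M _ _
    split_ifs with h
    · exact_mod_cast numD_empty_le K _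
    · rw [numD_empty_eq_zero K _ (by simpa using Finset.card_ne_zero.1 h)]
      simp
  refine le_trans (by simpa using h1) ((step_two (fun a => (faSmall a : ℝ))
    (fun a => Nat.cast_nonneg _) (by simp [faSmall]) 8
    (fun k a hk hs => closedTwo_small k a hk hs) L _ (P.2.map H.subtype)
    (fun g hg => by
      obtain ⟨g', -, rfl⟩ := Subgroup.mem_map.1 hg
      exact hL g' g'.2)
    hY).trans ?_)
  have hc : L.card ≤ Fintype.card Y := Finset.card_le_univ L
  unfold gTwo
  rw [if_pos (by omega)]
  simp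

theorem boundSmall_seven : BoundSmall {7, 5, 3, 2} (gSeven 0 0) := by
  have : Fact (Nat.Prime 3) := ⟨Nat.prime_three⟩
  have : Fact (Nat.Prime 5) := ⟨by norm_num⟩
  have : Fact (Nat.Prime 7) := ⟨by norm_num⟩
  exact stage_small 7 (by omega) _ _ _ gSeven_init closedSmall_seven
    (stage_small 5 (by omega) _ _ _ gFive_init closedSmall_five
      (stage_small 3 (by omega) _ _ _ gThree_init closedSmall_three boundSmall_two))

theorem numD_mono_small {X : Type} [Finite X] (G : Subgroup (Perm X)) {S T : Finset ℕ} (h : S ⊆ T)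
    (M : Set X) : numD G S M ≤ numD G T M := by
  refine Finite.card_le_of_embedding (Subtype.impEmbedding _ _ fun c hc => ?_)
  obtain ⟨g, hg, hS, hM⟩ := hc
  exact ⟨g, hg, hS.trans h, hM⟩

theorem numD_le_small {X : Type} [Fintype X] (G : Subgroup (Perm X)) (h : Fintype.card X ≤ 8) :
    (numD G ((Finset.range (Fintype.card X + 1)).filter Nat.Prime) Set.univ : ℝ) ≤
      Dsmall (Fintype.card X) := by
  classical
  have hsub : (Finset.range (Fintype.card X + 1)).filter Nat.Prime ⊆ ({7, 5, 3, 2} : Finset ℕ) := by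
    intro q hq
    obtain ⟨hr, hp⟩ := Finset.mem_filter.1 hq
    have hr' := Finset.mem_range.1 hr
    have h9 : q < 9 := by omega
    interval_cases q <;> first | decide | (norm_num at hp)
  have hb := boundSmall_seven X G Finset.univ h (fun _ _ _ _ => Finset.mem_univ _)
  rw [Finset.coe_univ, Finset.card_univ, Nat.sub_self] at hb
  exact le_trans (by exact_mod_cast numD_mono_small G hsub Set.univ) hb

end Cfsg.Agent.H61.PermTwo
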