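import Cfsg.Agent.H61.PermTwo.Defs
import Cfsg.Agent.H91.PermClasses.Main

/-!
The prime step for classes without marked fixed points (S4197).
-/

namespace Cfsg.Agent.H61.PermTwo

open Equiv
open Cfsg.Agent.H91.PermClasses (cycleAction cycleAction_self isPGroup_ker)

/-- The class equation for a class function. -/
theorem sum_mul_cent_eq {Q : Type} [Group Q] [Fintype Q] [Fintype (ConjClasses Q)] (f : Q → ℝ)
    (hf : ∀ a b : Q, IsConj a b → f a = f b) :
    ∑ q : Q, f q * (Nat.card {m : Q // m * q = q * m} : ℝ) =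
      (Nat.card Q : ℝ) * ∑ C : ConjClasses Q, f C.out := by
  classical
  rw [← Finset.sum_fiberwise Finset.univ ConjClasses.mk, Finset.mul_sum]
  refine Finset.sum_congr rfl fun C _ => ?_
  have hout : ConjClasses.mk (Quotient.out C) = C := Quotient.out_eq C
  have hcard : (Finset.univ.filter fun q : Q => ConjClasses.mk q = C).card = Nat.card C.carrier := by
    rw [Nat.card_eq_fintype_card, ← Set.toFinset_card]
    congr 1
    ext q
    simp [ConjClasses.mem_carrier_iff_mk_eq]
  have hterm : ∀ q ∈ Finset.univ.filter (fun q : Q => ConjClasses.mk q = C),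
      f q * (Nat.card {m : Q // m * q = q * m} : ℝ) * (Nat.card C.carrier : ℝ) =
        f C.out * (Nat.card Q : ℝ) := by
    intro q hq
    have hq' : ConjClasses.mk q = C := (Finset.mem_filter.1 hq).2
    have h1 : Nat.card {m : Q // m * q = q * m} =
        Nat.card (MulAction.stabilizer (ConjAct Q) q) := by
      refine Nat.card_congr (Equiv.subtypeEquiv ConjAct.toConjAct.toEquiv fun m => ?_)
      rw [MulAction.mem_stabilizer_iff, MulEquiv.toEquiv_eq_coe, MulEquiv.coe_toEquiv,
        ConjAct.toConjAct_smul, mul_inv_eq_iff_eq_mul]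
    have h2 : Nat.card (MulAction.stabilizer (ConjAct Q) q) * Nat.card C.carrier = Nat.card Q := by
      rw [← hq', ← ConjAct.orbit_eq_carrier_conjClasses, Nat.card_coe_set_eq,
        ← MulAction.index_stabilizer, Subgroup.card_mul_index]
      exact Nat.card_congr ConjAct.ofConjAct.toEquiv
    rw [h1, hf q C.out (ConjClasses.mk_eq_mk_iff_isConj.1 (hq'.trans hout.symm)), mul_assoc,
      ← Nat.cast_mul, h2]
  have hpos : (Nat.card C.carrier : ℝ) ≠ 0 := by
    haveI : Nonempty C.carrier := ⟨⟨C.out, ConjClasses.mem_carrier_iff_mk_eq.2 hout⟩⟩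
    exact_mod_cast Nat.card_pos.ne'
  apply mul_right_cancel₀ hpos
  rw [Finset.sum_mul, Finset.sum_congr rfl hterm, Finset.sum_const, hcard, nsmul_eq_mul]
  ring

theorem cyc_univ {X : Type} [Fintype X] (u : Perm X) :
    cyc Finset.univ u = Nat.card (Quotient (Perm.SameCycle.setoid u)) := by
  classical
  haveI : Fintype (Quotient (Perm.SameCycle.setoid u)) := Fintype.ofFinite _
  rw [Nat.card_eq_fintype_card]
  unfold cyc
  rw [← Finset.card_univ]
  congr 1
  ext q
  obtain ⟨y, rfl⟩ := Quotient.exists_rep q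
  simpa using ⟨y, rfl⟩

theorem numD_empty_le {X : Type} [Finite X] (G : Subgroup (Perm X)) (M : Set X) :
    numD G ∅ M ≤ 1 := by
  unfold numD
  rw [Finite.card_le_one_iff_subsingleton]
  constructor
  rintro ⟨a, g, rfl, hg, -⟩ ⟨b, h, rfl, hh, -⟩
  apply Subtype.ext
  show ConjClasses.mk g = ConjClasses.mk h
  rw [H91.PermClasses.eq_of_orderOf_primeFactors_empty hg,
    H91.PermClasses.eq_of_orderOf_primeFactors_empty hh]

theorem numD_empty_eq_zero {X : Type} [Finite X] (G : Subgroup (Perm X)) (M : Set X)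
    (hM : M.Nonempty) : numD G ∅ M = 0 := by
  obtain ⟨m, hm⟩ := hM
  unfold numD
  refine Nat.card_eq_zero.2 (Or.inl ⟨?_⟩)
  rintro ⟨c, g, -, hg, hfree⟩
  exact hfree m hm (by rw [H91.PermClasses.eq_of_orderOf_primeFactors_empty hg]; rfl)

set_option maxHeartbeats 1000000 in
/-- Adding the prime `p`. -/
theorem numD_insert_le {X : Type} [Fintype X] [DecidableEq X] (G : Subgroup (Perm X)) (M : Finset X)
    (hM : ∀ g ∈ G, ∀ m ∈ M, g m ∈ M) (S : Finset ℕ) (p : ℕ) [hp : Fact p.Prime] (P : Sylow p G)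
    (F : ℕ → ℕ → ℝ)
    (hF : ∀ (Y : Type) [Fintype Y] (H : Subgroup (Perm Y)) (L : Finset Y),
      Fintype.card Y ≤ Fintype.card X → (∀ g ∈ H, ∀ m ∈ L, g m ∈ L) →
        (numD H S ↑L : ℝ) ≤ F L.card (Fintype.card Y - L.card)) :
    (numD G (insert p S) ↑M : ℝ) ≤
      os ((P : Subgroup G).map G.subtype) 1
        (fun u => F (fx M Finset.univ u) (oc M Finset.univ u)) := by
  classical
  haveI : Fintype (P : Subgroup G) := Fintype.ofFinite _
  haveI : Fintype (ConjClasses (P : Subgroup G)) := Fintype.ofFinite _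
  let N := Nat.card G
  have hN0 : N ≠ 0 := Nat.card_pos.ne'
  have hco : (p ^ N.factorization p).Coprime (N / p ^ N.factorization p) :=
    Nat.Coprime.pow_left _ (Nat.coprime_ordCompl hp.out hN0)
  obtain ⟨e, he1, he0⟩ := Nat.chineseRemainder hco 1 0
  have hordN : p ^ N.factorization p * (N / p ^ N.factorization p) = N := Nat.ordProj_mul_ordCompl_eq_self N p
  -- `g ^ e` is the `p`-part of `g`
  have hpart : ∀ g : G, (g ^ e) ^ p ^ N.factorization p = 1 := by
    intro g
    obtain ⟨t, ht⟩ := Nat.modEq_zero_iff_dvd.1 he0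
    rw [← pow_mul, ht, mul_comm (_ * t), ← mul_assoc, hordN, pow_mul, pow_card_eq_one', one_pow]
  have hpg : ∀ g : G, IsPGroup p (Subgroup.zpowers (g ^ e)) := by
    intro g
    obtain ⟨i, _, hi⟩ := (Nat.dvd_prime_pow hp.out).1 (orderOf_dvd_of_pow_eq_one (hpart g))
    exact IsPGroup.of_card (n := i) (by rw [Nat.card_zpowers, hi])
  have hpres : ∀ c : {c : ConjClasses G // ∃ g, ConjClasses.mk g = c ∧
      (orderOf g).primeFactors ⊆ insert p S ∧ ∀ m ∈ (M : Set X), (g : Perm X) m ≠ m},
      ∃ (g : G) (C : ConjClasses (P : Subgroup G)), ConjClasses.mk g = c.1 ∧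
        (orderOf g).primeFactors ⊆ insert p S ∧ (∀ m ∈ (M : Set X), (g : Perm X) m ≠ m) ∧
        g ^ e = (C.out : G) := by
    rintro ⟨c, g, rfl, hg, hfree⟩
    obtain ⟨Q, hQ⟩ := (hpg g).exists_le_sylow
    obtain ⟨x, hx⟩ := MulAction.exists_smul_eq G Q P
    have hmem : (x * g * x⁻¹) ^ e ∈ (P : Subgroup G) := by
      rw [conj_pow, ← hx]
      exact ⟨g ^ e, hQ (Subgroup.mem_zpowers _), rfl⟩
    let C : ConjClasses (P : Subgroup G) := ConjClasses.mk ⟨_, hmem⟩
    obtain ⟨q, hq⟩ := isConj_iff.1 (ConjClasses.mk_eq_mk_iff_isConj.1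
      (show ConjClasses.mk ⟨_, hmem⟩ = ConjClasses.mk C.out from (Quotient.out_eq C).symm))
    refine ⟨((q : G) * x) * g * ((q : G) * x)⁻¹, C, ?_, ?_, ?_, ?_⟩
    · exact ConjClasses.mk_eq_mk_iff_isConj.2
        (IsConj.symm (isConj_iff.2 ⟨(q : G) * x, rfl⟩))
    · rwa [show ((q : G) * x) * g * ((q : G) * x)⁻¹ = MulAut.conj ((q : G) * x) g from rfl,
        MulEquiv.orderOf_eq]
    · intro m hm h
      have hm' := hM _ (((q : G) * x)⁻¹).2 m hm
      refine hfree _ hm' (((((q : G) * x) : G) : Perm X).injective ?_)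
      rw [Subgroup.coe_mul, Subgroup.coe_mul, Perm.mul_apply, Perm.mul_apply] at h
      rw [h]
      exact ((((q : G) * x) : G) : Perm X).apply_symm_apply m |>.symm
    · rw [← hq, conj_pow]
      simp only [Subgroup.coe_mul, Subgroup.coe_inv, conj_pow]
      group
  choose rep cls hrep using hpres
  have hmem : ∀ c, rep c ∈ Subgroup.centralizer ({((cls c).out : G)} : Set G) := fun c => by
    rw [← (hrep c).2.2.2]
    exact Subgroup.mem_centralizer_singleton_iff.2 ((Commute.refl (rep c)).pow_right e).eq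
  have himg : ∀ (u : G) (g : G) (hg : g ∈ Subgroup.centralizer ({u} : Set G)), g ^ e = u →
      (orderOf g).primeFactors ⊆ insert p S →
      (orderOf ((cycleAction u).rangeRestrict ⟨g, hg⟩)).primeFactors ⊆ S := by
    intro u g hg hgu hgS q hq
    have hd1 : orderOf ((cycleAction u).rangeRestrict ⟨g, hg⟩) ∣ orderOf g := by
      refine orderOf_dvd_of_pow_eq_one ?_
      rw [← map_pow]
      have : (⟨g, hg⟩ : Subgroup.centralizer ({u} : Set G)) ^ orderOf g = 1 :=
        Subtype.ext (by simp [pow_orderOf_eq_one])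
      rw [this, map_one]
    have hd2 : orderOf ((cycleAction u).rangeRestrict ⟨g, hg⟩) ∣ e := by
      refine orderOf_dvd_of_pow_eq_one ?_
      rw [← map_pow]
      apply Subtype.ext
      have : (⟨g, hg⟩ : Subgroup.centralizer ({u} : Set G)) ^ e =
          ⟨u, Subgroup.mem_centralizer_singleton_iff.2 rfl⟩ := Subtype.ext (by simpa using hgu)
      rw [this]
      exact cycleAction_self u _
    obtain ⟨hqp, hqd, -⟩ := Nat.mem_primeFactors.1 hq
    have hqS := hgS (Nat.mem_primeFactors.2 ⟨hqp, hqd.trans hd1, (orderOf_pos g).ne'⟩)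
    rcases Finset.mem_insert.1 hqS with h | h
    · exfalso
      subst h
      have hqN : q ∣ N := (hqd.trans hd1).trans (orderOf_dvd_natCard g)
      have h1 : q ∣ q ^ N.factorization q :=
        dvd_pow_self q (hp.out.factorization_pos_of_dvd hN0 hqN).ne'
      have h2 : 1 ≡ 0 [MOD q] :=
        ((he1.of_dvd h1).symm).trans (Nat.modEq_zero_iff_dvd.2 (hqd.trans hd2))
      exact hp.out.not_dvd_one (Nat.modEq_zero_iff_dvd.1 h2)
    · exact h
  have key : ∀ (u g g' : G) (hg : g ∈ Subgroup.centralizer ({u} : Set G))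
      (hg' : g' ∈ Subgroup.centralizer ({u} : Set G)), g ^ e = u → g' ^ e = u →
      IsConj ((cycleAction u).rangeRestrict ⟨g, hg⟩) ((cycleAction u).rangeRestrict ⟨g', hg'⟩) →
      IsConj g g' := by
    intro u g g' hg hg' hgu hgu' h
    obtain ⟨z, hz⟩ := isConj_iff.1 h
    obtain ⟨w, rfl⟩ := (cycleAction u).rangeRestrict_surjective z
    have hz' : cycleAction u (w * ⟨g, hg⟩ * w⁻¹) = cycleAction u ⟨g', hg'⟩ := by
      rw [map_mul, map_mul, map_inv]
      exact congrArg Subtype.val hz
    -- work in the centraliser `C` with kernel `K`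
    let a : Subgroup.centralizer ({u} : Set G) := w * ⟨g, hg⟩ * w⁻¹
    let b : Subgroup.centralizer ({u} : Set G) := ⟨g', hg'⟩
    let uC : Subgroup.centralizer ({u} : Set G) := ⟨u, Subgroup.mem_centralizer_singleton_iff.2 rfl⟩
    have huc : ∀ c : Subgroup.centralizer ({u} : Set G), Commute uC c := fun c =>
      Subtype.ext (Subgroup.mem_centralizer_singleton_iff.1 c.2).symm
    have hae : a ^ e = uC := by
      show (w * ⟨g, hg⟩ * w⁻¹) ^ e = uC
      rw [conj_pow, show (⟨g, hg⟩ : Subgroup.centralizer ({u} : Set G)) ^ e = uC from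
        Subtype.ext (by simpa using hgu), ← (huc w).eq, mul_inv_cancel_right]
    have hbe : b ^ e = uC := Subtype.ext (by simpa [b, uC] using hgu')
    have hab : cycleAction u a = cycleAction u b := hz'
    have hu1 : cycleAction u uC = 1 := cycleAction_self u _
    -- `y := uC⁻¹ * a` and `y' := uC⁻¹ * b` are the `p'`-parts
    have hy : ∀ c : Subgroup.centralizer ({u} : Set G), c ^ e = uC →
        (uC⁻¹ * c) ^ (N / p ^ N.factorization p) = 1 := by
      intro c hc
      rw [← hc, ← zpow_natCast c e, ← zpow_neg, ← zpow_add_one, ← zpow_natCast, ← zpow_mul]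
      apply orderOf_dvd_iff_zpow_eq_one.1
      have h1 : (orderOf c : ℤ) ∣ N := by
        rw [← Subgroup.orderOf_coe]
        exact_mod_cast orderOf_dvd_natCard (c : G)
      refine h1.trans ?_
      rw [show (N : ℤ) = ((p ^ N.factorization p * (N / p ^ N.factorization p) : ℕ) : ℤ) by rw [hordN],
        Nat.cast_mul]
      refine mul_dvd_mul ?_ dvd_rfl
      have := Nat.modEq_iff_dvd.1 he1
      push_cast at this
      simpa [add_comm, sub_eq_add_neg] using this
    obtain ⟨i, hi⟩ := IsPGroup.iff_card.1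
      (isPGroup_ker u (j := N.factorization p) (hgu ▸ hpart g))
    obtain ⟨z, -, hz⟩ := Cfsg.Agent.H56.exists_conj_of_coset_of_coprime
      (N / p ^ N.factorization p) (cycleAction u).ker (uC⁻¹ * b) (uC⁻¹ * a)
      (by rw [Subgroup.normalizer_eq_top]; trivial)
      (hy b hbe) (hy a hae)
      (by
        show cycleAction u ((uC⁻¹ * a) * (uC⁻¹ * b)⁻¹) = 1
        rw [map_mul, map_mul (cycleAction u) _ a, map_inv (cycleAction u) (uC⁻¹ * b),
          map_mul (cycleAction u) _ b, map_inv, hu1, hab]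
        simp)
      (by rw [hi]; exact (Nat.Coprime.pow_left _ (Nat.coprime_ordCompl hp.out hN0)).symm)
    have hz2 : z * a * z⁻¹ = b := by
      have h1 : uC * (z * (uC⁻¹ * a) * z⁻¹) = z * a * z⁻¹ := by
        rw [← mul_assoc uC, ← mul_assoc uC, (huc z).eq]; group
      rw [← h1, hz, mul_inv_cancel_left]
    refine isConj_iff.2 ⟨((z * w : Subgroup.centralizer ({u} : Set G)) : G), ?_⟩
    have := congrArg Subtype.val hz2
    simp only [a, b, Subgroup.coe_mul, Subgroup.coe_inv] at this
    rw [Subgroup.coe_mul, mul_inv_rev, ← this]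
    group
  -- the marked cycles
  let L : ∀ u : G, Finset (Quotient (Perm.SameCycle.setoid (u : Perm X))) := fun u =>
    (M.filter fun m => (u : Perm X) m = m).image (Quotient.mk _)
  have hfreeimg : ∀ (u g : G) (hg : g ∈ Subgroup.centralizer ({u} : Set G)),
      (∀ m ∈ (M : Set X), (g : Perm X) m ≠ m) →
      ∀ q ∈ (L u : Set _), (cycleAction u ⟨g, hg⟩) q ≠ q := by
    intro u g hg hfree q hq h
    obtain ⟨m, hm, rfl⟩ := Finset.mem_image.1 (Finset.mem_coe.1 hq)
    obtain ⟨hmM, hum⟩ := Finset.mem_filter.1 hm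
    have h' : Perm.SameCycle (u : Perm X) ((g : Perm X) m) m := Quotient.exact h
    obtain ⟨i, hi⟩ := h'.symm
    rw [Perm.zpow_apply_eq_self_of_apply_eq_self hum] at hi
    exact hfree m (Finset.mem_coe.2 hmM) hi.symm
  have hinv : ∀ (u : G), ∀ a ∈ (cycleAction u).range, ∀ q ∈ L u, a q ∈ L u := by
    rintro u _ ⟨w, rfl⟩ q hq
    obtain ⟨m, hm, rfl⟩ := Finset.mem_image.1 hq
    obtain ⟨hmM, hum⟩ := Finset.mem_filter.1 hm
    refine Finset.mem_image.2 ⟨((w : G) : Perm X) m,
      Finset.mem_filter.2 ⟨hM _ (w : G).2 m hmM, ?_⟩, rfl⟩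
    have hw := congrArg (fun z : G => (z : Perm X) m)
      (Subgroup.mem_centralizer_singleton_iff.1 w.2)
    simp only [Subgroup.coe_mul, Perm.mul_apply] at hw
    rw [hum] at hw
    exact hw.symm
  let T : ConjClasses (P : Subgroup G) → Type := fun C =>
    {c : ConjClasses (cycleAction (C.out : G)).range // ∃ g, ConjClasses.mk g = c ∧
      (orderOf g).primeFactors ⊆ S ∧
      ∀ q ∈ (L (C.out : G) : Set _),
        (g : Perm (Quotient (Perm.SameCycle.setoid ((C.out : G) : Perm X)))) q ≠ q}
  let Φ : {c : ConjClasses G // ∃ g, ConjClasses.mk g = c ∧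
      (orderOf g).primeFactors ⊆ insert p S ∧ ∀ m ∈ (M : Set X), (g : Perm X) m ≠ m} → Σ C, T C :=
    fun c => ⟨cls c, ⟨ConjClasses.mk ((cycleAction ((cls c).out : G)).rangeRestrict ⟨rep c, hmem c⟩),
      _, rfl, himg _ _ (hmem c) (hrep c).2.2.2 (hrep c).2.1,
      hfreeimg _ _ (hmem c) (hrep c).2.2.1⟩⟩
  have aux : ∀ (s t : Σ C, T C), s = t →
      ∀ (g g' : G) (hg : g ∈ Subgroup.centralizer ({(s.1.out : G)} : Set G))
        (hg' : g' ∈ Subgroup.centralizer ({(t.1.out : G)} : Set G)),
        g ^ e = s.1.out → g' ^ e = t.1.out →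
        s.2.1 = ConjClasses.mk ((cycleAction (s.1.out : G)).rangeRestrict ⟨g, hg⟩) →
        t.2.1 = ConjClasses.mk ((cycleAction (t.1.out : G)).rangeRestrict ⟨g', hg'⟩) →
        IsConj g g' := by
    rintro s t rfl g g' hg hg' h1 h2 h3 h4
    exact key _ g g' hg hg' h1 h2 (ConjClasses.mk_eq_mk_iff_isConj.1 (h3.symm.trans h4))
  have hinj : Function.Injective Φ := by
    intro c d h
    apply Subtype.ext
    rw [← (hrep c).1, ← (hrep d).1, ConjClasses.mk_eq_mk_iff_isConj]
    exact aux (Φ c) (Φ d) h (rep c) (rep d) (hmem c) (hmem d) (hrep c).2.2.2 (hrep d).2.2.2 rfl rfl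
  let f : Perm X → ℝ := fun u => F (fx M Finset.univ u) (oc M Finset.univ u)
  have hbound : ∀ C, (Nat.card (T C) : ℝ) ≤ f ((C.out : G) : Perm X) := by
    intro C
    haveI : Fintype (Quotient (Perm.SameCycle.setoid ((C.out : G) : Perm X))) := Fintype.ofFinite _
    refine le_trans (hF _ (cycleAction (C.out : G)).range (L (C.out : G))
      (Fintype.card_le_of_surjective _ Quotient.mk_surjective) (hinv _)) (le_of_eq ?_)
    have hL : (L (C.out : G)).card = fx M Finset.univ ((C.out : G) : Perm X) := by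
      rw [Finset.card_image_of_injOn]
      · unfold fx
        congr 1
        ext y
        simp
      · intro a ha b _ hab
        obtain ⟨i, hi⟩ := Quotient.exact hab
        rwa [Perm.zpow_apply_eq_self_of_apply_eq_self (Finset.mem_filter.1 ha).2] at hi
    have hcyc : Fintype.card (Quotient (Perm.SameCycle.setoid ((C.out : G) : Perm X))) =
        cyc Finset.univ ((C.out : G) : Perm X) := by
      rw [cyc_univ, Nat.card_eq_fintype_card]
    simp only [f, oc, hL, hcyc]
  have h1 : (numD G (insert p S) ↑M : ℝ) ≤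
      ∑ C : ConjClasses (P : Subgroup G), f ((C.out : G) : Perm X) := by
    refine le_trans (Nat.cast_le.2 (Nat.card_le_card_of_injective Φ hinj)) ?_
    rw [Nat.card_sigma, Nat.cast_sum]
    exact Finset.sum_le_sum fun C _ => hbound C
  refine h1.trans (le_of_eq ?_)
  -- the class equation
  have hfinv : ∀ g : G, ∀ u : Perm X, f ((g : Perm X) * u * (g : Perm X)⁻¹) = f u := by
    intro g u
    set z := (g : Perm X) with hz
    have hfx : fx M Finset.univ (z * u * z⁻¹) = fx M Finset.univ u := by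
      unfold fx
      refine (Finset.card_bij (fun y _ => z y) ?_ (fun _ _ _ _ h => z.injective h) ?_).symm
      · intro y hy
        simp only [Finset.mem_filter, Finset.mem_inter, Finset.mem_univ, true_and] at hy ⊢
        exact ⟨hM _ g.2 y hy.1, by simp [hy.2]⟩
      · intro y hy
        simp only [Finset.mem_filter, Finset.mem_inter, Finset.mem_univ, true_and] at hy
        refine ⟨z⁻¹ y, ?_, by simp⟩
        simp only [Finset.mem_filter, Finset.mem_inter, Finset.mem_univ, true_and]
        refine ⟨hM _ (inv_mem g.2) y hy.1, z.injective ?_⟩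
        simpa using hy.2
    have hcy : cyc Finset.univ (z * u * z⁻¹) = cyc Finset.univ u := by
      rw [cyc_univ, cyc_univ]
      refine Nat.card_congr (Quotient.congr z fun a b => ?_).symm
      show Perm.SameCycle u a b ↔ Perm.SameCycle (z * u * z⁻¹) (z a) (z b)
      rw [Perm.sameCycle_conj]
      simp
    simp only [f, oc, hfx, hcy]
  have hfconj : ∀ a b : (P : Subgroup G), IsConj a b →
      f ((a : G) : Perm X) = f ((b : G) : Perm X) := by
    intro a b hab
    obtain ⟨c, rfl⟩ := isConj_iff.1 hab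
    exact (hfinv (c : G) _).symm
  show ∑ C : ConjClasses (P : Subgroup G), f ((C.out : G) : Perm X) =
    os ((P : Subgroup G).map G.subtype) 1 f
  let E := ((P : Subgroup G).equivMapOfInjective G.subtype G.subtype_injective)
  unfold os
  letI : Fintype ((P : Subgroup G).map G.subtype) := Fintype.ofFinite _
  rw [eq_div_iff (Nat.cast_ne_zero.2 Nat.card_pos.ne'), mul_comm,
    ← Nat.card_congr E.toEquiv, ← sum_mul_cent_eq (fun a : (P : Subgroup G) => f ((a : G) : Perm X)) hfconj]
  refine Fintype.sum_equiv E.toEquiv _ _ fun a => ?_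
  have hE : ∀ a, ((E a : ((P : Subgroup G).map G.subtype)) : Perm X) = ((a : G) : Perm X) :=
    fun a => Subgroup.coe_equivMapOfInjective_apply _ _ _ a
  simp only [one_mul, MulEquiv.toEquiv_eq_coe, MulEquiv.coe_toEquiv, hE]
  congr 2
  unfold cent
  refine Nat.card_congr (Equiv.subtypeEquiv E.toEquiv fun m => ?_)
  simp only [MulEquiv.toEquiv_eq_coe, MulEquiv.coe_toEquiv, hE]
  constructor
  · intro h
    simpa using congrArg (fun z : (P : Subgroup G) => ((z : G) : Perm X)) h
  · intro h
    exact Subtype.ext (Subtype.ext (by simpa using h))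

end Cfsg.Agent.H61.PermTwo
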