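import Mathlib.Data.Nat.Basic
import Mathlib.Logic.Basic

/-!
Exact natural number computations for the table slice of S4197.

Values are scaled by `SC`, coefficients by `SB`, and rounded up. The `K` variants evaluate
strictly, so that the kernel shares intermediate rows.
-/

namespace Cfsg.Agent.H61.PermTwo.Tab

/-- Scale of the class bounds. -/
def SC : ℕ := 1000000

/-- Scale of the coefficients. -/
def SB : ℕ := 1000000000000

/-- Largest degree of the table. -/
def DT : ℕ := 138

/-- Rounded up division. -/
def cdiv (a b : ℕ) : ℕ := (a + b - 1) / b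

/-- Evaluate a natural number before use. -/
def forceN {α : Type} : ℕ → (ℕ → α) → α
  | 0, k => k 0
  | n + 1, k => k (n + 1)

theorem forceN_eq {α : Type} (n : ℕ) (k : ℕ → α) : forceN n k = k n := by
  cases n <;> rfl

/-- Evaluate a list before use. -/
def forceL {α : Type} : List ℕ → (List ℕ → α) → α
  | [], k => k []
  | a :: l, k => forceN a fun a' => forceL l fun l' => k (a' :: l')

theorem forceL_eq {α : Type} (l : List ℕ) (k : List ℕ → α) : forceL l k = k l := by
  induction l generalizing k with
  | nil => rfl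
  | cons a l ih => simp [forceL, forceN_eq, ih]

/-- Maximum with single evaluation of the arguments. -/
def maxN (a b : ℕ) : ℕ :=
  forceN a fun a' => forceN b fun b' => cond (Nat.ble a' b') b' a'

theorem maxN_eq (a b : ℕ) : maxN a b = max a b := by
  simp only [maxN, forceN_eq]
  cases h : Nat.ble a b
  · have h' : ¬a ≤ b := fun hc => by
      rw [← Nat.ble_eq, h] at hc
      exact Bool.false_ne_true hc
    simp [Nat.max_eq_left (le_of_lt (not_le.1 h'))]
  · rw [Nat.ble_eq] at h
    simp [Nat.max_eq_right h]

/-- Entrywise sum. -/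
def addL : List ℕ → List ℕ → List ℕ
  | [], y => y
  | a :: x, [] => a :: x
  | a :: x, b :: y => (a + b) :: addL x y

/-- Entrywise maximum. -/
def maxL : List ℕ → List ℕ → List ℕ
  | [], y => y
  | a :: x, [] => a :: x
  | a :: x, b :: y => maxN a b :: maxL x y

/-- Rounded scaling. -/
def scaleL (a : ℕ) (r : List ℕ) : List ℕ := r.map fun x => cdiv (a * x) SB

/-- Rounded product of polynomials. -/
def mulL : List ℕ → List ℕ → List ℕ
  | [], _ => []
  | a :: q, r => cond (Nat.beq a 0) (0 :: mulL q r) (addL (scaleL a r) (0 :: mulL q r))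

/-- Rounded power of a polynomial. -/
def powL (q : List ℕ) : ℕ → List ℕ
  | 0 => [SB]
  | m + 1 => mulL q (powL q m)

/-- Strict version of `powL`. -/
def powK {α : Type} (q : List ℕ) : ℕ → (List ℕ → α) → α
  | 0, k => k [SB]
  | m + 1, k => powK q m fun r => forceL (mulL q r) k

theorem powK_eq {α : Type} (q : List ℕ) (m : ℕ) (k : List ℕ → α) :
    powK q m k = k (powL q m) := by
  induction m generalizing k with
  | zero => rfl
  | succ m ih => simp [powK, powL, ih, forceL_eq]

/-- Rounded power of a scalar. -/
def bpow (B : ℕ) : ℕ → ℕ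
  | 0 => SB
  | n + 1 => cdiv (bpow B n * B) SB

/-- Polynomial of a component of size `p ^ k` with free cycles weighted `B`. -/
def qPoly (p B : ℕ) : ℕ → List ℕ
  | 0 => [0, SB]
  | k + 1 => addL (powL (qPoly p B k) p)
      [(p - 1) * p ^ ((p ^ k - 1) / (p - 1)) * bpow B (p ^ k)]

/-- Strict version of `qPoly`. -/
def qPolyK {α : Type} (p B : ℕ) : ℕ → (List ℕ → α) → α
  | 0, k => k [0, SB]
  | n + 1, k => qPolyK p B n fun q => powK q p fun r => forceL (addL r
      [(p - 1) * p ^ ((p ^ n - 1) / (p - 1)) * bpow B (p ^ n)]) k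

theorem qPolyK_eq {α : Type} (p B n : ℕ) (k : List ℕ → α) :
    qPolyK p B n k = k (qPoly p B n) := by
  induction n generalizing k with
  | zero => rfl
  | succ n ih => simp [qPolyK, qPoly, ih, powK_eq, forceL_eq]

/-- Components of sizes `p, …, p ^ K`. -/
def qList (p B : ℕ) : ℕ → List (ℕ × List ℕ)
  | 0 => []
  | k + 1 => (p ^ (k + 1), qPoly p B (k + 1)) :: qList p B k

/-- Strict version of `qList`. -/
def qListK {α : Type} (p B : ℕ) : ℕ → (List (ℕ × List ℕ) → α) → α
  | 0, f => f []
  | k + 1, f => qPolyK p B (k + 1) fun q => forceN (p ^ (k + 1)) fun m =>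
      qListK p B k fun l => f ((m, q) :: l)

theorem qListK_eq {α : Type} (p B K : ℕ) (f : List (ℕ × List ℕ) → α) :
    qListK p B K f = f (qList p B K) := by
  induction K generalizing f with
  | zero => rfl
  | succ K ih => simp [qListK, qList, qPolyK_eq, forceN_eq, ih]

/-- Correlation of a polynomial with a row. -/
def corr : List ℕ → List ℕ → List ℕ
  | [], _ => []
  | a :: q, row => cond (Nat.beq a 0) (corr q row.tail) (addL (scaleL a row) (corr q row.tail))

/-- Fold of the candidates for a new row. -/
def candL (qs : List (ℕ × List ℕ)) (R : List (List ℕ)) : List ℕ :=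
  match qs with
  | [] => (R.headD []).tail
  | (m, q) :: qs => maxL (corr q (R.getD (m - 1) [])) (candL qs R)

/-- Rows of the table, newest first. -/
def rows (qs : List (ℕ × List ℕ)) (U : List ℕ) : ℕ → List (List ℕ)
  | 0 => [U]
  | n + 1 => (candL qs (rows qs U n)).take (DT - n) :: rows qs U n

/-- Strict version of `rows`. -/
def rowsK {α : Type} (qs : List (ℕ × List ℕ)) (U : List ℕ) : ℕ → (List (List ℕ) → α) → α
  | 0, k => k [U]
  | n + 1, k => rowsK qs U n fun R => forceL ((candL qs R).take (DT - n)) fun r => k (r :: R)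

theorem rowsK_eq {α : Type} (qs : List (ℕ × List ℕ)) (U : List ℕ) (n : ℕ)
    (k : List (List ℕ) → α) : rowsK qs U n k = k (rows qs U n) := by
  induction n generalizing k with
  | zero => rfl
  | succ n ih => simp [rowsK, rows, ih, forceL_eq]

/-- One prime. -/
def stage (p B K : ℕ) (U : List ℕ) : List ℕ :=
  ((rows (qList p B K) U DT).map fun r => r.headD 0).reverse

/-- Strict version of `stage`. -/
def stageK {α : Type} (p B K : ℕ) (U : List ℕ) (k : List ℕ → α) : α :=
  qListK p B K fun qs => rowsK qs U DT fun R =>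
    forceL ((R.map fun r => r.headD 0).reverse) k

theorem stageK_eq {α : Type} (p B K : ℕ) (U : List ℕ) (k : List ℕ → α) :
    stageK p B K U k = k (stage p B K U) := by
  simp [stageK, stage, qListK_eq, rowsK_eq, forceL_eq]

/-- A run over a list of `(p, B', k₀, K)`. -/
def stages : List (ℕ × ℕ × ℕ × ℕ) → ℕ → List ℕ → List ℕ
  | [], _, U => U
  | (p, B', _, K) :: l, B, U => stages l B' (stage p B K U)

/-- Strict version of `stages`. -/
def stagesK {α : Type} : List (ℕ × ℕ × ℕ × ℕ) → ℕ → List ℕ → (List ℕ → α) → α
  | [], _, U, k => k U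
  | (p, B', _, K) :: l, B, U, k => stageK p B K U fun U' => stagesK l B' U' k

theorem stagesK_eq {α : Type} (l : List (ℕ × ℕ × ℕ × ℕ)) (B : ℕ) (U : List ℕ)
    (k : List ℕ → α) : stagesK l B U k = k (stages l B U) := by
  induction l generalizing B U with
  | nil => rfl
  | cons x l ih =>
    obtain ⟨p, B', k₀, K⟩ := x
    simp [stagesK, stages, stageK_eq, ih]

/-- Class bound of the two step. -/
def baseU : List ℕ := stage 2 SB 7 (SC :: List.replicate DT 0)

/-- Strict version of `baseU`. -/
def baseK {α : Type} (k : List ℕ → α) : α := stageK 2 SB 7 (SC :: List.replicate DT 0) k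

theorem baseK_eq {α : Type} (k : List ℕ → α) : baseK k = k baseU := by
  simp [baseK, baseU, stageK_eq]

end Cfsg.Agent.H61.PermTwo.Tab
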