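import Cfsg.Agent.H61.PermTwo.Defs
import Cfsg.Agent.H61.PermTwo.TableCalc

/-!
Correctness of the natural number table of `H61/PermTwo/TableCalc.lean`: the rows are closed
under the component operators `comp`, and the scalar chain bounds `rImp`.
-/

namespace Cfsg.Agent.H61.PermTwo.Tab

/-- Entry with default `0`. -/
def gt (l : List ℕ) (i : ℕ) : ℕ := l.getD i 0

theorem gt_nil (i : ℕ) : gt [] i = 0 := by simp [gt]

theorem gt_addL (x y : List ℕ) (i : ℕ) : gt (addL x y) i = gt x i + gt y i := by
  induction x generalizing y i with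
  | nil => simp [addL, gt]
  | cons a x ih =>
    cases y with
    | nil => simp [addL, gt]
    | cons b y =>
      cases i with
      | zero => simp [addL, gt]
      | succ i => simpa [addL, gt] using ih y i

theorem gt_maxL (x y : List ℕ) (i : ℕ) : gt (maxL x y) i = max (gt x i) (gt y i) := by
  induction x generalizing y i with
  | nil => simp [maxL, gt]
  | cons a x ih =>
    cases y with
    | nil => simp [maxL, gt]
    | cons b y =>
      cases i with
      | zero => simp [maxL, gt, maxN_eq]
      | succ i => simpa [maxL, gt] using ih y i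

theorem cdiv_zero' (b : ℕ) (hb : 0 < b) : cdiv 0 b = 0 :=
  Nat.div_eq_of_lt (by omega)

theorem sb_pos' : 0 < SB := Nat.succ_pos 999999999999

theorem cdiv_zero : cdiv 0 SB = 0 := cdiv_zero' SB sb_pos'

theorem gt_map (f : ℕ → ℕ) (hf : f 0 = 0) (r : List ℕ) (i : ℕ) :
    gt (r.map f) i = f (gt r i) := by
  induction r generalizing i with
  | nil => simp [gt, hf]
  | cons b r ih =>
    cases i with
    | zero => simp [gt]
    | succ i => simpa [gt] using ih i

theorem gt_scaleL (a : ℕ) (r : List ℕ) (i : ℕ) : gt (scaleL a r) i = cdiv (a * gt r i) SB :=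
  gt_map (fun x => cdiv (a * x) SB) ((congrArg (fun t => cdiv t SB) (Nat.mul_zero a)).trans
    cdiv_zero) r i

theorem gt_tail (r : List ℕ) (i : ℕ) : gt r.tail i = gt r (i + 1) := by
  cases r <;> simp [gt]

theorem gt_take (r : List ℕ) {n i : ℕ} (h : i < n) : gt (r.take n) i = gt r i := by
  simp [gt, List.getD_eq_getElem?_getD, List.getElem?_take, h]

theorem sb_pos : (0 : ℝ) < (SB : ℝ) := Nat.cast_pos.2 sb_pos'

theorem sc_pos : (0 : ℝ) < (SC : ℝ) := by norm_num [SC]

theorem div_le_cdiv (a : ℕ) : (a : ℝ) / SB ≤ (cdiv a SB : ℕ) := by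
  rw [div_le_iff₀ sb_pos]
  have h : a ≤ cdiv a SB * SB := by
    have key : ∀ b : ℕ, 0 < b → a ≤ (a + b - 1) / b * b := by
      intro b hb
      have h1 := Nat.div_add_mod (a + b - 1) b
      have h2 := Nat.mod_lt (a + b - 1) hb
      rw [Nat.mul_comm] at h1
      omega
    exact key SB sb_pos'
  exact_mod_cast h

/-- Value of a scaled polynomial as a functional on weights. -/
noncomputable def evalQ : List ℕ → (ℕ → ℝ) → ℝ
  | [], _ => 0
  | a :: q, W => (a : ℝ) / SB * W 0 + evalQ q fun f => W (f + 1)

theorem evalQ_nonneg (q : List ℕ) {W : ℕ → ℝ} (h : ∀ f, 0 ≤ W f) : 0 ≤ evalQ q W := by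
  induction q generalizing W with
  | nil => simp [evalQ]
  | cons a q ih =>
    have := ih (W := fun f => W (f + 1)) fun f => h _
    have := h 0
    simp only [evalQ]
    positivity

theorem evalQ_mono (q : List ℕ) {W W' : ℕ → ℝ} (h : ∀ f, W f ≤ W' f) :
    evalQ q W ≤ evalQ q W' := by
  induction q generalizing W W' with
  | nil => simp [evalQ]
  | cons a q ih =>
    have := ih (W := fun f => W (f + 1)) (W' := fun f => W' (f + 1)) fun f => h _
    simp only [evalQ]
    exact add_le_add (mul_le_mul_of_nonneg_left (h 0) (by positivity)) this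

theorem evalQ_addL (x y : List ℕ) (W : ℕ → ℝ) :
    evalQ (addL x y) W = evalQ x W + evalQ y W := by
  induction x generalizing y W with
  | nil => simp [addL, evalQ]
  | cons a x ih =>
    cases y with
    | nil => simp [addL, evalQ]
    | cons b y =>
      simp only [addL, evalQ, ih, Nat.cast_add]
      ring

theorem le_evalQ_scaleL (a : ℕ) (r : List ℕ) {W : ℕ → ℝ} (h : ∀ f, 0 ≤ W f) :
    (a : ℝ) / SB * evalQ r W ≤ evalQ (scaleL a r) W := by
  induction r generalizing W with
  | nil => simp [evalQ, scaleL]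
  | cons b r ih =>
    have h1 := ih (W := fun f => W (f + 1)) fun f => h _
    have h2 : (a : ℝ) * b / SB ≤ (cdiv (a * b) SB : ℕ) := by
      have := div_le_cdiv (a * b)
      push_cast at this
      exact this
    have h3 : (a : ℝ) * b / SB / SB * W 0 ≤ (cdiv (a * b) SB : ℕ) / (SB : ℝ) * W 0 :=
      mul_le_mul_of_nonneg_right (div_le_div_of_nonneg_right h2 sb_pos.le) (h 0)
    have h4 : (a : ℝ) / SB * ((b : ℝ) / SB * W 0) = (a : ℝ) * b / SB / SB * W 0 := by ring
    show (a : ℝ) / SB * ((b : ℝ) / SB * W 0 + evalQ r fun f => W (f + 1)) ≤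
      evalQ (cdiv (a * b) SB :: scaleL a r) W
    rw [mul_add, h4]
    exact add_le_add h3 h1

theorem le_evalQ_mulL (q r : List ℕ) {W : ℕ → ℝ} (h : ∀ f, 0 ≤ W f) :
    evalQ q (fun f => evalQ r fun g => W (f + g)) ≤ evalQ (mulL q r) W := by
  induction q generalizing W with
  | nil => simp [evalQ, mulL]
  | cons a q ih =>
    have h1 := ih (W := fun f => W (f + 1)) fun f => h _
    have e1 : (fun f => evalQ r fun g => W (f + 1 + g)) =
        fun f => evalQ r fun g => W (f + g + 1) := by
      funext f
      congr 1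
      funext g
      congr 1
      omega
    have e2 : evalQ (0 :: mulL q r) W = evalQ (mulL q r) fun f => W (f + 1) := by
      simp [evalQ]
    have h2 := le_evalQ_scaleL a r h
    show (a : ℝ) / SB * evalQ r (fun g => W (0 + g)) +
        evalQ q (fun f => evalQ r fun g => W (f + 1 + g)) ≤ evalQ (mulL (a :: q) r) W
    simp only [Nat.zero_add, e1]
    cases hb : Nat.beq a 0
    · simp only [mulL, hb, cond_false, evalQ_addL, e2]
      exact add_le_add h2 h1
    · have ha : a = 0 := Nat.eq_of_beq_eq_true hb
      simp only [mulL, hb, cond_true, e2]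
      subst ha
      simpa using h1

theorem le_bpow (B n : ℕ) : ((B : ℝ) / SB) ^ n ≤ (bpow B n : ℕ) / (SB : ℝ) := by
  induction n with
  | zero =>
    rw [pow_zero, bpow, div_self sb_pos.ne']
  | succ n ih =>
    have h1 := div_le_cdiv (bpow B n * B)
    push_cast at h1
    rw [pow_succ]
    calc ((B : ℝ) / SB) ^ n * ((B : ℝ) / SB) ≤ (bpow B n : ℕ) / (SB : ℝ) * ((B : ℝ) / SB) :=
          mul_le_mul_of_nonneg_right ih (by positivity)
      _ = (bpow B n : ℕ) * (B : ℝ) / SB / SB := by ring
      _ ≤ (bpow B (n + 1) : ℕ) / (SB : ℝ) := div_le_div_of_nonneg_right h1 sb_pos.le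

/-- Monotone and homogeneous operators. -/
def IsLin (C : (ℕ → ℕ → ℝ) → ℝ) : Prop :=
  (∀ H H', (∀ f c, H f c ≤ H' f c) → C H ≤ C H') ∧
    ∀ (s : ℝ) H, C (fun f c => s * H f c) = s * C H

theorem isLin_nest {C : (ℕ → ℕ → ℝ) → ℝ} (hC : IsLin C) : ∀ m, IsLin (nest C m) := by
  intro m
  induction m with
  | zero => exact ⟨fun H H' h => h 0 0, fun s H => rfl⟩
  | succ m ih =>
    refine ⟨fun H H' h => hC.1 _ _ fun f c => ih.1 _ _ fun f' c' => h _ _, fun s H => ?_⟩
    simp only [nest]
    rw [← hC.2]
    congr 1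
    funext f c
    exact ih.2 s _

theorem isLin_comp (p : ℕ) : ∀ k, IsLin (comp p k) := by
  intro k
  induction k with
  | zero => exact ⟨fun H H' h => h 1 0, fun s H => rfl⟩
  | succ k ih =>
    have hn := isLin_nest ih p
    refine ⟨fun H H' h => ?_, fun s H => ?_⟩
    · simp only [comp]
      exact add_le_add (hn.1 _ _ h) (mul_le_mul_of_nonneg_left (h _ _) (Nat.cast_nonneg _))
    · simp only [comp]
      rw [hn.2]
      ring

theorem nest_le_powL {C : (ℕ → ℕ → ℝ) → ℝ} (hC : IsLin C) (q : List ℕ) {b : ℝ}
    (hb0 : 0 ≤ b) (hq : ∀ W : ℕ → ℝ, (∀ f, 0 ≤ W f) → C (fun f c => W f * b ^ c) ≤ evalQ q W) :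
    ∀ m, ∀ W : ℕ → ℝ, (∀ f, 0 ≤ W f) →
      nest C m (fun f c => W f * b ^ c) ≤ evalQ (powL q m) W := by
  intro m
  induction m with
  | zero =>
    intro W _
    simp [nest, powL, evalQ, sb_pos.ne']
  | succ m ih =>
    intro W hW
    have hb : ∀ f c, nest C m (fun f' c' => W (f + f') * b ^ (c + c')) =
        b ^ c * nest C m (fun f' c' => W (f + f') * b ^ c') := by
      intro f c
      rw [← (isLin_nest hC m).2]
      congr 1
      funext f' c'
      rw [pow_add]
      ring
    have h1 : nest C (m + 1) (fun f c => W f * b ^ c) =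
        C (fun f c => nest C m (fun f' c' => W (f + f') * b ^ c') * b ^ c) := by
      show C _ = C _
      congr 1
      funext f c
      rw [hb, mul_comm]
    rw [h1]
    refine le_trans ?_ (le_trans (hq (fun f => evalQ (powL q m) fun g => W (f + g))
      (fun f => evalQ_nonneg _ fun g => hW _)) (le_evalQ_mulL q (powL q m) hW))
    refine hC.1 _ _ fun f c => ?_
    have := ih (fun g => W (f + g)) fun g => hW _
    exact mul_le_mul_of_nonneg_right this (pow_nonneg hb0 c)

theorem comp_le_qPoly (p B : ℕ) : ∀ k, ∀ W : ℕ → ℝ, (∀ f, 0 ≤ W f) →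
    comp p k (fun f c => W f * ((B : ℝ) / SB) ^ c) ≤ evalQ (qPoly p B k) W := by
  intro k
  induction k with
  | zero =>
    intro W _
    simp [comp, qPoly, evalQ, sb_pos.ne']
  | succ k ih =>
    intro W hW
    simp only [comp, qPoly, evalQ_addL]
    refine add_le_add (nest_le_powL (isLin_comp p k) _ (by positivity) ih p W hW) ?_
    simp only [evalQ, add_zero, Nat.cast_mul]
    calc _ ≤ (((p - 1 : ℕ) : ℝ) * ((p ^ ((p ^ k - 1) / (p - 1)) : ℕ) : ℝ)) *
          (W 0 * ((bpow B (p ^ k) : ℕ) / (SB : ℝ))) :=
          mul_le_mul_of_nonneg_left (mul_le_mul_of_nonneg_left (le_bpow B _) (hW 0))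
            (by positivity)
      _ = _ := by ring

theorem evalQ_le_corr (q : List ℕ) : ∀ (row : List ℕ) (i : ℕ),
    evalQ q (fun f => (gt row (i + f) : ℝ) / SC) ≤ (gt (corr q row) i : ℝ) / SC := by
  induction q with
  | nil =>
    intro row i
    simp [evalQ, corr, gt]
  | cons a q ih =>
    intro row i
    have h1 := ih row.tail i
    simp only [gt_tail] at h1
    have e1 : (fun f => (gt row (i + (f + 1)) : ℝ) / SC) =
        fun f => (gt row (i + f + 1) : ℝ) / SC := by
      funext f
      rw [Nat.add_assoc]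
    show (a : ℝ) / SB * ((gt row (i + 0) : ℝ) / SC) +
      evalQ q (fun f => (gt row (i + (f + 1)) : ℝ) / SC) ≤ _
    rw [e1]
    cases hb : Nat.beq a 0
    · simp only [corr, hb, cond_false, gt_addL, gt_scaleL, Nat.cast_add, add_div]
      refine add_le_add ?_ h1
      have := div_le_cdiv (a * gt row i)
      push_cast at this
      calc (a : ℝ) / SB * ((gt row (i + 0) : ℝ) / SC) = (a : ℝ) * gt row i / SB / SC := by
            simp only [Nat.add_zero]
            ring
        _ ≤ _ := div_le_div_of_nonneg_right this sc_pos.le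
    · have ha : a = 0 := Nat.eq_of_beq_eq_true hb
      simp only [corr, hb, cond_true]
      subst ha
      simpa using h1

/-- Row `a` of the table. -/
def row (qs : List (ℕ × List ℕ)) (U : List ℕ) (a : ℕ) : List ℕ := (rows qs U a).headD []

theorem rows_getD (qs : List (ℕ × List ℕ)) (U : List ℕ) : ∀ n j, j ≤ n →
    (rows qs U n).getD j [] = row qs U (n - j) := by
  intro n
  induction n with
  | zero =>
    intro j hj
    obtain rfl : j = 0 := by omega
    simp [rows, row]
  | succ n ih =>
    intro j hj
    cases j with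
    | zero => simp [rows, row]
    | succ j =>
      have := ih j (by omega)
      simpa [rows] using this

theorem rows_headD (qs : List (ℕ × List ℕ)) (U : List ℕ) (n : ℕ) :
    (rows qs U n).headD [] = row qs U n := rfl

theorem corr_le_candL {qs : List (ℕ × List ℕ)} (R : List (List ℕ)) {m : ℕ} {q : List ℕ}
    (h : (m, q) ∈ qs) (i : ℕ) :
    gt (corr q (R.getD (m - 1) [])) i ≤ gt (candL qs R) i := by
  induction qs with
  | nil => simp at h
  | cons x qs ih =>
    obtain ⟨m', q'⟩ := x
    simp only [candL, gt_maxL]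
    rcases List.mem_cons.1 h with h | h
    · obtain ⟨rfl, rfl⟩ := Prod.mk.inj h
      exact le_max_left _ _
    · exact le_trans (ih h) (le_max_right _ _)

theorem tail_le_candL (qs : List (ℕ × List ℕ)) (R : List (List ℕ)) (i : ℕ) :
    gt (R.headD []).tail i ≤ gt (candL qs R) i := by
  induction qs with
  | nil => simp [candL]
  | cons x qs ih =>
    obtain ⟨m', q'⟩ := x
    simp only [candL, gt_maxL]
    exact le_trans ih (le_max_right _ _)

theorem mem_qList (p B : ℕ) : ∀ K k, 1 ≤ k → k ≤ K → (p ^ k, qPoly p B k) ∈ qList p B K := by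
  intro K
  induction K with
  | zero => intro k h1 h2; omega
  | succ K ih =>
    intro k h1 h2
    rcases Nat.lt_or_ge K k with h | h
    · obtain rfl : k = K + 1 := by omega
      simp [qList]
    · exact List.mem_cons_of_mem _ (ih k h1 h)

/-- The table as real weights. -/
noncomputable def W (p B K : ℕ) (U : List ℕ) (i a : ℕ) : ℝ :=
  (gt (row (qList p B K) U a) i : ℝ) / SC

theorem W_nonneg (p B K : ℕ) (U : List ℕ) (i a : ℕ) : 0 ≤ W p B K U i a := by
  unfold W
  positivity

theorem W_zero (p B K : ℕ) (U : List ℕ) (i : ℕ) : W p B K U i 0 = (gt U i : ℝ) / SC := rfl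

theorem gt_stage (qs : List (ℕ × List ℕ)) (U : List ℕ) : ∀ n a, a ≤ n →
    gt (((rows qs U n).map fun r => r.headD 0).reverse) a = gt (row qs U a) 0 := by
  intro n
  induction n with
  | zero =>
    intro a ha
    obtain rfl : a = 0 := by omega
    cases U <;> simp [rows, row, gt]
  | succ n ih =>
    intro a ha
    have hlen : ((rows qs U n).map fun r => r.headD 0).reverse.length = n + 1 := by
      have : ∀ m, (rows qs U m).length = m + 1 := by
        intro m
        induction m with
        | zero => simp [rows]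
        | succ m ihm => simp [rows, ihm]
      simp [this]
    simp only [rows, List.map_cons, List.reverse_cons]
    rcases Nat.lt_or_ge n a with h | h
    · obtain rfl : a = n + 1 := by omega
      simp only [gt, row, rows, List.headD_cons, List.getD_eq_getElem?_getD]
      rw [List.getElem?_append_right (by omega), hlen]
      simp [List.headD_eq_head?_getD, List.head?_eq_getElem?]
    · rw [← ih a h]
      simp only [gt, List.getD_eq_getElem?_getD]
      rw [List.getElem?_append_left (by omega)]

theorem W_stage (p B K : ℕ) (U : List ℕ) {a : ℕ} (ha : a ≤ DT) :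
    W p B K U 0 a = (gt (stage p B K U) a : ℝ) / SC := by
  unfold W stage
  rw [gt_stage _ _ DT a ha]

theorem W_closed (p B K : ℕ) (U : List ℕ) (hp : 1 ≤ p) (hK : DT < p ^ (K + 1)) (k i a : ℕ)
    (h : i + p ^ k + a ≤ DT) :
    comp p k (fun f c => W p B K U (i + f) a * ((B : ℝ) / SB) ^ c) ≤ W p B K U i (a + p ^ k) := by
  have hcand : ∀ n, i + (n + 1) ≤ DT → gt (row (qList p B K) U (n + 1)) i =
      gt (candL (qList p B K) (rows (qList p B K) U n)) i := by
    intro n hn
    show gt ((candL (qList p B K) (rows (qList p B K) U n)).take (DT - n)) i = _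
    exact gt_take _ (by omega)
  cases k with
  | zero =>
    simp only [comp, pow_zero, mul_one]
    unfold W
    refine div_le_div_of_nonneg_right ?_ sc_pos.le
    rw [hcand a (by simp only [pow_zero] at h; omega)]
    have := tail_le_candL (qList p B K) (rows (qList p B K) U a) i
    rw [gt_tail, rows_headD] at this
    exact_mod_cast this
  | succ k =>
    have hk : k + 1 ≤ K := by
      by_contra hc
      have := Nat.pow_le_pow_right hp (show K + 1 ≤ k + 1 by omega)
      omega
    refine le_trans (comp_le_qPoly p B (k + 1) (fun f => W p B K U (i + f) a)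
      fun f => W_nonneg _ _ _ _ _ _) (le_trans (evalQ_le_corr _ _ i) ?_)
    unfold W
    refine div_le_div_of_nonneg_right ?_ sc_pos.le
    obtain ⟨m, hm⟩ : ∃ m, p ^ (k + 1) = m + 1 :=
      ⟨p ^ (k + 1) - 1, by have := Nat.one_le_pow (k + 1) p hp; omega⟩
    have e : a + p ^ (k + 1) = (a + m) + 1 := by omega
    rw [e, hcand (a + m) (by omega)]
    have hmem := mem_qList p B K (k + 1) (by omega) hk
    have := corr_le_candL (rows (qList p B K) U (a + m)) hmem i
    rw [rows_getD _ _ _ _ (by omega), show a + m - (p ^ (k + 1) - 1) = a by omega] at this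
    exact_mod_cast this

end Cfsg.Agent.H61.PermTwo.Tab
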