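import Cfsg.Agent.H61.PermTwo.Steps
import Cfsg.Agent.H61.PermTwo.Step
import Cfsg.Agent.H61.PermTwo.TwoGroup
import Cfsg.Agent.H61.PermTwo.Analytic
import Cfsg.Agent.H61.PermTwo.TableFacts

/-!
Bounds on derangement classes for degree at most `138`, by induction over the primes (S4197).
-/

namespace Cfsg.Agent.H61.PermTwo.Tab

open Equiv

/-- `rImp p B B k` scaled by `SB ^ p ^ k`. -/
def rN (p B : ℕ) : ℕ → ℕ
  | 0 => B
  | k + 1 => rN p B k ^ p + (if p = 3 ∧ k = 1 then 0 else (p - 1) * p ^ ((p ^ k - 1) / (p - 1))) *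
      B ^ p ^ k * SB ^ (p ^ (k + 1) - p ^ k)

/-- Numerators of the auxiliary rates `s` and `r`. -/
def auxRate (p : ℕ) : ℕ × ℕ := if p = 3 then (1733, 13) else (2000, 20)

/-- The side conditions of one prime. -/
def entryOK (p B B' k₀ K : ℕ) : Bool :=
  decide (3 ≤ p ∧ SB ≤ B ∧ B ≤ 2 * SB ∧ SB ≤ B' ∧ DT < p ^ (K + 1)) &&
  (decide (∀ k < k₀, rN p B k ≤ B' ^ p ^ k) &&
  (decide (rN p B k₀ + SB ^ p ^ k₀ ≤ B' ^ p ^ k₀) &&
  (decide (p * 1000 ^ (p - 1) ≤ (auxRate p).1 ^ (p - 1)) &&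
  (decide (p * 10 ^ p ^ k₀ ≤ (auxRate p).2 ^ p ^ k₀) &&
  decide ((auxRate p).1 * B * (auxRate p).2 * SB ^ (p - 1) ≤ 10000 * SB * B' ^ (p - 1))))))

/-- The side conditions of the whole chain. -/
def chainOK : List (ℕ × ℕ × ℕ × ℕ) → ℕ → Bool
  | [], _ => true
  | (p, B', k₀, K) :: l, B => entryOK p B B' k₀ K && chainOK l B'

theorem rN_eq (p B : ℕ) (hp : 1 ≤ p) :
    ∀ k, (rN p B k : ℝ) = rImp p ((B : ℝ) / SB) ((B : ℝ) / SB) k * (SB : ℝ) ^ p ^ k := by
  intro k
  induction k with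
  | zero =>
    simp only [rN, rImp, pow_zero, pow_one]
    rw [div_mul_cancel₀ _ sb_pos.ne']
  | succ k ih =>
    have hle : p ^ k ≤ p ^ (k + 1) := Nat.pow_le_pow_right hp (Nat.le_succ k)
    have h1 : (SB : ℝ) ^ p ^ (k + 1) = (SB : ℝ) ^ p ^ k * (SB : ℝ) ^ (p ^ (k + 1) - p ^ k) := by
      rw [← pow_add, Nat.add_sub_cancel' hle]
    have h2 : rImp p ((B : ℝ) / SB) ((B : ℝ) / SB) k ^ p * (SB : ℝ) ^ p ^ (k + 1) =
        (rN p B k : ℝ) ^ p := by
      rw [ih, mul_pow, ← pow_mul, ← pow_succ]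
    have h3 : ((B : ℝ) / SB) ^ p ^ k * (SB : ℝ) ^ p ^ (k + 1) =
        (B : ℝ) ^ p ^ k * (SB : ℝ) ^ (p ^ (k + 1) - p ^ k) := by
      rw [h1, ← mul_assoc, ← mul_pow, div_mul_cancel₀ _ sb_pos.ne']
    simp only [rN, rImp, Nat.cast_add, Nat.cast_mul, Nat.cast_pow, add_mul, h2]
    rw [mul_assoc _ (((B : ℝ) / SB) ^ p ^ k), h3]
    split_ifs <;> push_cast <;> ring

theorem rImp_le_of_entryOK {p B B' k₀ K : ℕ} (h : entryOK p B B' k₀ K = true) :
    ∀ k, rImp p ((B : ℝ) / SB) ((B : ℝ) / SB) k ≤ ((B' : ℝ) / SB) ^ p ^ k := by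
  simp only [entryOK, Bool.and_eq_true, decide_eq_true_eq] at h
  obtain ⟨⟨hp, hB, -, hB', -⟩, hsmall, hbase, hps, hpr, hsr⟩ := h
  generalize (auxRate p).1 = sn at hps hsr
  generalize (auxRate p).2 = rn at hpr hsr
  have hSB := sb_pos
  have hsn : 1000 ≤ sn := by
    by_contra hc
    have h1 := Nat.pow_le_pow_left (le_of_lt (not_le.1 hc)) (p - 1)
    have h2 : 3 * 1000 ^ (p - 1) ≤ 1000 ^ (p - 1) :=
      ((Nat.mul_le_mul_right _ hp).trans hps).trans h1
    have h3 : 0 < 1000 ^ (p - 1) := Nat.pow_pos (by norm_num)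
    omega
  have hs1 : (1 : ℝ) ≤ (sn : ℝ) / 1000 := by
    rw [le_div_iff₀ (by norm_num), one_mul]
    exact_mod_cast hsn
  have hb1 : (1 : ℝ) ≤ (B : ℝ) / SB := by
    rw [le_div_iff₀ hSB, one_mul]
    exact_mod_cast hB
  have hT1 : (1 : ℝ) ≤ (B' : ℝ) / SB := by
    rw [le_div_iff₀ hSB, one_mul]
    exact_mod_cast hB'
  have hps' : (p : ℝ) ≤ ((sn : ℝ) / 1000) ^ (p - 1) := by
    rw [div_pow, le_div_iff₀ (by positivity)]
    exact_mod_cast hps
  have hpr' : (p : ℝ) ≤ ((rn : ℝ) / 10) ^ p ^ k₀ := by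
    rw [div_pow, le_div_iff₀ (by positivity)]
    exact_mod_cast hpr
  have hr1 : (1 : ℝ) ≤ (rn : ℝ) / 10 := by
    by_contra hc
    have h1 : ((rn : ℝ) / 10) ^ p ^ k₀ ≤ 1 :=
      pow_le_one₀ (by positivity) (le_of_lt (not_le.1 hc))
    have h2 : (3 : ℝ) ≤ (p : ℝ) := by exact_mod_cast hp
    linarith
  have hsr' : (sn : ℝ) / 1000 * ((B : ℝ) / SB) * ((rn : ℝ) / 10) ≤
      ((B' : ℝ) / SB) ^ (p - 1) := by
    have e : (sn : ℝ) / 1000 * ((B : ℝ) / SB) * ((rn : ℝ) / 10) =
        (sn : ℝ) * B * rn / (10000 * SB) := by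
      field_simp
      ring
    rw [e, div_pow, div_le_div_iff₀ (by positivity) (by positivity)]
    have hq : (sn : ℝ) * B * rn * (SB : ℝ) ^ (p - 1) ≤ 10000 * SB * (B' : ℝ) ^ (p - 1) := by
      exact_mod_cast hsr
    linarith
  have hb0 : (0 : ℝ) ≤ (sn : ℝ) / 1000 * ((B : ℝ) / SB) := by positivity
  refine rImp_le hp ((sn : ℝ) / 1000) (by positivity) hb1 hT1 hs1 hps' k₀ ?_ ?_ ?_ ?_
  · intro k hk
    rw [div_pow, le_div_iff₀ (by positivity), ← rN_eq p B (by omega)]
    exact_mod_cast hsmall k hk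
  · rw [div_pow, le_div_iff₀ (by positivity), add_mul, one_mul, ← rN_eq p B (by omega)]
    exact_mod_cast hbase
  · refine le_trans ?_ (pow_le_pow_left₀ (by positivity) hsr' _)
    rw [mul_pow _ ((rn : ℝ) / 10), mul_comm]
    exact mul_le_mul_of_nonneg_left hpr' (pow_nonneg hb0 _)
  · exact le_trans (le_mul_of_one_le_right hb0 hr1) hsr'

/-- Table bound for the primes in `T`. -/
def Inv (T : Finset ℕ) (B : ℕ) (U : List ℕ) : Prop :=
  ∀ (Y : Type) [Fintype Y] (H : Subgroup (Perm Y)) (L : Finset Y), Fintype.card Y ≤ DT →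
    (∀ g ∈ H, ∀ m ∈ L, g m ∈ L) →
      (numD H T ↑L : ℝ) ≤ (gt U L.card : ℝ) / SC * ((B : ℝ) / SB) ^ (Fintype.card Y - L.card)

/-- The rate after the prime `2`. -/
def B₂ : ℕ := 1495400000000

theorem inv_two : Inv (insert 2 ∅) B₂ baseU := by
  intro Y _ H L hY hL
  classical
  have : Fact (Nat.Prime 2) := ⟨Nat.prime_two⟩
  obtain ⟨P⟩ : Nonempty (Sylow 2 H) := inferInstance
  have h1 := numD_insert_le H L hL ∅ 2 P (fun f _ => if f = 0 then (1 : ℝ) else 0) (by
    intro Z _ H' L' _ _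
    split_ifs with h
    · exact_mod_cast numD_empty_le H' ↑L'
    · rw [numD_empty_eq_zero H' ↑L' (Finset.coe_nonempty.2 (Finset.card_ne_zero.1 h))]
      simp)
  refine h1.trans ((step_two (fun a => W 2 SB 7 (SC :: List.replicate DT 0) 0 a)
    (fun a => W_nonneg _ _ _ _ _ _) ?_ DT ?_ L _ (P.isPGroup'.map _) ?_ hY).trans ?_)
  · simp [W_zero, gt, sc_pos.ne']
  · intro k a _ hk
    refine le_trans ((isLin_comp 2 k).1 _ _ fun f c => ?_)
      (W_closed 2 SB 7 (SC :: List.replicate DT 0) (by norm_num) (by norm_num [DT]) k 0 a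
        (by omega))
    rw [div_self sb_pos.ne', one_pow, mul_one, Nat.zero_add]
    split_ifs with hf
    · rw [hf]
    · exact W_nonneg _ _ _ _ _ _
  · intro g hg
    exact hL g (Subgroup.map_subtype_le _ hg)
  · have hcard : L.card ≤ DT := le_trans (Finset.card_le_univ L) hY
    have e : W 2 SB 7 (SC :: List.replicate DT 0) 0 L.card = (gt baseU L.card : ℝ) / SC :=
      W_stage 2 SB 7 (SC :: List.replicate DT 0) hcard
    show W 2 SB 7 (SC :: List.replicate DT 0) 0 L.card * _ ≤ _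
    rw [e]
    refine mul_le_mul_of_nonneg_left (kTwo_le_pow (by positivity) ?_ _) (by positivity)
    norm_num [B₂, SB]

theorem inv_insert {T : Finset ℕ} {B : ℕ} {U : List ℕ} (hT : Inv T B U) {p B' k₀ K : ℕ}
    [Fact p.Prime] (h : entryOK p B B' k₀ K = true) : Inv (insert p T) B' (stage p B K U) := by
  intro Y _ H L hY hL
  classical
  have hfree := rImp_le_of_entryOK h
  simp only [entryOK, Bool.and_eq_true, decide_eq_true_eq] at h
  obtain ⟨⟨hp, hB, hB2, -, hK⟩, -⟩ := h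
  obtain ⟨P⟩ : Nonempty (Sylow p H) := inferInstance
  have hSB := sb_pos
  have hb1 : (1 : ℝ) ≤ (B : ℝ) / SB := by
    rw [le_div_iff₀ hSB, one_mul]
    exact_mod_cast hB
  have hb2 : (B : ℝ) / SB ≤ 2 := by
    rw [div_le_iff₀ hSB]
    exact_mod_cast hB2
  rw [← W_stage p B K U (le_trans (Finset.card_le_univ L) hY)]
  refine (numD_insert_le H L hL T p P (fun f c => W p B K U f 0 * ((B : ℝ) / SB) ^ c) ?_).trans
    (step_table hp hb1 hb2 (by positivity) hfree DT (W p B K U) (W_nonneg p B K U)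
      (W_closed p B K U (by omega) hK) L _ (P.isPGroup'.map _) ?_ hY)
  · intro Z _ H' L' hZ hL'
    rw [W_zero]
    exact hT Z H' L' (hZ.trans hY) hL'
  · intro g hg
    exact hL g (Subgroup.map_subtype_le _ hg)

theorem inv_stages : ∀ (l : List (ℕ × ℕ × ℕ × ℕ)) (T : Finset ℕ) (B : ℕ) (U : List ℕ),
    (∀ e ∈ l, e.1.Prime) → chainOK l B = true → Inv T B U →
      ∃ T' B', T ⊆ T' ∧ (∀ e ∈ l, e.1 ∈ T') ∧ Inv T' B' (stages l B U) := by
  intro l
  induction l with
  | nil =>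
    intro T B U _ _ hT
    exact ⟨T, B, Finset.Subset.refl _, by simp, hT⟩
  | cons x l ih =>
    intro T B U hp hc hT
    obtain ⟨p, B₁, k₀, K⟩ := x
    have : Fact p.Prime := ⟨hp _ List.mem_cons_self⟩
    rw [chainOK, Bool.and_eq_true] at hc
    obtain ⟨T', B', hsub, hmem, hinv⟩ := ih (insert p T) B₁ (stage p B K U)
      (fun e he => hp e (List.mem_cons_of_mem _ he)) hc.2 (inv_insert hT hc.1)
    refine ⟨T', B', (Finset.subset_insert p T).trans hsub, fun e he => ?_, hinv⟩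
    rcases List.mem_cons.1 he with rfl | he
    · exact hsub (Finset.mem_insert_self p T)
    · exact hmem e he

/-- The primes `3, …, 137`, each with the next rate, the start of the tail and the top level. -/
def data : List (ℕ × ℕ × ℕ × ℕ) :=
   [(3, 1850338838440, 3, 4),
    (5, 1962242474458, 2, 3),
    (7, 1990459472129, 2, 2),
    (11, 1992396791172, 1, 2),
    (13, 1992885735268, 1, 1),
    (17, 1992916981061, 1, 1),
    (19, 1992924871985, 1, 1),
    (23, 1992925374534, 1, 1),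
    (29, 1992925382592, 1, 1),
    (31, 1992925384624, 1, 1),
    (37, 1992925384657, 1, 1),
    (41, 1992925384660, 1, 1),
    (43, 1992925384661, 1, 1),
    (47, 1992925384662, 1, 1),
    (53, 1992925384663, 1, 1),
    (59, 1992925384664, 1, 1),
    (61, 1992925384665, 1, 1),
    (67, 1992925384666, 1, 1),
    (71, 1992925384667, 1, 1),
    (73, 1992925384668, 1, 1),
    (79, 1992925384669, 1, 1),
    (83, 1992925384670, 1, 1),
    (89, 1992925384671, 1, 1),
    (97, 1992925384672, 1, 1),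
    (101, 1992925384673, 1, 1),
    (103, 1992925384674, 1, 1),
    (107, 1992925384675, 1, 1),
    (109, 1992925384676, 1, 1),
    (113, 1992925384677, 1, 1),
    (127, 1992925384678, 1, 1),
    (131, 1992925384679, 1, 1),
    (137, 1992925384680, 1, 1)]

theorem data_prime : ∀ e ∈ data, e.1.Prime := by decide +kernel

theorem data_chain : chainOK data B₂ = true := by decide +kernel

theorem data_cover : ∀ q ∈ Finset.range 139, q.Prime → q = 2 ∨ q ∈ data.map Prod.fst := by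
  decide +kernel

/-- The table after all the primes up to `138`. -/
def finalU : List ℕ := stages data B₂ baseU

/-- The numeric condition of the splitting step. -/
def numOK (u : List ℕ) : Bool :=
  (List.range 130).all fun i => Nat.ble
    (gt u (i + 9) + gt u (i + 8) + SC * 2 ^ (i + 6)) (SC * 2 ^ (i + 8))

set_option maxRecDepth 20000 in
theorem numOK_strict : baseK (fun u => stagesK data B₂ u numOK) = true := by decide +kernel

theorem numOK_finalU : numOK finalU = true := by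
  have h := numOK_strict
  rw [baseK_eq, stagesK_eq] at h
  exact h

end Cfsg.Agent.H61.PermTwo.Tab

namespace Cfsg.Agent.H61.PermTwo

open Equiv

/-- The table bound in degree `d`. -/
noncomputable def Dtab (d : ℕ) : ℝ := (Tab.gt Tab.finalU d : ℝ) / Tab.SC

theorem Dtab_nonneg (d : ℕ) : 0 ≤ Dtab d := by
  unfold Dtab
  positivity

/-- Classes of derangements in degree at most `138`. -/
theorem numD_le_table {X : Type} [Fintype X] (G : Subgroup (Perm X)) (h : Fintype.card X ≤ 138) :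
    (numD G ((Finset.range (Fintype.card X + 1)).filter Nat.Prime) Set.univ : ℝ) ≤
      Dtab (Fintype.card X) := by
  classical
  obtain ⟨T, B, hsub, hmem, hinv⟩ := Tab.inv_stages Tab.data (insert 2 ∅) Tab.B₂ Tab.baseU
    Tab.data_prime Tab.data_chain Tab.inv_two
  have h1 := hinv X G Finset.univ h fun _ _ _ _ => Finset.mem_univ _
  rw [Finset.coe_univ, Finset.card_univ, Nat.sub_self, pow_zero, mul_one] at h1
  refine le_trans (Nat.cast_le.2 (numD_mono G ?_ Set.univ)) h1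
  intro q hq
  obtain ⟨hr, hq'⟩ := Finset.mem_filter.1 hq
  have hr' : q ∈ Finset.range 139 :=
    Finset.mem_range.2 (by have := Finset.mem_range.1 hr; omega)
  rcases Tab.data_cover q hr' hq' with h2 | h2
  · exact hsub (by simp [h2])
  · obtain ⟨e, he, rfl⟩ := List.mem_map.1 h2
    exact hmem e he

/-- The numeric condition of the splitting step for `9 ≤ d ≤ 138`. -/
theorem table_num : ∀ d, 9 ≤ d → d ≤ 138 →
    Dtab d + Dtab (d - 1) + 2 ^ (d - 3) ≤ (2 : ℝ) ^ (d - 1) := by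
  intro d h1 h2
  have h := Tab.numOK_finalU
  rw [Tab.numOK, List.all_eq_true] at h
  have h3 := h (d - 9) (List.mem_range.2 (by omega))
  rw [Nat.ble_eq, show d - 9 + 9 = d by omega, show d - 9 + 8 = d - 1 by omega,
    show d - 9 + 6 = d - 3 by omega] at h3
  have h4 : (Tab.gt Tab.finalU d : ℝ) + Tab.gt Tab.finalU (d - 1) + Tab.SC * (2 : ℝ) ^ (d - 3) ≤
      Tab.SC * (2 : ℝ) ^ (d - 1) := by exact_mod_cast h3
  unfold Dtab
  rw [← add_div, div_add' _ _ _ Tab.sc_pos.ne', div_le_iff₀ Tab.sc_pos]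
  linarith

end Cfsg.Agent.H61.PermTwo
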