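import Cfsg.Agent.H61.PermTwo.Split
import Cfsg.Agent.H61.PermTwo.Small
import Cfsg.Agent.H61.PermTwo.Analytic
import Cfsg.Agent.H61.PermTwo.Table

/-!
Assembly: a permutation group of degree `n` has at most `2 ^ (n - 1)` conjugacy classes.
The bound on classes of fixed-point-free elements is the least of the small table (`d ≤ 8`),
the computed table (`d ≤ 138`) and the analytic bound.
-/

namespace Cfsg.Agent.H61.PermTwo

open Equiv

/-- Bound for the classes of fixed-point-free elements in degree `d`. -/
noncomputable def Dfinal (d : ℕ) : ℝ :=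
  if d < 8 then Dsmall d else if d = 8 then min (Dsmall 8) (Dtab 8)
  else if d ≤ 138 then min (Dtab d) (Ainf ^ d) else Ainf ^ d

theorem numD_le_Dfinal {X : Type} [Fintype X] (G : Subgroup (Perm X)) :
    (numD G ((Finset.range (Fintype.card X + 1)).filter Nat.Prime) Set.univ : ℝ) ≤
      Dfinal (Fintype.card X) := by
  unfold Dfinal
  split_ifs with h1 h2 h3
  · exact numD_le_small G (by omega)
  · exact le_min (h2 ▸ numD_le_small G (by omega)) (h2 ▸ numD_le_table G (by omega))
  · exact le_min (numD_le_table G h3) (numD_le_analytic G)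
  · exact numD_le_analytic G

theorem Dfinal_le_small {d : ℕ} (h : d ≤ 8) : Dfinal d ≤ Dsmall d := by
  unfold Dfinal
  split_ifs with h1 h2 h3
  · exact le_rfl
  · exact h2 ▸ min_le_left _ _
  all_goals omega

theorem Dfinal_le_table {d : ℕ} (h : 8 ≤ d) (h' : d ≤ 138) : Dfinal d ≤ Dtab d := by
  unfold Dfinal
  split_ifs with h1 h2
  · omega
  · exact h2 ▸ min_le_right _ _
  · exact min_le_left _ _

theorem Dfinal_le_pow {d : ℕ} (h : 9 ≤ d) : Dfinal d ≤ Ainf ^ d := by
  unfold Dfinal
  split_ifs with h1 h2 h3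
  · omega
  · omega
  · exact min_le_right _ _
  · exact le_rfl

theorem Dfinal_num (d : ℕ) (h : 3 ≤ d) :
    Dfinal d + Dfinal (d - 1) + 2 ^ (d - 3) ≤ (2 : ℝ) ^ (d - 1) := by
  by_cases h8 : d ≤ 8
  · linarith [small_num d h h8, Dfinal_le_small h8, Dfinal_le_small (d := d - 1) (by omega)]
  by_cases h138 : d ≤ 138
  · linarith [table_num d (by omega) h138, Dfinal_le_table (d := d) (by omega) h138,
      Dfinal_le_table (d := d - 1) (by omega) (by omega)]
  · linarith [analytic_num d (by omega), Dfinal_le_pow (d := d) (by omega),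
      Dfinal_le_pow (d := d - 1) (by omega)]

/-- A permutation group of degree `n` has at most `2 ^ (n - 1)` classes. -/
theorem card_conjClasses_le {α : Type*} [Fintype α] (S : Subgroup (Equiv.Perm α)) :
    Nat.card (ConjClasses S) ≤ 2 ^ (Fintype.card α - 1) :=
  card_conjClasses_le_two_pow Dfinal (fun _ _ G => numD_le_Dfinal G) Dfinal_num S

end Cfsg.Agent.H61.PermTwo
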