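import Cfsg.Agent.H61.PermTwo.Defs
import Cfsg.Agent.H21.LinClasses.KBound
import Mathlib.Algebra.Group.Subgroup.Finite
import Mathlib.Data.Nat.Prime.Factorial
import Mathlib.Data.Finite.Perm
import Mathlib.Data.Nat.PrimeFin
import Mathlib.GroupTheory.OrderOfElement
import Mathlib.NumberTheory.Padics.PadicVal.Basic
import Mathlib.GroupTheory.GroupAction.Defs
import Mathlib.Algebra.Group.End
import Mathlib.Data.Fintype.Perm

/-!
Class number of a permutation group from a bound on the classes of derangements (S4197, slice E).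
-/

namespace Cfsg.Agent.H61.PermTwo

open Equiv Cfsg.Agent.H21.LinClasses

theorem card_conjClasses_congr {A B : Type*} [Group A] [Group B] [Finite A] [Finite B]
    (e : A ≃* B) : Nat.card (ConjClasses A) = Nat.card (ConjClasses B) :=
  le_antisymm (card_conjClasses_of_surjective e.symm.toMonoidHom e.symm.surjective)
    (card_conjClasses_of_surjective e.toMonoidHom e.surjective)

theorem card_conjClasses_range {A B : Type*} [Group A] [Group B] [Finite A]
    {f : A →* B} (hf : Function.Injective f) :
    Nat.card (ConjClasses A) = Nat.card (ConjClasses f.range) :=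
  have : Finite f.range := Finite.of_surjective f.rangeRestrict f.rangeRestrict_surjective
  card_conjClasses_congr (MonoidHom.ofInjective hf)

/-- Restriction of `G` to an invariant predicate. -/
def restr {X : Type} (G : Subgroup (Perm X)) (q : X → Prop)
    (hq : ∀ g ∈ G, ∀ y, q (g y) ↔ q y) : G →* Perm {y // q y} where
  toFun g := Perm.subtypePerm (g : Perm X) (fun y => hq g g.2 y)
  map_one' := by ext y; simp
  map_mul' _ _ := by ext _; rfl

theorem restr_apply {X : Type} (G : Subgroup (Perm X)) (q : X → Prop)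
    (hq : ∀ g ∈ G, ∀ y, q (g y) ↔ q y) (g : G) (y : {y // q y}) :
    (restr G q hq g y : X) = (g : Perm X) y := rfl

/-- `G` is transitive. -/
def Trans {X : Type} (G : Subgroup (Perm X)) : Prop := ∀ a b, ∃ g ∈ G, g a = b

/-- The bound below degree `d`. -/
def Below (d : ℕ) : Prop :=
  ∀ (Y : Type) [Fintype Y], Fintype.card Y < d → ∀ H : Subgroup (Perm Y),
    Nat.card (ConjClasses H) ≤ 2 ^ (Fintype.card Y - 1)

theorem card_le_of_not_trans {X : Type} [Fintype X] {d : ℕ} (hd : Fintype.card X ≤ d)
    (ih : Below d) (G : Subgroup (Perm X)) (hG : ¬ Trans G) :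
    Nat.card (ConjClasses G) ≤ 2 ^ (Fintype.card X - 2) := by
  classical
  simp only [Trans, not_forall] at hG
  obtain ⟨a, b, hab⟩ := hG
  let q : X → Prop := fun y => ∃ g ∈ G, g a = y
  have hq : ∀ g ∈ G, ∀ y, q (g y) ↔ q y := by
    intro g hg y
    constructor
    · rintro ⟨h, hh, he⟩
      exact ⟨g⁻¹ * h, mul_mem (inv_mem hg) hh, by simp [he]⟩
    · rintro ⟨h, hh, he⟩
      exact ⟨g * h, mul_mem hg hh, by simp [he]⟩
  have hq' : ∀ g ∈ G, ∀ y, ¬ q (g y) ↔ ¬ q y := fun g hg y => not_congr (hq g hg y)
  have hqa : q a := ⟨1, one_mem _, rfl⟩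
  have hqb : ¬ q b := hab
  let ρ := restr G q hq
  let σ := (restr G (fun y => ¬ q y) hq').comp ρ.ker.subtype
  have hσ : Function.Injective σ := by
    intro u v huv
    apply Subtype.ext
    apply Subtype.ext
    ext y
    by_cases hy : q y
    · have hu := Equiv.congr_fun (MonoidHom.mem_ker.1 u.2) ⟨y, hy⟩
      have hv := Equiv.congr_fun (MonoidHom.mem_ker.1 v.2) ⟨y, hy⟩
      exact (congrArg Subtype.val hu).trans (congrArg Subtype.val hv).symm
    · exact congrArg Subtype.val (Equiv.congr_fun huv ⟨y, hy⟩)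
  have h1 := card_conjClasses_le_ker_mul_range ρ
  have hA : Fintype.card {y // q y} < Fintype.card X := Fintype.card_subtype_lt (x := b) hqb
  have hB : Fintype.card {y // ¬ q y} < Fintype.card X :=
    Fintype.card_subtype_lt (x := a) (by simp [hqa])
  have hA1 : 1 ≤ Fintype.card {y // q y} := Fintype.card_pos_iff.2 ⟨⟨a, hqa⟩⟩
  have hB1 : 1 ≤ Fintype.card {y // ¬ q y} := Fintype.card_pos_iff.2 ⟨⟨b, hqb⟩⟩
  have hsum : Fintype.card {y // q y} + Fintype.card {y // ¬ q y} = Fintype.card X := by
    rw [← Fintype.card_sum]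
    exact Fintype.card_congr (Equiv.sumCompl q)
  have hr := ih {y // q y} (hA.trans_le hd) ρ.range
  have hk := ih {y // ¬ q y} (hB.trans_le hd) σ.range
  rw [← card_conjClasses_range hσ] at hk
  calc Nat.card (ConjClasses G) ≤ _ := h1
    _ ≤ 2 ^ (Fintype.card {y // ¬ q y} - 1) * 2 ^ (Fintype.card {y // q y} - 1) :=
        Nat.mul_le_mul hk hr
    _ = 2 ^ (Fintype.card X - 2) := by rw [← pow_add]; congr 1; omega

/-- The stabiliser of `a`, as permutations of the other points. -/
def stab {X : Type} (G : Subgroup (Perm X)) (a : X) : Subgroup (Perm X) :=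
  G ⊓ MulAction.stabilizer (Perm X) a

theorem mem_stab {X : Type} {G : Subgroup (Perm X)} {a : X} {g : Perm X} :
    g ∈ stab G a ↔ g ∈ G ∧ g a = a := Iff.rfl

theorem stab_invariant {X : Type} (G : Subgroup (Perm X)) (a : X) :
    ∀ g ∈ stab G a, ∀ y, g y ≠ a ↔ y ≠ a := by
  intro g hg y
  conv_lhs => rw [← (mem_stab.1 hg).2]
  exact g.injective.ne_iff

/-- The stabiliser acting on the other points. -/
def stabImage {X : Type} (G : Subgroup (Perm X)) (a : X) : Subgroup (Perm {y // y ≠ a}) :=
  (restr (stab G a) (fun y => y ≠ a) (stab_invariant G a)).range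

theorem card_conjClasses_stab {X : Type} [Finite X] (G : Subgroup (Perm X)) (a : X) :
    Nat.card (ConjClasses (stab G a)) = Nat.card (ConjClasses (stabImage G a)) := by
  refine card_conjClasses_range fun u v huv => ?_
  apply Subtype.ext
  ext y
  by_cases hy : y = a
  · subst hy; exact (mem_stab.1 u.2).2.trans (mem_stab.1 v.2).2.symm
  · exact congrArg Subtype.val (Equiv.congr_fun huv ⟨y, hy⟩)

/-- Classes of derangements, plus classes of a point stabiliser. -/
theorem card_le_numD_add {X : Type} [Fintype X] (G : Subgroup (Perm X)) (hG : Trans G) (a : X) :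
    Nat.card (ConjClasses G) ≤
      numD G ((Finset.range (Fintype.card X + 1)).filter Nat.Prime) Set.univ +
        Nat.card (ConjClasses (stabImage G a)) := by
  classical
  have : Finite (ConjClasses G) := Finite.of_surjective ConjClasses.mk ConjClasses.mk_surjective
  have : Finite (ConjClasses (stab G a)) :=
    Finite.of_surjective ConjClasses.mk ConjClasses.mk_surjective
  let D : ConjClasses G → Prop := fun c => ∃ g : G, ConjClasses.mk g = c ∧
    (orderOf g).primeFactors ⊆ (Finset.range (Fintype.card X + 1)).filter Nat.Prime ∧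
    ∀ m ∈ (Set.univ : Set X), (g : Perm X) m ≠ m
  have hprimes : ∀ g : G, (orderOf g).primeFactors ⊆
      (Finset.range (Fintype.card X + 1)).filter Nat.Prime := by
    intro g p hp
    obtain ⟨hpp, hpd, -⟩ := Nat.mem_primeFactors.1 hp
    have hdvd : p ∣ (Fintype.card X).factorial := by
      rw [← Nat.card_eq_fintype_card (α := X), ← Nat.card_perm]
      exact hpd.trans ((orderOf_dvd_natCard g).trans (Subgroup.card_subgroup_dvd_card G))
    have hle := (Nat.Prime.dvd_factorial hpp).1 hdvd
    exact Finset.mem_filter.2 ⟨Finset.mem_range.2 (by omega), hpp⟩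
  have hrep : ∀ c : {c // ¬ D c}, ∃ h : stab G a,
      ConjClasses.mk (⟨(h : Perm X), (mem_stab.1 h.2).1⟩ : G) = c.1 := by
    rintro ⟨c, hc⟩
    obtain ⟨g, rfl⟩ := ConjClasses.exists_rep c
    have hfix : ∃ m : X, (g : Perm X) m = m := by
      by_contra h
      push Not at h
      exact hc ⟨g, rfl, hprimes g, fun m _ => h m⟩
    obtain ⟨m, hm⟩ := hfix
    obtain ⟨x, hx, hxm⟩ := hG m a
    refine ⟨⟨x * (g : Perm X) * x⁻¹, mem_stab.2 ⟨mul_mem (mul_mem hx g.2) (inv_mem hx), ?_⟩⟩, ?_⟩
    · subst hxm; simp [hm]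
    · refine ConjClasses.mk_eq_mk_iff_isConj.2 (IsConj.symm (isConj_iff.2 ⟨⟨x, hx⟩, ?_⟩))
      exact Subtype.ext rfl
  choose rep hrep using hrep
  have h2 : Nat.card {c // ¬ D c} ≤ Nat.card (ConjClasses (stab G a)) := by
    refine Nat.card_le_card_of_injective (fun c => ConjClasses.mk (rep c)) fun c c' h => ?_
    apply Subtype.ext
    rw [← hrep c, ← hrep c']
    obtain ⟨u, hu⟩ := isConj_iff.1 (ConjClasses.mk_eq_mk_iff_isConj.1 h)
    refine ConjClasses.mk_eq_mk_iff_isConj.2 (isConj_iff.2 ⟨⟨u, (mem_stab.1 u.2).1⟩, ?_⟩)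
    exact Subtype.ext (congrArg Subtype.val hu :)
  calc Nat.card (ConjClasses G) = Nat.card {c // D c} + Nat.card {c // ¬ D c} := by
        rw [← Nat.card_sum]; exact (Nat.card_congr (Equiv.sumCompl D)).symm
    _ ≤ _ := Nat.add_le_add (le_refl _) (h2.trans (card_conjClasses_stab G a).le)

/-- The bound, in every degree, from a derangement bound. -/
theorem below_all (D : ℕ → ℝ)
    (hD : ∀ (X : Type) [Fintype X] (G : Subgroup (Perm X)),
      (numD G ((Finset.range (Fintype.card X + 1)).filter Nat.Prime) Set.univ : ℝ) ≤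
        D (Fintype.card X))
    (hnum : ∀ d, 3 ≤ d → D d + D (d - 1) + 2 ^ (d - 3) ≤ (2 : ℝ) ^ (d - 1)) :
    ∀ d, Below d := by
  classical
  intro d
  induction d with
  | zero => intro Y _ h; omega
  | succ d ih =>
    intro X _ hX G
    rcases Nat.lt_or_ge (Fintype.card X) d with hlt | hge
    · exact ih X hlt G
    have hcard : Fintype.card X = d := by omega
    rcases Nat.lt_or_ge d 3 with hd | hd
    · calc Nat.card (ConjClasses G) ≤ Nat.card G := card_conjClasses_le_card G
        _ ≤ Nat.card (Perm X) := Subgroup.card_le_card_group G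
        _ = (Fintype.card X).factorial := by rw [Nat.card_perm, Nat.card_eq_fintype_card]
        _ ≤ _ := by rw [hcard]; interval_cases d <;> decide
    by_cases hG : Trans G
    swap
    · exact (card_le_of_not_trans hcard.le ih G hG).trans
        (Nat.pow_le_pow_right (by norm_num) (by omega))
    obtain ⟨a⟩ : Nonempty X := Fintype.card_pos_iff.1 (by omega)
    have hnn : ∀ (Y : Type) [Fintype Y], 0 ≤ D (Fintype.card Y) := fun Y _ =>
      le_trans (Nat.cast_nonneg _) (hD Y ⊥)
    have hY : Fintype.card {y // y ≠ a} = d - 1 := by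
      have h := Fintype.card_subtype_compl (fun y : X => y = a)
      rw [Fintype.card_subtype_eq, hcard] at h
      exact h
    set H := stabImage G a
    have hH : (Nat.card (ConjClasses H) : ℝ) ≤ D (d - 1) + 2 ^ (d - 3) := by
      by_cases hT : Trans H
      · obtain ⟨b⟩ : Nonempty {y // y ≠ a} := Fintype.card_pos_iff.1 (by omega)
        have h1 := card_le_numD_add H hT b
        have hZ : Fintype.card {y : {y // y ≠ a} // y ≠ b} = d - 2 := by
          have h := Fintype.card_subtype_compl (fun y : {y // y ≠ a} => y = b)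
          rw [Fintype.card_subtype_eq, hY] at h
          rw [h]; omega
        have h2 := ih {y : {y // y ≠ a} // y ≠ b} (by omega) (stabImage H b)
        rw [hZ, show d - 2 - 1 = d - 3 by omega] at h2
        have h3 := hD {y // y ≠ a} H
        rw [hY] at h3
        refine (Nat.cast_le.2 h1).trans ?_
        rw [hY, Nat.cast_add]
        refine add_le_add h3 ((Nat.cast_le.2 h2).trans ?_)
        rw [Nat.cast_pow, Nat.cast_ofNat]
      · have h2 := card_le_of_not_trans (d := d) (by omega) ih H hT
        rw [hY, show d - 1 - 2 = d - 3 by omega] at h2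
        have h4 := hnn {y // y ≠ a}
        rw [hY] at h4
        refine (Nat.cast_le.2 h2).trans ?_
        rw [Nat.cast_pow, Nat.cast_ofNat]
        linarith
    have h1 : (Nat.card (ConjClasses G) : ℝ) ≤ (2 : ℝ) ^ (d - 1) := by
      have h0 := card_le_numD_add G hG a
      have h3 := hD X G
      rw [hcard] at h0 h3
      refine (Nat.cast_le.2 h0).trans ?_
      rw [Nat.cast_add]
      have := hnum d hd
      linarith
    rw [hcard]
    exact_mod_cast h1

theorem card_conjClasses_le_two_pow (D : ℕ → ℝ)
    (hD : ∀ (X : Type) [Fintype X] (G : Subgroup (Perm X)),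
      (numD G ((Finset.range (Fintype.card X + 1)).filter Nat.Prime) Set.univ : ℝ) ≤
        D (Fintype.card X))
    (hnum : ∀ d, 3 ≤ d → D d + D (d - 1) + 2 ^ (d - 3) ≤ (2 : ℝ) ^ (d - 1))
    {α : Type*} [Fintype α] (S : Subgroup (Perm α)) :
    Nat.card (ConjClasses S) ≤ 2 ^ (Fintype.card α - 1) := by
  classical
  let e := (Fintype.equivFin α).permCongrHom
  have h := below_all D hD hnum (Fintype.card α + 1) (Fin (Fintype.card α)) (by simp)
    (S.map e.toMonoidHom)
  rw [Fintype.card_fin] at h
  rwa [card_conjClasses_congr (S.equivMapOfInjective e.toMonoidHom e.injective)]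

end Cfsg.Agent.H61.PermTwo
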